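import Mathlib
import Cfsg.Agent.Lib.H07.GolayM12
import Cfsg.Agent.Lib.H27.GolayStab

/-!
# The octad stabiliser acts on the octad as the alternating group
-/

set_option autoImplicit false
set_option maxRecDepth 100000

namespace Cfsg.Agent.H07.Orb

open Cfsg Cfsg.Agent.H27.Golay
open scoped Pointwise

abbrev l6 : List ℕ := [5, 3, 2, 1, 0, 23]

theorem T7_fix : allL (fun t => allBelow (fun i => !bitb O0 i || Nat.beq (pa t i) i) 24) T7 = true := by
  decide +kernel

/-- Elements fixing the six points fix the whole octad. -/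
theorem fix6_pw {g : Equiv.Perm GolayPt} (hg : g ∈ fixG l6) {x : GolayPt} (hx : x ∈ fs O0) : g x = x := by
  obtain ⟨t, ht, hf, g', hg', rfl⟩ := level7.exists_mul hg
  have hg1 : g' = 1 := by
    have : g' ∈ fixG baseL := hg'
    rw [fix_base_trivial] at this
    exact this
  rw [hg1, mul_one]
  have hok := isM24_permOK (isFix_isM24 hf)
  have h1 := allBelow_spec (allL_spec T7_fix t ht) (idx x) (idx_lt x)
  rw [bitb_eq, mem_fs.mp hx] at h1
  simp only [Bool.not_true, Bool.false_or] at h1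
  rw [P_apply hok, Nat.eq_of_beq_eq_true h1, pt_idx]

theorem l6_mem_O0 : ∀ i ∈ l6, pt i ∈ fs O0 := by decide

theorem mem_fixG_of_pw {g : Equiv.Perm GolayPt} (hg : g ∈ M24) (h : ∀ x ∈ fs O0, g x = x) : g ∈ fixG l6 :=
  ⟨hg, fun i hi => h _ (l6_mem_O0 i hi)⟩

theorem stab_iff {g : Equiv.Perm GolayPt} {o : Finset GolayPt} : g • o = o ↔ ∀ x, g x ∈ o ↔ x ∈ o := by
  constructor
  · intro h x
    constructor
    · intro hx
      have h1 := Finset.smul_mem_smul_finset (a := g⁻¹) hx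
      have h3 : g⁻¹ • o = o := inv_smul_eq_iff.mpr h.symm
      rw [h3] at h1
      simpa using h1
    · intro hx
      have h1 := Finset.smul_mem_smul_finset (a := g) hx
      rwa [h] at h1
  · intro h
    refine Finset.eq_of_subset_of_card_le ?_ (by rw [Finset.card_smul_finset])
    intro y hy
    obtain ⟨x, hx, rfl⟩ := Finset.mem_smul_finset.mp hy
    exact (h x).mpr hx

/-- The action on the octad. -/
noncomputable def phiO (o : Finset GolayPt) : ↥(MulAction.stabilizer M24 o) →* Equiv.Perm ↥o :=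
  MonoidHom.mk' (fun g => ((g : ↥M24) : Equiv.Perm GolayPt).subtypePerm (stab_iff.mp g.2)) (by
    intro g₁ g₂
    ext x
    rfl)

theorem mem_ker_phiO {o : Finset GolayPt} {z : ↥(MulAction.stabilizer M24 o)} :
    z ∈ (phiO o).ker ↔ ∀ x ∈ o, ((z : ↥M24) : Equiv.Perm GolayPt) x = x := by
  rw [MonoidHom.mem_ker]
  constructor
  · intro h x hx
    have := congrArg (fun e : Equiv.Perm ↥o => ((e ⟨x, hx⟩ : ↥o) : GolayPt)) h
    exact this
  · intro h
    apply Equiv.ext
    intro x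
    apply Subtype.ext
    exact h x.1 x.2

theorem card_ker_phiO {o : Finset GolayPt} (ho : o ∈ octads) : Nat.card ↥(phiO o).ker = 16 := by
  obtain ⟨h, hh, rfl⟩ := exists_smul_O0 ho
  rw [← card_fix6]
  refine Nat.card_congr ⟨fun z => ⟨h⁻¹ * (((z : ↥(MulAction.stabilizer M24 (h • fs O0))) : ↥M24) : Equiv.Perm GolayPt) * h, ?_⟩,
    fun y => ⟨⟨⟨h * (y : Equiv.Perm GolayPt) * h⁻¹, M24.mul_mem (M24.mul_mem hh y.2.1) (M24.inv_mem hh)⟩, ?_⟩, ?_⟩, ?_, ?_⟩
  · refine mem_fixG_of_pw (M24.mul_mem (M24.mul_mem (M24.inv_mem hh) (z.1 : ↥M24).2) hh) ?_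
    intro x hx
    have h1 := mem_ker_phiO.mp z.2 (h x) (Finset.smul_mem_smul_finset hx)
    simp only [Equiv.Perm.mul_apply]
    rw [h1]
    simp
  · have h1 : (y : Equiv.Perm GolayPt) • fs O0 = fs O0 := by
      refine Finset.eq_of_subset_of_card_le ?_ (by rw [Finset.card_smul_finset])
      intro w hw
      obtain ⟨a, ha, rfl⟩ := Finset.mem_smul_finset.mp hw
      have h2 := fix6_pw y.2 ha
      show (y : Equiv.Perm GolayPt) a ∈ _
      rwa [h2]
    show (h * (y : Equiv.Perm GolayPt) * h⁻¹) • h • fs O0 = h • fs O0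
    rw [mul_smul, mul_smul, inv_smul_smul, h1]
  · refine mem_ker_phiO.mpr ?_
    intro x hx
    obtain ⟨a, ha, rfl⟩ := Finset.mem_smul_finset.mp hx
    show (h * (y : Equiv.Perm GolayPt) * h⁻¹) (h a) = h a
    have h1 := fix6_pw y.2 ha
    simp [h1]
  · intro z
    apply Subtype.ext
    apply Subtype.ext
    apply Subtype.ext
    show h * (h⁻¹ * _ * h) * h⁻¹ = _
    group
  · intro y
    apply Subtype.ext
    show h⁻¹ * (h * _ * h⁻¹) * h = _
    group

theorem range_phiO {o : Finset GolayPt} (ho : o ∈ octads) : (phiO o).range = alternatingGroup ↥o := by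
  have h1 := card_stab_octad ho
  have h2 : (phiO o).ker.index = Nat.card (phiO o).range := Subgroup.index_ker _
  have h3 := (phiO o).ker.card_mul_index
  rw [card_ker_phiO ho, h1, h2] at h3
  have h4 : Nat.card (phiO o).range = 20160 := by omega
  have hc : o.card = 8 := ho.2
  have h5 := (phiO o).range.card_mul_index
  have h6 : Nat.card (Equiv.Perm ↥o) = 40320 := by
    rw [Nat.card_perm, Nat.card_eq_fintype_card, Fintype.card_coe, hc]
    rfl
  rw [h4, h6] at h5
  exact Equiv.Perm.eq_alternatingGroup_of_index_eq_two (by omega)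

theorem induced_alt {o : Finset GolayPt} (ho : o ∈ octads) :
    {e : Equiv.Perm ↥o | ∃ g : Equiv.Perm GolayPt, g ∈ M24 ∧ ∃ h : (∀ x, g x ∈ o ↔ x ∈ o), g.subtypePerm h = e} =
      (alternatingGroup ↥o : Set (Equiv.Perm ↥o)) := by
  rw [← range_phiO ho]
  ext e
  constructor
  · rintro ⟨g, hg, h, rfl⟩
    exact ⟨⟨⟨g, hg⟩, stab_iff.mpr h⟩, rfl⟩
  · rintro ⟨⟨⟨g, hg⟩, hs⟩, rfl⟩
    exact ⟨g, hg, stab_iff.mp hs, rfl⟩

/-! ### The split extension -/

/-- The complement of a point. -/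
theorem flag_out' {o : Finset GolayPt} {x : GolayPt} (ho : o ∈ octads) (hx : x ∉ o) :
    ∃ h ∈ M24, h • fs O0 = o ∧ h (pt 4) = x := flag_out ho hx

theorem mem_comp_O0 {y : GolayPt} (hy : y ∉ fs O0) : y ∈ fs 8241104 := by
  have h1 : ∀ p : GolayPt, p ∈ fs O0 ∨ p ∈ fs 8241104 := by decide
  exact (h1 y).resolve_left hy

/-- The pointwise stabiliser is transitive off the octad. -/
theorem exists_fix_move {o : Finset GolayPt} {x y : GolayPt} (ho : o ∈ octads) (hx : x ∉ o) (hy : y ∉ o) :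
    ∃ ε ∈ M24 ⊓ fixingSubgroup (Equiv.Perm GolayPt) (o : Set GolayPt), ε x = y := by
  obtain ⟨h, hh, rfl, rfl⟩ := flag_out ho hx
  have hy' : h⁻¹ y ∉ fs O0 := by
    intro hc
    apply hy
    have := Finset.smul_mem_smul_finset (a := h) hc
    simpa using this
  obtain ⟨t, -, h1, -, h2⟩ := level7.exists_mem (mem_comp_O0 hy')
  refine ⟨h * P t * h⁻¹, ⟨M24.mul_mem (M24.mul_mem hh h1.1) (M24.inv_mem hh), ?_⟩, ?_⟩
  · refine (mem_fixingSubgroup_iff (Equiv.Perm GolayPt)).mpr ?_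
    intro w hw
    obtain ⟨a, ha, rfl⟩ := Finset.mem_smul_finset.mp (Finset.mem_coe.mp hw)
    show (h * P t * h⁻¹) (h a) = h a
    have h3 := fix6_pw h1 ha
    simp [h3]
  · show (h * P t * h⁻¹) (h (pt 4)) = y
    simp [h2]

theorem fixing_le {o : Finset GolayPt} :
    M24 ⊓ fixingSubgroup (Equiv.Perm GolayPt) (o : Set GolayPt) ≤ M24 ⊓ MulAction.stabilizer (Equiv.Perm GolayPt) o := by
  rintro g ⟨h1, h2⟩
  refine ⟨h1, ?_⟩
  replace h2 := (mem_fixingSubgroup_iff (Equiv.Perm GolayPt)).mp h2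
  refine Finset.eq_of_subset_of_card_le ?_ (by rw [Finset.card_smul_finset])
  intro w hw
  obtain ⟨a, ha, rfl⟩ := Finset.mem_smul_finset.mp hw
  show g a ∈ _
  have h3 : g a = a := h2 a (Finset.mem_coe.mpr ha)
  rw [h3]
  exact ha

theorem split_bot {o : Finset GolayPt} {p : GolayPt} (ho : o ∈ octads) (hp : p ∉ o) :
    (M24 ⊓ fixingSubgroup (Equiv.Perm GolayPt) (o : Set GolayPt)) ⊓
      (M24 ⊓ MulAction.stabilizer (Equiv.Perm GolayPt) o ⊓ MulAction.stabilizer (Equiv.Perm GolayPt) p) = ⊥ := by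
  rw [eq_bot_iff]
  rintro g ⟨⟨h1, h2⟩, ⟨-, h3⟩⟩
  obtain ⟨h, hh, rfl, rfl⟩ := flag_out ho hp
  replace h2 := (mem_fixingSubgroup_iff (Equiv.Perm GolayPt)).mp h2
  have h3' : g (h (pt 4)) = h (pt 4) := h3
  have hb : h⁻¹ * g * h ∈ fixG baseL := by
    refine ⟨M24.mul_mem (M24.mul_mem (M24.inv_mem hh) h1) hh, ?_⟩
    intro i hi
    simp only [List.mem_cons, List.not_mem_nil, or_false] at hi
    have hmem : ∀ i ∈ l6, (h⁻¹ * g * h) (pt i) = pt i := by
      intro i hi
      have h4 : g (h (pt i)) = h (pt i) := h2 (h (pt i)) (Finset.mem_coe.mpr (Finset.smul_mem_smul_finset (l6_mem_O0 i hi)))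
      simp [h4]
    rcases hi with rfl | rfl | rfl | rfl | rfl | rfl | rfl
    · simp [h3']
    · exact hmem _ (by simp)
    · exact hmem _ (by simp)
    · exact hmem _ (by simp)
    · exact hmem _ (by simp)
    · exact hmem _ (by simp)
    · exact hmem _ (by simp)
  rw [fix_base_trivial] at hb
  have h5 : h⁻¹ * g * h = 1 := hb
  have h6 : g = h * (h⁻¹ * g * h) * h⁻¹ := by group
  rw [h6, h5]
  simp

theorem split_sup {o : Finset GolayPt} {p : GolayPt} (ho : o ∈ octads) (hp : p ∉ o) :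
    (M24 ⊓ fixingSubgroup (Equiv.Perm GolayPt) (o : Set GolayPt)) ⊔
      (M24 ⊓ MulAction.stabilizer (Equiv.Perm GolayPt) o ⊓ MulAction.stabilizer (Equiv.Perm GolayPt) p) =
        M24 ⊓ MulAction.stabilizer (Equiv.Perm GolayPt) o := by
  apply le_antisymm
  · exact sup_le fixing_le inf_le_left
  · rintro g ⟨h1, h2⟩
    have h2' : g • o = o := h2
    have hy : g p ∉ o := by
      intro hc
      exact hp ((stab_iff.mp h2' p).mp hc)
    obtain ⟨ε, hε, e⟩ := exists_fix_move ho hp hy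
    have hεs := fixing_le hε
    have hεs' : ε • o = o := hεs.2
    have hm : ε⁻¹ * g ∈ (M24 ⊓ MulAction.stabilizer (Equiv.Perm GolayPt) o ⊓ MulAction.stabilizer (Equiv.Perm GolayPt) p) := by
      refine ⟨⟨M24.mul_mem (M24.inv_mem hε.1) h1, ?_⟩, ?_⟩
      · show (ε⁻¹ * g) • o = o
        rw [mul_smul, h2', inv_smul_eq_iff, hεs']
      · show (ε⁻¹ * g) p = p
        rw [Equiv.Perm.mul_apply, ← e]
        simp
    have : g = ε * (ε⁻¹ * g) := by group
    rw [this]
    exact Subgroup.mul_mem_sup hε hm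

/-- The complement is the alternating group. -/
theorem split_alt {o : Finset GolayPt} {p : GolayPt} (ho : o ∈ octads) (hp : p ∉ o) :
    Nonempty (↥(M24 ⊓ MulAction.stabilizer (Equiv.Perm GolayPt) o ⊓ MulAction.stabilizer (Equiv.Perm GolayPt) p) ≃*
      alternatingGroup (Fin 8)) := by
  set H := M24 ⊓ MulAction.stabilizer (Equiv.Perm GolayPt) o ⊓ MulAction.stabilizer (Equiv.Perm GolayPt) p with hH
  have hcard : Nat.card ↥(M24 ⊓ MulAction.stabilizer (Equiv.Perm GolayPt) o) = 322560 := by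
    rw [← card_stab_octad ho]
    exact Nat.card_congr ⟨fun g => ⟨⟨g.1, g.2.1⟩, g.2.2⟩, fun g => ⟨g.1.1, g.1.2, g.2⟩, fun _ => rfl, fun _ => rfl⟩
  have hHc : Nat.card ↥H = 20160 := by
    refine card_inf_eq (G := Equiv.Perm GolayPt) _ p (↑(oᶜ : Finset GolayPt) : Set GolayPt) (a := 20160) (b := 16)
      (by norm_num) ?_ (by rw [hcard]) ?_ ?_
    · rw [Set.ncard_coe_finset, Finset.card_compl, ho.2]
      rfl
    · intro g hg
      have h2' : g • o = o := hg.2
      exact Finset.mem_coe.mpr (Finset.mem_compl.mpr (fun hc => hp ((stab_iff.mp h2' p).mp hc)))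
    · intro y hy
      obtain ⟨ε, hε, e⟩ := exists_fix_move ho hp (Finset.mem_compl.mp (Finset.mem_coe.mp hy))
      exact ⟨ε, fixing_le hε, e⟩
  have hmem : ∀ g : ↥H, g.1 ∈ M24 ⊓ MulAction.stabilizer (Equiv.Perm GolayPt) o := fun g => g.2.1
  let ψ : ↥H →* ↥(MulAction.stabilizer M24 o) :=
    MonoidHom.mk' (fun g => ⟨⟨g.1, (hmem g).1⟩, (hmem g).2⟩) (fun _ _ => rfl)
  let θ : ↥H →* Equiv.Perm ↥o := (phiO o).comp ψ
  have hθmem : ∀ g, θ g ∈ alternatingGroup ↥o := by
    intro g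
    rw [← range_phiO ho]
    exact ⟨ψ g, rfl⟩
  have hc : o.card = 8 := ho.2
  have e8 : ↥o ≃ Fin 8 := Fintype.equivFinOfCardEq (by rw [Fintype.card_coe, hc])
  let θ' : ↥H →* alternatingGroup ↥o := θ.codRestrict _ hθmem
  have hinj : Function.Injective θ' := by
    rw [injective_iff_map_eq_one]
    intro g hg
    have h1 : θ g = 1 := congrArg Subtype.val hg
    have h2 : ψ g ∈ (phiO o).ker := h1
    have h3 := mem_ker_phiO.mp h2
    have h4 : g.1 ∈ (M24 ⊓ fixingSubgroup (Equiv.Perm GolayPt) (o : Set GolayPt)) ⊓ H := by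
      refine ⟨⟨(hmem g).1, ?_⟩, g.2⟩
      refine (mem_fixingSubgroup_iff (Equiv.Perm GolayPt)).mpr ?_
      intro w hw
      exact h3 w (Finset.mem_coe.mp hw)
    have hbot := split_bot ho hp
    rw [← hH] at hbot
    rw [hbot] at h4
    exact Subtype.ext h4
  have hcA : Nat.card (alternatingGroup ↥o) = 20160 := by
    haveI : Nontrivial ↥o := Fintype.one_lt_card_iff_nontrivial.mp (by rw [Fintype.card_coe, hc]; norm_num)
    rw [nat_card_alternatingGroup, Nat.card_eq_fintype_card, Fintype.card_coe, hc]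
    rfl
  have hsurj : Function.Surjective θ' :=
    ((Nat.bijective_iff_injective_and_card θ').mpr ⟨hinj, by rw [hHc, hcA]⟩).2
  exact ⟨(MulEquiv.ofBijective θ' ⟨hinj, hsurj⟩).trans e8.altCongrHom⟩

end Cfsg.Agent.H07.Orb
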