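import Cfsg.Agent.Lib.H07.GolayM12

set_option autoImplicit false
set_option maxRecDepth 1000000

namespace Cfsg.Agent.H07.Orb

/-- Complement, two points. -/
def TC2 : List ℕ := [984818244535754528103549039458486304, 709668300018308318747209415330761760, 543350163341575515458730171663757344, 482260521870006219530952653502363680, 735548059612042514001706199943855136, 975770348411849458371112160692191264, 353225398212231627143209668544907296, 960149090072483472881125030842027040, 357120485175240124607342804330893344, 314727363303638864461007384397468704, 274040806469036504272742024437258272]

end Cfsg.Agent.H07.Orb
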