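import Mathlib
import Cfsg.Agent.Lib.H07.TblS1602

/-!
# The stabiliser of a point of a dodecad and a pair off it
-/

set_option autoImplicit false
set_option maxRecDepth 100000

namespace Cfsg.Agent.H07.Orb

open Cfsg Cfsg.Agent.H27.Golay
open scoped Pointwise

variable {d : Finset GolayPt} {p q r s t : GolayPt}

/-- Elements fixing a dodecad and five of its points are trivial. -/
theorem eq_one_of_fix_five' (hd : d ∈ dodecads) (hp : p ∈ d) (hq : q ∈ d) (hr : r ∈ d) (hs : s ∈ d) (ht : t ∈ d)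
    (hpq : q ≠ p) (hpr : r ≠ p) (hqr : r ≠ q) (hps : s ≠ p) (hqs : s ≠ q) (hrs : s ≠ r)
    (hpt : t ≠ p) (hqt : t ≠ q) (hrt : t ≠ r) (hst : t ≠ s)
    {g : Equiv.Perm GolayPt} (hg : g ∈ M24) (h0 : g • d = d)
    (h1 : g p = p) (h2 : g q = q) (h3 : g r = r) (h4 : g s = s) (h5 : g t = t) : g = 1 := by
  have hc := card_S5 hd hp hq hr hs ht hpq hpr hqr hps hqs hrs hpt hqt hrt hst
  have hx : (⟨g, hg⟩ : ↥M24) ∈ (MulAction.stabilizer M24 d ⊓ MulAction.stabilizer M24 p ⊓ MulAction.stabilizer M24 q ⊓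
      MulAction.stabilizer M24 r ⊓ MulAction.stabilizer M24 s ⊓ MulAction.stabilizer M24 t) :=
    ⟨⟨⟨⟨⟨h0, h1⟩, h2⟩, h3⟩, h4⟩, h5⟩
  have h6 := (Nat.card_eq_one_iff_unique.mp hc).1
  have h7 := Subsingleton.elim (⟨_, hx⟩ : ↥(MulAction.stabilizer M24 d ⊓ MulAction.stabilizer M24 p ⊓ MulAction.stabilizer M24 q ⊓
      MulAction.stabilizer M24 r ⊓ MulAction.stabilizer M24 s ⊓ MulAction.stabilizer M24 t)) 1
  exact congrArg (fun z => ((z : ↥M24) : Equiv.Perm GolayPt)) (congrArg Subtype.val h7)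

def tD1C (π : ℕ) : Bool := tD1 π && Nat.beq (pa π 0) 0

abbrev HD1C : Subgroup (Equiv.Perm GolayPt) := HD1 ⊓ MulAction.stabilizer (Equiv.Perm GolayPt) (pt 0)

theorem hHD1C : ∀ π, isM24 π = true → tD1C π = true → P π ∈ HD1C := by
  intro π h1 h2
  rw [tD1C, Bool.and_eq_true] at h2
  exact ⟨hHD1 π h1 h2.1, P_fix_pt h1 (by norm_num) h2.2⟩

def ptsC2 : List ℕ := ptsC.filter (fun i => !Nat.beq i 0)

theorem zipTC2 : zipOK (fun i π => isM24 π && (tD1C π && Nat.beq (pa π 2) i)) ptsC2 TC2 = true := by decide +kernel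

theorem flagC2 (hd : d ∈ dodecads) (hp : p ∈ d) (hq : q ∉ d) (hr : r ∉ d) (hqr : r ≠ q) :
    ∃ h ∈ M24, h • fs D0 = d ∧ h (pt 1) = p ∧ h (pt 0) = q ∧ h (pt 2) = r := by
  obtain ⟨h, hh, rfl, rfl, rfl⟩ := flagC1 hd hp hq
  have hmem : idx (h⁻¹ r) ∈ ptsC2 := by
    rw [ptsC2, List.mem_filter]
    refine ⟨mem_ptsC hr, ?_⟩
    have : Nat.beq (idx (h⁻¹ r)) 0 = false := by
      cases hb : Nat.beq (idx (h⁻¹ r)) 0 with
      | false => rfl
      | true =>
        exfalso
        apply hqr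
        have h1 : h⁻¹ r = pt 0 := by rw [← pt_idx (h⁻¹ r), Nat.eq_of_beq_eq_true hb]
        rw [← h1]
        simp
    rw [this]
    rfl
  obtain ⟨g, hg, e⟩ := flag_step hHD1C (by norm_num) zipTC2 hmem
  have hg2 : g • fs D0 = fs D0 := hg.1.1.2
  have hg3 : g (pt 1) = pt 1 := hg.1.2
  have hg4 : g (pt 0) = pt 0 := hg.2
  exact ⟨h * g, M24.mul_mem hh hg.1.1.1, by rw [mul_smul, hg2], by rw [Equiv.Perm.mul_apply, hg3],
    by rw [Equiv.Perm.mul_apply, hg4], e⟩

theorem smul_pair (g : Equiv.Perm GolayPt) (a b : GolayPt) : g • ({a, b} : Finset GolayPt) = {g a, g b} := by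
  rw [Finset.smul_finset_insert, Finset.smul_finset_singleton]
  rfl

theorem card_compl_dod (hd : d ∈ dodecads) : dᶜ.card = 12 := by
  rw [Finset.card_compl, card_dod hd]
  rfl

/-- The order of the stabiliser of a point and a pair. -/
theorem card_SP (hd : d ∈ dodecads) (hp : p ∈ d) (hq : q ∉ d) (hr : r ∉ d) (hqr : r ≠ q) :
    Nat.card ↥(MulAction.stabilizer M24 d ⊓ MulAction.stabilizer M24 p ⊓
      MulAction.stabilizer M24 ({q, r} : Finset GolayPt)) = 120 := by
  refine card_inf_eq (G := ↥M24) _ ({q, r} : Finset GolayPt)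
    (↑(Finset.powersetCard 2 dᶜ) : Set (Finset GolayPt)) (a := 120) (b := 66) (by norm_num)
    (by rw [Set.ncard_coe_finset, Finset.card_powersetCard, card_compl_dod hd]; rfl) (by rw [card_S1 hd hp]) ?_ ?_
  · intro g hg
    have h0 : (g : Equiv.Perm GolayPt) • d = d := hg.1
    have hn : ∀ {x}, x ∉ d → (g : Equiv.Perm GolayPt) x ∉ d := by
      intro x hx hc
      apply hx
      have := smul_pt_mem (g := (g : Equiv.Perm GolayPt)⁻¹) (by rw [inv_smul_eq_iff, h0]) hc
      simpa using this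
    show (g : Equiv.Perm GolayPt) • ({q, r} : Finset GolayPt) ∈ _
    rw [smul_pair]
    refine Finset.mem_coe.mpr (Finset.mem_powersetCard.mpr ⟨?_, ?_⟩)
    · intro x hx
      simp only [Finset.mem_insert, Finset.mem_singleton] at hx
      rw [Finset.mem_compl]
      rcases hx with rfl | rfl
      · exact hn hq
      · exact hn hr
    · rw [Finset.card_pair]
      intro e
      exact hqr ((g : Equiv.Perm GolayPt).injective e).symm
  · intro y hy
    obtain ⟨hy1, hy2⟩ := Finset.mem_powersetCard.mp (Finset.mem_coe.mp hy)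
    obtain ⟨a, b, hab, rfl⟩ := Finset.card_eq_two.mp hy2
    have ha : a ∉ d := Finset.mem_compl.mp (hy1 (by simp))
    have hb : b ∉ d := Finset.mem_compl.mp (hy1 (by simp))
    obtain ⟨h1, hh1, rfl, rfl, rfl, rfl⟩ := flagC2 hd hp hq hr hqr
    obtain ⟨h2, hh2, e2, e3, rfl, rfl⟩ := flagC2 hd hp ha hb hab.symm
    refine ⟨⟨h2 * h1⁻¹, M24.mul_mem hh2 (M24.inv_mem hh1)⟩, ⟨?_, ?_⟩, ?_⟩
    · show (h2 * h1⁻¹) • h1 • fs D0 = h1 • fs D0
      rw [mul_smul, inv_smul_smul, e2]
    · show (h2 * h1⁻¹) (h1 (pt 1)) = h1 (pt 1)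
      simp [e3]
    · show (h2 * h1⁻¹) • ({h1 (pt 0), h1 (pt 2)} : Finset GolayPt) = {h2 (pt 0), h2 (pt 2)}
      rw [smul_pair]
      simp

/-- The orbit of five points. -/
def O5m : ℕ := 2 ^ 7 + 2 ^ 8 + 2 ^ 9 + 2 ^ 13 + 2 ^ 17

theorem O5_chk : allL (fun π => !Nat.beq (am π 5) 5 || Nat.beq (am π O5m) O5m) M11L = true := by decide +kernel

theorem fs5 : fs 5 = ({pt 0, pt 2} : Finset GolayPt) := by decide

theorem fsO5 : fs O5m = ({pt 7, pt 8, pt 9, pt 13, pt 17} : Finset GolayPt) := by decide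

theorem O5_inv {g : Equiv.Perm GolayPt} (hg : g ∈ HD1) (h2 : g • ({pt 0, pt 2} : Finset GolayPt) = {pt 0, pt 2}) :
    g • fs O5m = fs O5m := by
  obtain ⟨π, hπ, rfl, hok⟩ := exists_code_M11 hg
  rw [← fs5, ← fs_am hok] at h2
  have h3 : am π 5 = 5 := fs_injOn (am_lt hok _) (by norm_num) h2
  have h4 := allL_spec O5_chk π hπ
  rw [h3, Nat.beq_refl] at h4
  simp only [Bool.not_true, Bool.false_or] at h4
  rw [← fs_am hok, Nat.eq_of_beq_eq_true h4]

theorem pt_ne {i j : ℕ} (hi : i < 24) (hj : j < 24) (h : i ≠ j) : pt i ≠ pt j := by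
  intro e
  have h2 := congrArg idx e
  rw [idx_pt' hi, idx_pt' hj] at h2
  exact h h2

theorem mem_D0_pt {i : ℕ} (hi : i < 24) (h : bitb D0 i = true) : pt i ∈ fs D0 := (mem_pt_fs hi).mpr h

theorem main_S5 {k : Equiv.Perm GolayPt} (hk : k ∈ M24) :
    Nonempty (↥(MulAction.stabilizer M24 (k • fs D0) ⊓ MulAction.stabilizer M24 (k (pt 1)) ⊓
      MulAction.stabilizer M24 ({k (pt 0), k (pt 2)} : Finset GolayPt)) ≃* Equiv.Perm (Fin 5)) := by
  classical
  set O : Finset GolayPt := k • fs O5m with hO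
  have hOc : O.card = 5 := by
    rw [hO, Finset.card_smul_finset, card_fs (by decide +kernel)]
    decide +kernel
  set K := MulAction.stabilizer M24 (k • fs D0) ⊓ MulAction.stabilizer M24 (k (pt 1)) ⊓
      MulAction.stabilizer M24 ({k (pt 0), k (pt 2)} : Finset GolayPt) with hK
  have hdk : k • fs D0 ∈ dodecads := smul_mem_dodecads hk (fs_mem_dodecads D0_mem)
  have hmemd : ∀ {i : ℕ}, i < 24 → bitb D0 i = true → k (pt i) ∈ k • fs D0 := by
    intro i hi hb
    exact Finset.smul_mem_smul_finset (mem_D0_pt hi hb)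
  have hnmem : ∀ {i : ℕ}, i < 24 → bitb D0 i = false → k (pt i) ∉ k • fs D0 := by
    intro i hi hb hc
    have h1 := Finset.smul_mem_smul_finset (a := k⁻¹) hc
    rw [inv_smul_smul] at h1
    have h2 : (k⁻¹ • k (pt i)) = pt i := by simp
    rw [h2] at h1
    rw [(mem_pt_fs hi).mp h1] at hb
    cases hb
  have hinj : ∀ {i j : ℕ}, i < 24 → j < 24 → i ≠ j → k (pt i) ≠ k (pt j) :=
    fun hi hj h e => pt_ne hi hj h (k.injective e)
  have hcard : Nat.card K = 120 := card_SP hdk (hmemd (by norm_num) (by decide +kernel))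
    (hnmem (by norm_num) (by decide +kernel)) (hnmem (by norm_num) (by decide +kernel))
    (hinj (by norm_num) (by norm_num) (by norm_num))
  -- action on the five points
  have hinv : ∀ g : K, ((g : ↥M24) : Equiv.Perm GolayPt) • O = O := by
    rintro ⟨⟨g, hgM⟩, ⟨⟨hg1, hg2⟩, hg3⟩⟩
    have hg1' : g • k • fs D0 = k • fs D0 := hg1
    have hg2' : g (k (pt 1)) = k (pt 1) := hg2
    have hg3' : g • ({k (pt 0), k (pt 2)} : Finset GolayPt) = {k (pt 0), k (pt 2)} := hg3
    have hm : k⁻¹ * g * k ∈ HD1 := by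
      refine ⟨⟨M24.mul_mem (M24.mul_mem (M24.inv_mem hk) hgM) hk, ?_⟩, ?_⟩
      · show (k⁻¹ * g * k) • fs D0 = fs D0
        rw [mul_smul, mul_smul, hg1', inv_smul_smul]
      · show (k⁻¹ * g * k) (pt 1) = pt 1
        simp [hg2']
    have hp2 : (k⁻¹ * g * k) • ({pt 0, pt 2} : Finset GolayPt) = {pt 0, pt 2} := by
      have e1 : k • ({pt 0, pt 2} : Finset GolayPt) = {k (pt 0), k (pt 2)} := smul_pair _ _ _
      rw [mul_smul, mul_smul, e1, hg3', ← e1, inv_smul_smul]
    have := O5_inv hm hp2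
    rw [mul_smul, mul_smul, inv_smul_eq_iff] at this
    exact this
  have hiff : ∀ (g : K) (x : GolayPt), ((g : ↥M24) : Equiv.Perm GolayPt) x ∈ O ↔ x ∈ O := by
    intro g x
    constructor
    · intro h
      have h1 := Finset.smul_mem_smul_finset (a := ((g : ↥M24) : Equiv.Perm GolayPt)⁻¹) h
      have h3 : ((g : ↥M24) : Equiv.Perm GolayPt)⁻¹ • O = O := inv_smul_eq_iff.mpr (hinv g).symm
      rw [h3] at h1
      simpa using h1
    · intro h
      have h1 := Finset.smul_mem_smul_finset (a := ((g : ↥M24) : Equiv.Perm GolayPt)) h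
      rwa [hinv g] at h1
  let ψ : K →* Equiv.Perm ↥O :=
    MonoidHom.mk' (fun g => ((g : ↥M24) : Equiv.Perm GolayPt).subtypePerm (hiff g)) (by
      intro g₁ g₂
      ext x
      rfl)
  have hψinj : Function.Injective ψ := by
    rw [injective_iff_map_eq_one]
    rintro ⟨⟨g, hgM⟩, ⟨⟨hg1, hg2⟩, hg3⟩⟩ hg
    have hfix : ∀ x ∈ O, g x = x := by
      intro x hx
      have := congrArg (fun e : Equiv.Perm ↥O => ((e ⟨x, hx⟩ : ↥O) : GolayPt)) hg
      exact this
    have hptO : ∀ {i : ℕ}, i < 24 → bitb O5m i = true → k (pt i) ∈ O := by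
      intro i hi hb
      exact Finset.smul_mem_smul_finset ((mem_pt_fs hi).mpr hb)
    have hone : g = 1 := by
      refine eq_one_of_fix_five' hdk
        (hmemd (i := 7) (by norm_num) (by decide +kernel)) (hmemd (i := 8) (by norm_num) (by decide +kernel))
        (hmemd (i := 9) (by norm_num) (by decide +kernel)) (hmemd (i := 13) (by norm_num) (by decide +kernel))
        (hmemd (i := 17) (by norm_num) (by decide +kernel))
        (hinj (by norm_num) (by norm_num) (by norm_num)) (hinj (by norm_num) (by norm_num) (by norm_num))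
        (hinj (by norm_num) (by norm_num) (by norm_num)) (hinj (by norm_num) (by norm_num) (by norm_num))
        (hinj (by norm_num) (by norm_num) (by norm_num)) (hinj (by norm_num) (by norm_num) (by norm_num))
        (hinj (by norm_num) (by norm_num) (by norm_num)) (hinj (by norm_num) (by norm_num) (by norm_num))
        (hinj (by norm_num) (by norm_num) (by norm_num)) (hinj (by norm_num) (by norm_num) (by norm_num))
        hgM hg1 (hfix _ (hptO (by norm_num) (by decide +kernel))) (hfix _ (hptO (by norm_num) (by decide +kernel)))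
        (hfix _ (hptO (by norm_num) (by decide +kernel))) (hfix _ (hptO (by norm_num) (by decide +kernel)))
        (hfix _ (hptO (by norm_num) (by decide +kernel)))
    apply Subtype.ext
    apply Subtype.ext
    exact hone
  have hcardO : Nat.card (Equiv.Perm ↥O) = 120 := by
    rw [Nat.card_perm, Nat.card_eq_fintype_card, Fintype.card_coe, hOc]
    rfl
  have hψsurj : Function.Surjective ψ := by
    refine ((Nat.bijective_iff_injective_and_card ψ).mpr ⟨hψinj, ?_⟩).2
    rw [hcard, hcardO]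
  have e := Fintype.equivFinOfCardEq (α := ↥O) (by rw [Fintype.card_coe, hOc])
  exact ⟨(MulEquiv.ofBijective ψ ⟨hψinj, hψsurj⟩).trans e.permCongrHom⟩

end Cfsg.Agent.H07.Orb
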