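import Mathlib
import Cfsg.Agent.Lib.H07.GolayDod
import Cfsg.Agent.Lib.H07.GolayOrb2

set_option autoImplicit false
set_option maxRecDepth 100000

namespace Cfsg.Agent.H07.Orb

open Cfsg Cfsg.Agent.H27.Golay
open scoped Pointwise

/-- A complementary pair of dodecads. -/
noncomputable def dpair (m : ℕ) : Finset (Finset GolayPt) := {fs m, (fs m)ᶜ}

theorem smul_compl (g : Equiv.Perm GolayPt) (s : Finset GolayPt) : g • sᶜ = (g • s)ᶜ := by
  ext p
  rw [Finset.mem_compl, Finset.mem_smul_finset, Finset.mem_smul_finset]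
  constructor
  · rintro ⟨a, ha, rfl⟩ ⟨b, hb, hab⟩
    have : a = b := MulAction.injective g hab.symm
    exact (Finset.mem_compl.mp ha) (this ▸ hb)
  · intro h
    refine ⟨g⁻¹ • p, ?_, smul_inv_smul _ _⟩
    rw [Finset.mem_compl]
    intro hb
    exact h ⟨_, hb, smul_inv_smul _ _⟩

theorem smul_dpairF (g : Equiv.Perm GolayPt) (s : Finset GolayPt) :
    g • ({s, sᶜ} : Finset (Finset GolayPt)) = {g • s, (g • s)ᶜ} := by
  rw [Finset.smul_finset_insert, Finset.smul_finset_singleton, smul_compl]

/-- Words with the point `0`, one from each complementary pair. -/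
def pairL : List ℕ := dodecadL.filter (fun m => bitb m 0)

theorem mem_pairL {m : ℕ} : m ∈ pairL ↔ m ∈ dodecadL ∧ m.testBit 0 = true := by
  simp [pairL, List.mem_filter, bitb_eq]

theorem pairL_nodup : pairL.Nodup := dodecadL_nodup.filter _

def compM (m : ℕ) : ℕ := Nat.xor 16777215 m

theorem compM_mem : allL (fun m => memL (compM m) dodecadL) dodecadL = true := by decide +kernel

theorem pairL_len : pairL.length = 1288 := by decide +kernel

theorem fs_compl {m : ℕ} : (fs m)ᶜ = fs (compM m) := by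
  ext p
  have hlt := idx_lt p
  have h1 : Nat.testBit 16777215 (idx p) = true := by
    have : ∀ p : GolayPt, Nat.testBit 16777215 (idx p) = true := by decide
    exact this p
  rw [Finset.mem_compl, mem_fs, mem_fs, compM]
  show _ ↔ (16777215 ^^^ m).testBit (idx p) = true
  rw [Nat.testBit_xor, h1]
  simp

theorem compl_dodecad {d : Finset GolayPt} (hd : d ∈ dodecads) : dᶜ ∈ dodecads := by
  obtain ⟨m, hm, rfl⟩ := (mem_dodecads_iff_list _).mp hd
  rw [fs_compl]
  exact fs_mem_dodecads ((memL_iff _ _).mp (allL_spec compM_mem m hm))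

theorem pt0_bit {m : ℕ} : pt 0 ∈ fs m ↔ m.testBit 0 = true := by
  rw [mem_fs, idx_pt' (by norm_num)]

theorem dpair_eq_iff {m n : ℕ} (hm : m ∈ pairL) (hn : n ∈ pairL) (h : dpair m = dpair n) : m = n := by
  obtain ⟨hm1, hm2⟩ := mem_pairL.mp hm
  obtain ⟨hn1, hn2⟩ := mem_pairL.mp hn
  have h1 : fs m ∈ dpair n := by rw [← h]; simp [dpair]
  simp only [dpair, Finset.mem_insert, Finset.mem_singleton] at h1
  rcases h1 with h1 | h1
  · exact fs_inj_dodecadL m hm1 n hn1 h1
  · exfalso
    have hp : pt 0 ∈ fs m := pt0_bit.mpr hm2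
    rw [h1, Finset.mem_compl] at hp
    exact hp (pt0_bit.mpr hn2)

/-- The base pair: the complement of `D0` contains the point `0`. -/
def Dc : ℕ := compM D0

theorem Dc_mem : Dc ∈ pairL := by decide +kernel

theorem dpair_Dc : dpair Dc = {fs D0, (fs D0)ᶜ} := by
  unfold Dc dpair
  rw [← fs_compl, Finset.pair_comm]
  simp

theorem exists_pair_rep {d : Finset GolayPt} (hd : d ∈ dodecads) : ∃ m ∈ pairL, ({d, dᶜ} : Finset (Finset GolayPt)) = dpair m := by
  obtain ⟨m, hm, rfl⟩ := (mem_dodecads_iff_list _).mp hd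
  by_cases hb : m.testBit 0 = true
  · exact ⟨m, mem_pairL.mpr ⟨hm, hb⟩, rfl⟩
  · refine ⟨compM m, mem_pairL.mpr ⟨(memL_iff _ _).mp (allL_spec compM_mem m hm), ?_⟩, ?_⟩
    · rw [← pt0_bit, ← fs_compl, Finset.mem_compl, pt0_bit]
      exact hb
    · unfold dpair
      rw [← fs_compl, Finset.pair_comm]
      simp

/-- Invariant of pairs. -/
def keyDP (m : ℕ) : ℕ := keyD m * (12 - keyD m)

theorem keyD_comp : allL (fun m => Nat.beq (keyD (compM m)) (12 - keyD m)) dodecadL = true := by decide +kernel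

theorem keyDP_cases : allL (fun m => Nat.beq (keyDP m) 0 || Nat.beq (keyDP m) 32 || Nat.beq (keyDP m) 36) pairL = true := by decide +kernel

theorem keyD_le : allL (fun m => Nat.ble (keyD m) 12) dodecadL = true := by decide +kernel

theorem exists_stab_DP {c d : ℕ} (hc : c ∈ pairL) (hd : d ∈ pairL) (hk : keyDP c = keyDP d) :
    ∃ g ∈ M24, g • dpair Dc = dpair Dc ∧ g • dpair c = dpair d := by
  have hc1 := (mem_pairL.mp hc).1
  have hd1 := (mem_pairL.mp hd).1
  have h1c : keyD c ≤ 12 := Nat.le_of_ble_eq_true (allL_spec keyD_le c hc1)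
  have h1d : keyD d ≤ 12 := Nat.le_of_ble_eq_true (allL_spec keyD_le d hd1)
  -- either the same key or the complementary one
  have hcases : keyD c = keyD d ∨ keyD c = 12 - keyD d := by
    unfold keyDP at hk
    generalize keyD c = a at *
    generalize keyD d = b at *
    interval_cases a <;> interval_cases b <;> simp_all
  have hfix : ∀ g : Equiv.Perm GolayPt, g • fs D0 = fs D0 → g • dpair Dc = dpair Dc := by
    intro g hg
    rw [dpair_Dc, smul_dpairF, hg]
  rcases hcases with h | h
  · obtain ⟨g, hg, h2⟩ := exists_smul_stab_D0 hc1 hd1 h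
    refine ⟨g, hg.1, hfix g hg.2, ?_⟩
    unfold dpair
    rw [smul_dpairF, h2]
  · have hcd : compM d ∈ dodecadL := (memL_iff _ _).mp (allL_spec compM_mem d hd1)
    have hk2 : keyD c = keyD (compM d) := by
      rw [h]
      exact (Nat.eq_of_beq_eq_true (allL_spec keyD_comp d hd1)).symm
    obtain ⟨g, hg, h2⟩ := exists_smul_stab_D0 hc1 hcd hk2
    refine ⟨g, hg.1, hfix g hg.2, ?_⟩
    unfold dpair
    rw [smul_dpairF, h2, ← fs_compl, Finset.pair_comm]
    simp

theorem coatom_DP : IsCoatom (MulAction.stabilizer ↥M24 (dpair Dc)) := by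
  refine coatom_table dpair pairL pairL_nodup (fun m hm n hn h => dpair_eq_iff hm hn h) Dc_mem ?_ keyDP ?_ ?_ {0, 32, 36}
    ?_ (fun k => if k = 0 then 1 else if k = 32 then 495 else 792) ?_ 1288 0 pairL_len ?_ ?_ (by norm_num)
  · intro g hg c hc
    have hc1 := (mem_pairL.mp hc).1
    have h1 := smul_mem_dodecads hg (fs_mem_dodecads hc1)
    obtain ⟨d, hd, h2⟩ := exists_pair_rep h1
    refine ⟨d, hd, ?_⟩
    unfold dpair at h2 ⊢
    rw [smul_dpairF]
    exact h2
  · intro c hc
    have hc1 := (mem_pairL.mp hc).1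
    have hDm : Dc ∈ dodecadL := (mem_pairL.mp Dc_mem).1
    obtain ⟨g1, hg1, h1⟩ := exists_smul_D0 (fs_mem_dodecads hc1)
    refine ⟨g1, hg1, ?_⟩
    rw [dpair_Dc, smul_dpairF, h1]
    rfl
  · intro c hc d hd hk
    exact exists_stab_DP hc hd hk
  · intro c hc
    have h := allL_spec keyDP_cases c hc
    simp only [Bool.or_eq_true, beq_iff] at h
    simp only [Finset.mem_insert, Finset.mem_singleton]
    tauto
  · intro k hk
    simp only [Finset.mem_insert, Finset.mem_singleton] at hk
    have h0 : countL (fun m => Nat.beq (keyDP m) 0) pairL = 1 := by decide +kernel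
    have h1 : countL (fun m => Nat.beq (keyDP m) 32) pairL = 495 := by decide +kernel
    have h2 : countL (fun m => Nat.beq (keyDP m) 36) pairL = 792 := by decide +kernel
    rcases hk with rfl | rfl | rfl
    · exact h0
    · exact h1
    · exact h2
  · decide +kernel
  · decide

end Cfsg.Agent.H07.Orb
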