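import Mathlib
import Cfsg.Agent.Lib.H07.TblS1601

/-!
# The stabiliser of two points, one on and one off a dodecad, is `PSL(2, 11)`
-/

set_option autoImplicit false
set_option maxRecDepth 100000

namespace Cfsg.Agent.H07.Orb

open Cfsg Cfsg.Agent.H27.Golay
open scoped Pointwise MatrixGroups

abbrev SL11 := Matrix.SpecialLinearGroup (Fin 2) (ZMod 11)

def codeP (a b c d : ZMod 11) : ℕ := a.val + 11 * b.val + 121 * c.val + 1331 * d.val

def d0 (u : ℕ) : ℕ := u % 11
def d1 (u : ℕ) : ℕ := (u / 11) % 11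
def d2 (u : ℕ) : ℕ := (u / 121) % 11
def d3 (u : ℕ) : ℕ := (u / 1331) % 11

def mc11 (u v : ℕ) : ℕ :=
  (d0 u * d0 v + d1 u * d2 v) % 11 + 11 * ((d0 u * d1 v + d1 u * d3 v) % 11) +
    121 * ((d2 u * d0 v + d3 u * d2 v) % 11) + 1331 * ((d2 u * d1 v + d3 u * d3 v) % 11)

theorem val_lt11 (a : ZMod 11) : a.val < 11 := ZMod.val_lt a

theorem d_codeP (a b c d : ZMod 11) :
    d0 (codeP a b c d) = a.val ∧ d1 (codeP a b c d) = b.val ∧ d2 (codeP a b c d) = c.val ∧
      d3 (codeP a b c d) = d.val := by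
  have ha := val_lt11 a
  have hb := val_lt11 b
  have hc := val_lt11 c
  have hd := val_lt11 d
  unfold d0 d1 d2 d3 codeP
  refine ⟨?_, ?_, ?_, ?_⟩ <;> omega

theorem codeP_lt (a b c d : ZMod 11) : codeP a b c d < 14641 := by
  have ha := val_lt11 a
  have hb := val_lt11 b
  have hc := val_lt11 c
  have hd := val_lt11 d
  unfold codeP
  omega

theorem val_bil (a b c d : ZMod 11) : (a * b + c * d).val = (a.val * b.val + c.val * d.val) % 11 := by
  rw [ZMod.val_add, ZMod.val_mul, ZMod.val_mul, ← Nat.add_mod]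

theorem codeP_mul (a b c d e f g h : ZMod 11) :
    codeP (a * e + b * g) (a * f + b * h) (c * e + d * g) (c * f + d * h) =
      mc11 (codeP a b c d) (codeP e f g h) := by
  obtain ⟨h1, h2, h3, h4⟩ := d_codeP a b c d
  obtain ⟨h5, h6, h7, h8⟩ := d_codeP e f g h
  unfold mc11
  rw [h1, h2, h3, h4, h5, h6, h7, h8]
  unfold codeP
  rw [val_bil, val_bil, val_bil, val_bil]

/-- The encoding of `SL(2, 11)`. -/
def encP (m : SL11) : ℕ := codeP (m.1 0 0) (m.1 0 1) (m.1 1 0) (m.1 1 1)

theorem encP_mul (m n : SL11) : encP (m * n) = mc11 (encP m) (encP n) := by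
  unfold encP
  rw [← codeP_mul]
  simp only [Matrix.SpecialLinearGroup.coe_mul, Matrix.mul_apply, Fin.sum_univ_two]

theorem encP_inj {m n : SL11} (h : encP m = encP n) : m = n := by
  have key : ∀ m : SL11, (m.1 0 0).val = d0 (encP m) ∧ (m.1 0 1).val = d1 (encP m) ∧
      (m.1 1 0).val = d2 (encP m) ∧ (m.1 1 1).val = d3 (encP m) := by
    intro m
    obtain ⟨h1, h2, h3, h4⟩ := d_codeP (m.1 0 0) (m.1 0 1) (m.1 1 0) (m.1 1 1)
    exact ⟨h1.symm, h2.symm, h3.symm, h4.symm⟩
  obtain ⟨a1, a2, a3, a4⟩ := key m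
  obtain ⟨b1, b2, b3, b4⟩ := key n
  rw [h] at a1 a2 a3 a4
  apply Subtype.ext
  ext i j
  fin_cases i <;> fin_cases j
  · exact ZMod.val_injective 11 (a1.trans b1.symm)
  · exact ZMod.val_injective 11 (a2.trans b2.symm)
  · exact ZMod.val_injective 11 (a3.trans b3.symm)
  · exact ZMod.val_injective 11 (a4.trans b4.symm)

/-- All codes of the group. -/
def SLc : List ℕ := (List.range 14641).filter (fun u => Nat.beq ((d0 u * d3 u + 10 * (d1 u * d2 u)) % 11) 1)

theorem encP_mem (m : SL11) : encP m ∈ SLc := by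
  rw [SLc, List.mem_filter, List.mem_range]
  refine ⟨codeP_lt _ _ _ _, ?_⟩
  obtain ⟨h1, h2, h3, h4⟩ := d_codeP (m.1 0 0) (m.1 0 1) (m.1 1 0) (m.1 1 1)
  have e : encP m = codeP (m.1 0 0) (m.1 0 1) (m.1 1 0) (m.1 1 1) := rfl
  rw [e, h1, h2, h3, h4]
  have hdet := m.2
  rw [Matrix.det_fin_two] at hdet
  have h5 : (m.1 0 0) * (m.1 1 1) + 10 * ((m.1 0 1) * (m.1 1 0)) = 1 := by
    have h10 : (10 : ZMod 11) = -1 := by decide
    rw [h10]
    linear_combination hdet
  have h6 := congrArg ZMod.val h5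
  have h71 : (1 : ZMod 11).val = 1 := rfl
  rw [val_bil, ZMod.val_mul, h71] at h6
  have h7 : (10 : ZMod 11).val = 10 := rfl
  rw [h7] at h6
  have h9 : ((m.1 0 0).val * (m.1 1 1).val + 10 * ((m.1 0 1).val * (m.1 1 0).val)) % 11 = 1 := by
    generalize (m.1 0 0).val * (m.1 1 1).val = A at h6 ⊢
    generalize (m.1 0 1).val * (m.1 1 0).val = B at h6 ⊢
    omega
  rw [h9]
  rfl

/-- Inverse of the encoding. -/
def decm (u : ℕ) : Matrix (Fin 2) (Fin 2) (ZMod 11) :=
  !![(d0 u : ZMod 11), (d1 u : ZMod 11); (d2 u : ZMod 11), (d3 u : ZMod 11)]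

theorem decm_chk : allL (fun u => decide ((d0 u : ZMod 11) * (d3 u : ZMod 11) - (d1 u : ZMod 11) * (d2 u : ZMod 11) = 1) &&
    decide (codeP (d0 u : ZMod 11) (d1 u : ZMod 11) (d2 u : ZMod 11) (d3 u : ZMod 11) = u)) SLc = true := by
  decide +kernel

theorem encP_surj {u : ℕ} (hu : u ∈ SLc) : ∃ m : SL11, encP m = u := by
  have h := allL_spec decm_chk u hu
  rw [Bool.and_eq_true, decide_eq_true_eq, decide_eq_true_eq] at h
  refine ⟨⟨decm u, ?_⟩, h.2⟩
  rw [decm, Matrix.det_fin_two_of]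
  exact h.1

/-- The generators. -/
def gx : SL11 := ⟨!![1, 1; 0, 1], by rw [Matrix.det_fin_two_of]; decide⟩
def gy : SL11 := ⟨!![0, 1; -1, 0], by rw [Matrix.det_fin_two_of]; decide⟩
def gxi : SL11 := ⟨!![1, -1; 0, 1], by rw [Matrix.det_fin_two_of]; decide⟩
def gyi : SL11 := ⟨!![0, -1; 1, 0], by rw [Matrix.det_fin_two_of]; decide⟩

theorem gxi_x : gxi * gx = 1 := by
  apply Subtype.ext
  ext i j
  fin_cases i <;> fin_cases j <;> decide

theorem gyi_y : gyi * gy = 1 := by
  apply Subtype.ext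
  ext i j
  fin_cases i <;> fin_cases j <;> decide

def xc : ℕ := encP gx
def yc : ℕ := encP gy
def xic : ℕ := encP gxi
def yic : ℕ := encP gyi
def idc : ℕ := encP 1
def midc : ℕ := encP (-1)

theorem xc_eq : xc = 1 + 11 + 1331 := by decide +kernel
theorem yc_eq : yc = 11 + 121 * 10 := by decide +kernel
theorem xic_eq : xic = 1 + 11 * 10 + 1331 := by decide +kernel
theorem yic_eq : yic = 11 * 10 + 121 := by decide +kernel
theorem idc_eq : idc = 1 + 1331 := by decide +kernel
theorem midc_eq : midc = 10 + 1331 * 10 := by decide +kernel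

/-- The walk reaching all the elements. -/
def walkF : List ℕ → ℕ → ℕ
  | [], s => s
  | e :: L, s =>
    bif Nat.testBit s (mc11 (e / 2) (bif Nat.beq (e % 2) 0 then 1 + 11 * 10 + 1331 else 11 * 10 + 121))
      then walkF L (Nat.lor s (Nat.shiftLeft 1 (e / 2))) else walkF L s

theorem walkF_spec (Q : ℕ → Prop)
    (hstep : ∀ e, Q (mc11 (e / 2) (bif Nat.beq (e % 2) 0 then 1 + 11 * 10 + 1331 else 11 * 10 + 121)) → Q (e / 2)) :
    ∀ (L : List ℕ) (s : ℕ), (∀ i, s.testBit i = true → Q i) → ∀ i, (walkF L s).testBit i = true → Q i := by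
  intro L
  induction L with
  | nil => intro s hs i hi; exact hs i hi
  | cons e L ih =>
    intro s hs
    simp only [walkF]
    cases hb : Nat.testBit s (mc11 (e / 2) (bif Nat.beq (e % 2) 0 then 1 + 11 * 10 + 1331 else 11 * 10 + 121)) with
    | false => exact ih s hs
    | true =>
      refine ih _ ?_
      intro i hi
      have h1 : (s ||| (1 <<< (e / 2))).testBit i = true := hi
      rw [Nat.testBit_or, Bool.or_eq_true] at h1
      rcases h1 with h1 | h1
      · exact hs i h1
      · rw [Nat.one_shiftLeft, Nat.testBit_two_pow] at h1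
        have h2 : e / 2 = i := by simpa using h1
        rw [← h2]
        exact hstep e (hs _ hb)

theorem walk_final : walkF walkSL (Nat.shiftLeft 1 (1 + 1331)) = finalSL := by decide +kernel

theorem SLc_final : allL (fun u => finalSL.testBit u) SLc = true := by decide +kernel

theorem encP_one : encP 1 = 1 + 1331 := idc_eq

theorem mem_closure (n : SL11) : n ∈ Submonoid.closure ({gx, gy} : Set SL11) := by
  let Q : ℕ → Prop := fun u => ∀ n : SL11, encP n = u → n ∈ Submonoid.closure ({gx, gy} : Set SL11)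
  have hstep : ∀ e, Q (mc11 (e / 2) (bif Nat.beq (e % 2) 0 then 1 + 11 * 10 + 1331 else 11 * 10 + 121)) → Q (e / 2) := by
    intro e hQ n hn
    cases he : Nat.beq (e % 2) 0 with
    | true =>
      rw [he] at hQ
      have h1 : encP (n * gxi) = mc11 (e / 2) (1 + 11 * 10 + 1331) := by
        rw [encP_mul, hn]
        congr 1
      have h2 := hQ _ h1
      have h3 : n = n * gxi * gx := by rw [mul_assoc, gxi_x, mul_one]
      rw [h3]
      exact Submonoid.mul_mem _ h2 (Submonoid.subset_closure (by simp))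
    | false =>
      rw [he] at hQ
      have h1 : encP (n * gyi) = mc11 (e / 2) (11 * 10 + 121) := by
        rw [encP_mul, hn]
        congr 1
      have h2 := hQ _ h1
      have h3 : n = n * gyi * gy := by rw [mul_assoc, gyi_y, mul_one]
      rw [h3]
      exact Submonoid.mul_mem _ h2 (Submonoid.subset_closure (by simp))
  have hbase : ∀ i, (Nat.shiftLeft 1 (1 + 1331)).testBit i = true → Q i := by
    intro i hi n hn
    have h1 : ((1 : ℕ) <<< (1 + 1331)).testBit i = true := hi
    rw [Nat.one_shiftLeft, Nat.testBit_two_pow] at h1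
    have h2 : 1 + 1331 = i := by simpa using h1
    have h3 : n = 1 := encP_inj (by rw [hn, encP_one, h2])
    rw [h3]
    exact Submonoid.one_mem _
  have h4 := allL_spec SLc_final _ (encP_mem n)
  rw [← walk_final] at h4
  exact walkF_spec Q hstep walkSL _ hbase _ h4 n rfl

/-- The table. -/
def TS (u : ℕ) : ℕ :=
  Nat.land (Nat.shiftRight (arrSL.getD (u / 121) 0) (Nat.mul 120 (u % 121))) 1329227995784915872903807060280344575

theorem TS_ok : allL (fun u => isM24 (TS u) && tD1 (TS u) && Nat.beq (pa (TS u) 0) 0) SLc = true := by decide +kernel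
theorem TS_x : allL (fun u => pEq (pcomp (TS u) (TS (1 + 11 + 1331))) (TS (mc11 u (1 + 11 + 1331))) &&
    pEq (pcomp (TS u) (TS (11 + 121 * 10))) (TS (mc11 u (11 + 121 * 10)))) SLc = true := by decide +kernel
theorem TS_id : pEq (TS (1 + 1331)) idCode = true := by decide +kernel
theorem TS_mid : pEq (TS (10 + 1331 * 10)) idCode = true := by decide +kernel
theorem TS_ker : allL (fun u => !pEq (TS u) idCode || Nat.beq u (1 + 1331) || Nat.beq u (10 + 1331 * 10)) SLc = true := by
  decide +kernel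
theorem TS_surj : allL (fun π => !Nat.beq (pa π 0) 0 || SLc.any (fun u => pEq π (TS u))) M11L = true := by
  decide +kernel

theorem TS_good {u : ℕ} (hu : u ∈ SLc) : isM24 (TS u) = true ∧ tD1 (TS u) = true ∧ pa (TS u) 0 = 0 := by
  have := allL_spec TS_ok u hu
  simp only [Bool.and_eq_true] at this
  exact ⟨this.1.1, this.1.2, Nat.eq_of_beq_eq_true this.2⟩

theorem TS_perm {u : ℕ} (hu : u ∈ SLc) : permOK (TS u) = true := isM24_permOK (TS_good hu).1

noncomputable def Fs (m : SL11) : Equiv.Perm GolayPt := P (TS (encP m))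

theorem Fs_one : Fs 1 = 1 := by
  have h := TS_id
  have h1 : encP 1 = 1 + 1331 := encP_one
  have hu : (1 + 1331) ∈ SLc := h1 ▸ encP_mem 1
  have h2 := (pEq_iff (TS_perm hu) (isM24_permOK idCode_spec)).mp h
  rw [P_idCode] at h2
  rw [Fs, h1]
  exact h2

theorem Fs_mul_x (m : SL11) : Fs (m * gx) = Fs m * Fs gx := by
  have hu := encP_mem m
  have hx := encP_mem gx
  have hmx := encP_mem (m * gx)
  have h := allL_spec TS_x _ hu
  rw [Bool.and_eq_true] at h
  have e : encP gx = 1 + 11 + 1331 := xc_eq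
  have h1 := h.1
  rw [← e, ← encP_mul] at h1
  have h2 := (pEq_iff (permOK_pcomp (TS_perm hu) (TS_perm hx)) (TS_perm hmx)).mp h1
  rw [P_pcomp (TS_perm hu) (TS_perm hx)] at h2
  exact h2.symm

theorem Fs_mul_y (m : SL11) : Fs (m * gy) = Fs m * Fs gy := by
  have hu := encP_mem m
  have hx := encP_mem gy
  have hmx := encP_mem (m * gy)
  have h := allL_spec TS_x _ hu
  rw [Bool.and_eq_true] at h
  have e : encP gy = 11 + 121 * 10 := yc_eq
  have h1 := h.2
  rw [← e, ← encP_mul] at h1
  have h2 := (pEq_iff (permOK_pcomp (TS_perm hu) (TS_perm hx)) (TS_perm hmx)).mp h1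
  rw [P_pcomp (TS_perm hu) (TS_perm hx)] at h2
  exact h2.symm

theorem Fs_mul (m n : SL11) : Fs (m * n) = Fs m * Fs n := by
  have key : ∀ n ∈ Submonoid.closure ({gx, gy} : Set SL11), ∀ m, Fs (m * n) = Fs m * Fs n := by
    intro n hn
    induction hn using Submonoid.closure_induction with
    | mem x hx =>
      intro m
      simp only [Set.mem_insert_iff, Set.mem_singleton_iff] at hx
      rcases hx with rfl | rfl
      · exact Fs_mul_x m
      · exact Fs_mul_y m
    | one =>
      intro m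
      rw [mul_one, Fs_one, mul_one]
    | mul x y _ _ hx hy =>
      intro m
      rw [← mul_assoc, hy, hx, hy, mul_assoc]
  exact key n (mem_closure n) m

noncomputable def FSL : SL11 →* Equiv.Perm GolayPt := MonoidHom.mk' Fs Fs_mul

theorem FSL_apply (m : SL11) : FSL m = P (TS (encP m)) := rfl

theorem FSL_mem (m : SL11) : FSL m ∈ HD1 ⊓ MulAction.stabilizer (Equiv.Perm GolayPt) (pt 0) := by
  have hu := encP_mem m
  refine ⟨hHD1 _ (TS_good hu).1 (TS_good hu).2.1, ?_⟩
  refine P_fix_pt (TS_good hu).1 (by norm_num) ?_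
  rw [(TS_good hu).2.2]
  rfl

theorem FSL_surj {g : Equiv.Perm GolayPt} (hg : g ∈ HD1) (hc : g (pt 0) = pt 0) : ∃ m, FSL m = g := by
  obtain ⟨π, hπ, rfl, hok⟩ := exists_code_M11 hg
  have h1 := allL_spec TS_surj π hπ
  have h2 : Nat.beq (pa π 0) 0 = true := by
    rw [P_pt hok (by norm_num)] at hc
    have h3 := congrArg idx hc
    rw [idx_pt' (pa_lt hok (by norm_num)), idx_pt' (by norm_num)] at h3
    rw [h3]
    rfl
  rw [h2] at h1
  simp only [Bool.not_true, Bool.false_or, List.any_eq_true] at h1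
  obtain ⟨u, hu, h3⟩ := h1
  obtain ⟨m, rfl⟩ := encP_surj hu
  exact ⟨m, ((pEq_iff hok (TS_perm hu)).mp h3).symm⟩

theorem FSL_ker {m : SL11} : FSL m = 1 ↔ m ∈ Subgroup.center SL11 := by
  rw [Matrix.SpecialLinearGroup.mem_center_iff]
  constructor
  · intro h
    have hu := encP_mem m
    have h1 := allL_spec TS_ker _ hu
    have h2 : pEq (TS (encP m)) idCode = true :=
      (pEq_iff (TS_perm hu) (isM24_permOK idCode_spec)).mpr (by rw [P_idCode]; exact h)
    rw [h2] at h1
    simp only [Bool.not_true, Bool.false_or, Bool.or_eq_true, beq_iff] at h1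
    rcases h1 with h1 | h1
    · have : m = 1 := encP_inj (by rw [h1, encP_one])
      refine ⟨1, by norm_num, ?_⟩
      rw [this]
      simp
    · have : m = -1 := encP_inj (by rw [h1]; exact midc_eq.symm)
      refine ⟨-1, by
        rw [Fintype.card_fin]
        norm_num, ?_⟩
      rw [this]
      ext i j
      fin_cases i <;> fin_cases j <;> decide
  · rintro ⟨r, hr, he⟩
    rw [Fintype.card_fin] at hr
    have hr2 : r = 1 ∨ r = -1 := by
      have key : ∀ r : ZMod 11, r ^ 2 = 1 → r = 1 ∨ r = -1 := by decide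
      exact key r hr
    rcases hr2 with rfl | rfl
    · have : m = 1 := by
        apply Subtype.ext
        rw [← he]
        simp
      rw [this]
      exact map_one FSL
    · have hm : m = -1 := by
        apply Subtype.ext
        rw [← he]
        ext i j
        fin_cases i <;> fin_cases j <;> decide
      have hu := encP_mem m
      have e : encP m = 10 + 1331 * 10 := by rw [hm]; exact midc_eq
      have hu' : (10 + 1331 * 10) ∈ SLc := e ▸ hu
      have h2 := (pEq_iff (TS_perm hu') (isM24_permOK idCode_spec)).mp TS_mid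
      rw [P_idCode] at h2
      rw [FSL_apply, e]
      exact h2

/-- The isomorphism at a translate. -/
theorem main_PSL {k : Equiv.Perm GolayPt} (hk : k ∈ M24) :
    Nonempty (↥(MulAction.stabilizer M24 (k • fs D0) ⊓ MulAction.stabilizer M24 (k (pt 1)) ⊓
      MulAction.stabilizer M24 (k (pt 0))) ≃* Matrix.ProjectiveSpecialLinearGroup (Fin 2) (ZMod 11)) := by
  set K := MulAction.stabilizer M24 (k • fs D0) ⊓ MulAction.stabilizer M24 (k (pt 1)) ⊓
      MulAction.stabilizer M24 (k (pt 0)) with hK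
  have memM : ∀ m, k * FSL m * k⁻¹ ∈ M24 := fun m =>
    M24.mul_mem (M24.mul_mem hk (FSL_mem m).1.1.1) (M24.inv_mem hk)
  have hstab : ∀ m, ((⟨k * FSL m * k⁻¹, memM m⟩ : ↥M24) ∈ K) := by
    intro m
    have h1 : FSL m • fs D0 = fs D0 := (FSL_mem m).1.1.2
    have h2 : FSL m (pt 1) = pt 1 := (FSL_mem m).1.2
    have h3 : FSL m (pt 0) = pt 0 := (FSL_mem m).2
    refine ⟨⟨?_, ?_⟩, ?_⟩
    · show (k * FSL m * k⁻¹) • k • fs D0 = k • fs D0
      rw [mul_smul, mul_smul, inv_smul_smul, h1]
    · show (k * FSL m * k⁻¹) (k (pt 1)) = k (pt 1)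
      simp [h2]
    · show (k * FSL m * k⁻¹) (k (pt 0)) = k (pt 0)
      simp [h3]
  let φ : SL11 →* ↥K := MonoidHom.mk' (fun m => ⟨⟨k * FSL m * k⁻¹, memM m⟩, hstab m⟩) (by
    intro m n
    apply Subtype.ext
    apply Subtype.ext
    show k * FSL (m * n) * k⁻¹ = (k * FSL m * k⁻¹) * (k * FSL n * k⁻¹)
    rw [map_mul]
    group)
  have hsurj : Function.Surjective φ := by
    rintro ⟨⟨z, hzM⟩, ⟨⟨hz1, hz2⟩, hz3⟩⟩
    have hz1' : z • k • fs D0 = k • fs D0 := hz1
    have hz2' : z (k (pt 1)) = k (pt 1) := hz2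
    have hz3' : z (k (pt 0)) = k (pt 0) := hz3
    have hmem : k⁻¹ * z * k ∈ HD1 := by
      refine ⟨⟨M24.mul_mem (M24.mul_mem (M24.inv_mem hk) hzM) hk, ?_⟩, ?_⟩
      · show (k⁻¹ * z * k) • fs D0 = fs D0
        rw [mul_smul, mul_smul, hz1', inv_smul_smul]
      · show (k⁻¹ * z * k) (pt 1) = pt 1
        simp [hz2']
    obtain ⟨m, hm⟩ := FSL_surj hmem (by simp [hz3'])
    refine ⟨m, ?_⟩
    apply Subtype.ext
    apply Subtype.ext
    show k * FSL m * k⁻¹ = z
    rw [hm]
    group
  have hker : Subgroup.center SL11 = φ.ker := by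
    ext m
    rw [MonoidHom.mem_ker, ← FSL_ker]
    constructor
    · intro h
      apply Subtype.ext
      apply Subtype.ext
      show k * FSL m * k⁻¹ = 1
      rw [h]
      group
    · intro h
      have h1 := congrArg (fun z : ↥K => ((z : ↥M24) : Equiv.Perm GolayPt)) h
      have h2 : k * FSL m * k⁻¹ = 1 := h1
      have h3 : FSL m = k⁻¹ * (k * FSL m * k⁻¹) * k := by group
      rw [h3, h2]
      group
  exact ⟨((QuotientGroup.quotientMulEquivOfEq hker).trans (QuotientGroup.quotientKerEquivOfSurjective φ hsurj)).symm⟩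

end Cfsg.Agent.H07.Orb
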