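import Mathlib
import Cfsg.Agent.Lib.H07.SimpleT2

/-!
# An order bound from a cyclic subgroup of known index
-/

set_option autoImplicit false

namespace Cfsg.Agent.H07.SimpleT

/-- A word with a relator power generating a subgroup of finite index bounds the group. -/
theorem hub_of_cyclic {β : Type*} {rels : Set (FreeGroup β)} (w : FreeGroup β) (m n : ℕ) (hm : 0 < m)
    (hw : w ^ m ∈ rels)
    (hup : ((Subgroup.closure ({w} : Set (FreeGroup β))).map (PresentedGroup.mk rels)).index ≤ n ∧
      ((Subgroup.closure ({w} : Set (FreeGroup β))).map (PresentedGroup.mk rels)).index ≠ 0) :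
    Finite (PresentedGroup rels) ∧ Nat.card (PresentedGroup rels) ≤ n * m := by
  have hlift : FreeGroup.lift (fun y => (PresentedGroup.of y : PresentedGroup rels)) = PresentedGroup.mk rels := by
    ext y
    simp [PresentedGroup.of]
  let x : PresentedGroup rels := PresentedGroup.mk rels w
  have hx : x ^ m = 1 := by
    show PresentedGroup.mk rels w ^ m = 1
    rw [← map_pow]
    exact PresentedGroup.one_of_mem hw
  have hfin : IsOfFinOrder x := isOfFinOrder_iff_pow_eq_one.mpr ⟨m, hm, hx⟩
  have : Finite (Subgroup.zpowers x) := finite_zpowers.mpr hfin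
  have hc : Nat.card (Subgroup.zpowers x) ≤ m := by
    rw [Nat.card_zpowers]
    exact orderOf_le_of_pow_eq_one hm hx
  have ht := level_bound (fun y => (PresentedGroup.of y : PresentedGroup rels)) (lift_top rels) hup
    (Subgroup.zpowers x) (by
      intro s hs
      rw [Set.mem_singleton_iff] at hs
      subst hs
      rw [hlift]
      exact Subgroup.mem_zpowers x)
  have hf := top_of_level rels ⟨ht.1, le_trans ht.2 (Nat.mul_le_mul_left _ hc)⟩
  exact hf

end Cfsg.Agent.H07.SimpleT
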