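import Mathlib

set_option autoImplicit false

namespace Cfsg.Agent.H07.Design

section aux

set_option linter.unusedSectionVars false
variable {α : Type*} [Fintype α] [DecidableEq α]

open Finset in
/-- Double counting: the number of blocks through an `i`-set from that through `(i+1)`-sets. -/
theorem count_step (B : Finset (Finset α)) (k : ℕ) (hB : ∀ b ∈ B, b.card = k)
    (u : Finset α) (m : ℕ)
    (hm : ∀ x, x ∉ u → (B.filter fun c => insert x u ⊆ c).card = m) :
    (k - u.card) * (B.filter fun c => u ⊆ c).card = (Fintype.card α - u.card) * m := by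
  classical
  have h1 : ∑ c ∈ B.filter (fun c => u ⊆ c), ((univ \ u).filter (fun x => x ∈ c)).card
      = ∑ x ∈ univ \ u, (B.filter fun c => insert x u ⊆ c).card := by
    simp only [card_eq_sum_ones, sum_filter]
    calc _ = ∑ a ∈ B, ∑ x ∈ univ \ u, (if (u ⊆ a ∧ x ∈ a) then 1 else 0) := by
          refine sum_congr rfl fun a _ => ?_
          by_cases h : u ⊆ a <;> simp [h]
      _ = _ := by
          rw [sum_comm]
          refine sum_congr rfl fun x _ => sum_congr rfl fun c _ => ?_
          by_cases h : x ∈ c <;> by_cases h' : u ⊆ c <;> simp [h, h', insert_subset_iff]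
  have h2 : ∀ c ∈ B.filter (fun c => u ⊆ c), ((univ \ u).filter (fun x => x ∈ c)).card = k - u.card := by
    intro c hc
    obtain ⟨hcB, huc'⟩ := mem_filter.mp hc
    have : (univ \ u).filter (fun x => x ∈ c) = c \ u := by
      ext x; simp [and_comm]
    rw [this, card_sdiff_of_subset huc', hB c hcB]
  rw [sum_congr rfl h2, sum_const, smul_eq_mul, mul_comm] at h1
  rw [h1, sum_congr rfl (fun x hx => hm x (by simpa using hx)), sum_const, smul_eq_mul,
    card_sdiff_of_subset (subset_univ _), card_univ]

open Finset in
/-- Blocks through `s ⊆ b` are partitioned by their trace on `b`. -/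
theorem fiber_sum (B : Finset (Finset α)) (b s : Finset α) (hs : s ⊆ b) :
    (B.filter fun c => s ⊆ c).card =
      ∑ v ∈ (b \ s).powerset, (B.filter fun c => b ∩ c = s ∪ v).card := by
  classical
  rw [card_eq_sum_card_fiberwise (f := fun c => (b ∩ c) \ s) (t := (b \ s).powerset)]
  · refine sum_congr rfl fun v hv => ?_
    have hv' : v ⊆ b \ s := mem_powerset.mp hv
    congr 1
    ext c
    simp only [mem_filter]
    constructor
    · rintro ⟨⟨hc, hsc⟩, h⟩
      refine ⟨hc, ?_⟩
      rw [← h]
      ext x
      simp only [mem_inter, mem_union, mem_sdiff]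
      constructor
      · intro hx; by_cases hxs : x ∈ s
        · exact Or.inl hxs
        · exact Or.inr ⟨hx, hxs⟩
      · rintro (hx | hx)
        · exact ⟨hs hx, hsc hx⟩
        · exact hx.1
    · rintro ⟨hc, h⟩
      refine ⟨⟨hc, ?_⟩, ?_⟩
      · intro x hx
        have : x ∈ b ∩ c := by rw [h]; exact mem_union_left _ hx
        exact (mem_inter.mp this).2
      · rw [h]
        ext x
        simp only [mem_sdiff, mem_union]
        constructor
        · rintro ⟨hx | hx, hxs⟩
          · exact absurd hx hxs
          · exact hx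
        · intro hx
          exact ⟨Or.inr hx, (mem_sdiff.mp (hv' hx)).2⟩
  · intro c hc
    have hc' := mem_coe.mp hc
    simp only [coe_powerset, Set.mem_preimage, Set.mem_powerset_iff, coe_subset]
    intro x hx
    simp only [mem_sdiff, mem_inter] at hx ⊢
    exact ⟨hx.1.1, hx.2⟩

open Finset in
theorem step_sum (B : Finset (Finset α)) (b s : Finset α) (hs : s ⊆ b) (k n : ℕ)
    (hk : s.card = k) (hn : b.card = k + n) (g : ℕ → ℕ)
    (hg : ∀ t, t ⊆ b → s ⊂ t → (B.filter fun c => b ∩ c = t).card = g t.card) :
    (B.filter fun c => s ⊆ c).card = ∑ m ∈ range (n + 1), n.choose m *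
      (if m = 0 then (B.filter fun c => b ∩ c = s).card else g (k + m)) := by
  classical
  rw [fiber_sum B b s hs]
  have hX : (b \ s).card = n := by
    rw [card_sdiff_of_subset hs, hn, hk]; omega
  have key : ∀ v ∈ (b \ s).powerset, (B.filter fun c => b ∩ c = s ∪ v).card =
      (fun m => if m = 0 then (B.filter fun c => b ∩ c = s).card else g (k + m)) v.card := by
    intro v hv
    have hv' : v ⊆ b \ s := mem_powerset.mp hv
    by_cases h0 : v = ∅
    · subst h0; simp
    · have hvc : v.card ≠ 0 := by simpa [card_eq_zero] using h0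
      have hdisj : Disjoint s v := by
        rw [disjoint_left]
        intro x hx hxv
        exact (mem_sdiff.mp (hv' hxv)).2 hx
      simp only [hvc, if_false]
      rw [hg (s ∪ v) (union_subset hs (hv'.trans sdiff_subset)) ?_, card_union_of_disjoint hdisj, hk]
      rw [ssubset_iff_subset_ne]
      refine ⟨subset_union_left, ?_⟩
      intro h
      have : v ⊆ s := by rw [h]; exact subset_union_right
      rcases Finset.nonempty_iff_ne_empty.mpr h0 with ⟨x, hx⟩
      exact (mem_sdiff.mp (hv' hx)).2 (this hx)
  rw [sum_congr rfl key]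
  have := sum_powerset_apply_card (fun m => if m = 0 then (B.filter fun c => b ∩ c = s).card else g (k + m)) (x := b \ s)
  rw [hX] at this
  simpa [smul_eq_mul] using this

end aux

end Cfsg.Agent.H07.Design
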