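import Mathlib
import Cfsg.Agent.Lib.H07.SimpleT3
import Cfsg.Agent.Lib.H07.TT3T

/-!
# Homomorphisms into a table group, checked on a base
-/

set_option autoImplicit false

namespace Cfsg.Agent.H07.TT3

open Cfsg.Agent.H07.Coset Cfsg.Agent.H07.SimpleT

noncomputable section

/-- A simple group with a nontrivial homomorphism is isomorphic to its image. -/
theorem range_simple {P Q : Type*} [Group P] [Group Q] (hs : IsSimpleGroup P) (φ : P →* Q)
    (hne : ∃ x, φ x ≠ 1) : IsSimpleGroup φ.range ∧ Nat.card φ.range = Nat.card P := by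
  have hinj : Function.Injective φ := by
    rw [injective_iff_map_eq_one]
    have hk := (MonoidHom.normal_ker φ).eq_bot_or_eq_top
    rcases hk with hk | hk
    · intro a ha
      have : a ∈ φ.ker := ha
      rw [hk] at this
      exact (Subgroup.mem_bot).mp this
    · obtain ⟨x, hx⟩ := hne
      exact absurd (MonoidHom.mem_ker.mp (hk ▸ Subgroup.mem_top x)) hx
  let e : P ≃* φ.range := MonoidHom.ofInjective hinj
  exact ⟨e.symm.isSimpleGroup, (Nat.card_congr e.toEquiv).symm⟩

section Tab

variable {α β : Type*} [DecidableEq α] [DecidableEq β] {rels : Set (FreeGroup α)} {T : ℕ → ℕ → ℕ}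
  {col : α → Bool → ℕ} {n ncol : ℕ} {letter : ℕ → α × Bool}

/-- The word of a list of letters under an assignment of table words. -/
def evalW (enc : β → Bool → List ℕ) : List (β × Bool) → List ℕ
  | [] => []
  | p :: l => evalW enc l ++ enc p.1 p.2

theorem evalW_lt (enc : β → Bool → List ℕ) (henc : ∀ x c, ∀ y ∈ enc x c, y < ncol) (l : List (β × Bool)) :
    ∀ y ∈ evalW enc l, y < ncol := by
  induction l with
  | nil => intro y hy; simp [evalW] at hy
  | cons p l ih =>
    intro y hy
    rw [evalW, List.mem_append] at hy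
    rcases hy with h | h
    · exact ih y h
    · exact henc _ _ y h

theorem lift_evalW (enc : β → Bool → List ℕ) (f : β → PresentedGroup rels)
    (hf : ∀ x, eltW rels letter (enc x true) = f x)
    (hf' : ∀ x, eltW rels letter (enc x false) = (f x)⁻¹) (r : FreeGroup β) :
    FreeGroup.lift f r = eltW rels letter (evalW enc r.toWord) := by
  have key : ∀ l : List (β × Bool), FreeGroup.lift f (FreeGroup.mk l) = eltW rels letter (evalW enc l) := by
    intro l
    rw [FreeGroup.lift_mk]
    induction l with
    | nil => simp [evalW, eltW]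
    | cons p l ih =>
      rw [List.map_cons, List.prod_cons, ih, evalW, eltW_append]
      obtain ⟨x, c⟩ := p
      cases c
      · simp [hf']
      · simp [hf]
  conv_lhs => rw [← FreeGroup.mk_toWord (x := r)]
  exact key _

variable (R : TabRep rels T col n)
  (hletter : ∀ y, y < ncol → col (letter y).1 (letter y).2 = y)
  (hinj : Function.Injective (rhoT R.hb R.hi R.hrel))

include hletter hinj

/-- A word is trivial as soon as it fixes the base. -/
theorem eltW_eq_one_of_base [NeZero n] (word : ℕ → List ℕ) (lev : ℕ → ℕ)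
    (J L : ℕ) (base sz : ℕ → ℕ) (E : ℕ → ℕ → ℕ)
    (htrans : ∀ i : Fin n, ∃ g, rhoT R.hb R.hi R.hrel g 0 = i)
    (hw : ∀ j, j < J → ∀ y ∈ word j, y < ncol)
    (h0 : ∀ j, j < J → walk T 0 (word j) = 0)
    (hbase : ∀ i, i < L → base i < n)
    (hfix : ∀ i, i < L → ∀ j, j < J → i + 1 ≤ lev j → walk T (base i) (word j) = base i)
    (hlvl : ∀ i, i < L → ∀ k, k < sz i → lvlOK T word lev (E i) (sz i) J n i (base i) k = true)
    (hcard : Nat.card (rhoT R.hb R.hi R.hrel).range ≤ n * ∏ i ∈ Finset.range L, sz i)
    (w : List ℕ) (hwl : ∀ y ∈ w, y < ncol) (h1 : walk T 0 w = 0)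
    (h2 : ∀ i, i < L → walk T (base i) w = base i) :
    eltW rels letter w = 1 := by
  apply hinj
  rw [map_one]
  apply sgs_tight R hletter word lev J L base sz E htrans hw h0 hbase hfix hlvl hcard
  · exact ⟨_, rfl⟩
  · apply Fin.ext
    rw [rho_eltW R hletter w hwl]
    exact h1
  · intro i hi
    apply Fin.ext
    rw [rho_eltW R hletter w hwl]
    exact h2 i hi

end Tab

end

end Cfsg.Agent.H07.TT3
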