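import Mathlib

set_option autoImplicit false

namespace Cfsg.Agent.H07.EvenLattice

open Matrix

variable {n : ℕ} {B : Matrix (Fin n) (Fin n) ℤ}

/-- The quadratic form. -/
def Q (B : Matrix (Fin n) (Fin n) ℤ) (x : Fin n → ℤ) : ℤ := x ⬝ᵥ (B *ᵥ x)

/-- The bilinear form. -/
def bil (B : Matrix (Fin n) (Fin n) ℤ) (x y : Fin n → ℤ) : ℤ := x ⬝ᵥ (B *ᵥ y)

theorem bil_symm (hsymm : B.IsSymm) (x y : Fin n → ℤ) : bil B x y = bil B y x := by
  unfold bil
  rw [dotProduct_mulVec, ← mulVec_transpose, hsymm.eq, dotProduct_comm]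

theorem bil_add_left (x y z : Fin n → ℤ) : bil B (x + y) z = bil B x z + bil B y z := by
  simp [bil, add_dotProduct]

theorem bil_add_right (x y z : Fin n → ℤ) : bil B x (y + z) = bil B x y + bil B x z := by
  simp [bil, mulVec_add, dotProduct_add]

theorem bil_neg_left (x y : Fin n → ℤ) : bil B (-x) y = - bil B x y := by
  simp [bil, neg_dotProduct]

theorem bil_neg_right (x y : Fin n → ℤ) : bil B x (-y) = - bil B x y := by
  simp [bil, mulVec_neg, dotProduct_neg]

theorem bil_smul_right (k : ℤ) (x y : Fin n → ℤ) : bil B x (k • y) = k * bil B x y := by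
  unfold bil
  rw [mulVec_smul, dotProduct_smul, smul_eq_mul]

theorem bil_sum_right {ι : Type*} (s : Finset ι) (x : Fin n → ℤ) (f : ι → Fin n → ℤ) :
    bil B x (∑ i ∈ s, f i) = ∑ i ∈ s, bil B x (f i) := by
  classical
  induction s using Finset.induction_on with
  | empty => simp [bil]
  | insert a s ha ih => rw [Finset.sum_insert ha, Finset.sum_insert ha, bil_add_right, ih]

theorem Q_eq_bil (x : Fin n → ℤ) : Q B x = bil B x x := rfl

theorem Q_neg (x : Fin n → ℤ) : Q B (-x) = Q B x := by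
  simp [Q_eq_bil, bil_neg_left, bil_neg_right]

/-- The parallelogram law for `x = v + u`, `y = v - u`. -/
theorem parallelogram (hsymm : B.IsSymm) (u v : Fin n → ℤ) :
    Q B (v + u) + Q B (v + -u) = 2 * (Q B u + Q B v) ∧
      bil B (v + u) (v + -u) = Q B v - Q B u := by
  have h := bil_symm hsymm u v
  simp only [Q_eq_bil, bil_add_left, bil_add_right, bil_neg_left, bil_neg_right]
  constructor <;> linarith

theorem exists_half {x y : Fin n → ℤ} (hc : ∀ i, (2 : ℤ) ∣ (x - y) i) :
    ∃ u v : Fin n → ℤ, x = v + u ∧ y = v + -u := by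
  choose u hu using hc
  refine ⟨u, y + u, ?_, ?_⟩
  · funext i
    have := hu i
    simp only [Pi.sub_apply] at this
    simp only [Pi.add_apply]
    linarith
  · funext i
    simp

/-- Elementary facts about a positive definite even rootless form. -/
structure Rootless (B : Matrix (Fin n) (Fin n) ℤ) : Prop where
  hsymm : B.IsSymm
  hpos : ∀ x : Fin n → ℤ, x ≠ 0 → 0 < x ⬝ᵥ (B *ᵥ x)
  heven : ∀ x : Fin n → ℤ, (2 : ℤ) ∣ x ⬝ᵥ (B *ᵥ x)
  h2 : ∀ x : Fin n → ℤ, x ⬝ᵥ (B *ᵥ x) ≠ 2

theorem Rootless.Q_zero (h : Rootless B) {x : Fin n → ℤ} (hx : Q B x = 0) : x = 0 := by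
  by_contra hne
  have := h.hpos x hne
  unfold Q at hx
  omega

theorem Rootless.Q_ge (h : Rootless B) (x : Fin n → ℤ) : Q B x = 0 ∨ 4 ≤ Q B x := by
  by_cases hx : x = 0
  · left
    subst hx
    simp [Q]
  · right
    have h1 := h.hpos x hx
    obtain ⟨k, hk⟩ := h.heven x
    have h3 := h.h2 x
    show 4 ≤ x ⬝ᵥ (B *ᵥ x)
    omega

/-- Congruent vectors: the two half-vectors. -/
theorem Rootless.congr_data (h : Rootless B) {x y : Fin n → ℤ} (hc : ∀ i, (2 : ℤ) ∣ (x - y) i) :
    ∃ u v : Fin n → ℤ, x = v + u ∧ y = v + -u ∧ Q B x + Q B y = 2 * (Q B u + Q B v) ∧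
      bil B x y = Q B v - Q B u := by
  obtain ⟨u, v, rfl, rfl⟩ := exists_half hc
  obtain ⟨h1, h2⟩ := parallelogram h.hsymm u v
  exact ⟨u, v, rfl, rfl, h1, h2⟩

/-- Norm-8 congruence. -/
theorem Rootless.norm8 (h : Rootless B) {x y : Fin n → ℤ} (hx : Q B x = 8) (hy : Q B y = 8)
    (hc : ∀ i, (2 : ℤ) ∣ (x - y) i) : y = x ∨ y = -x ∨ bil B x y = 0 := by
  obtain ⟨u, v, hxe, hye, h1, h2⟩ := h.congr_data hc
  rw [hx, hy] at h1
  rcases h.Q_ge u with hu | hu
  · left
    have : u = 0 := h.Q_zero hu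
    subst this
    simp [hxe, hye]
  rcases h.Q_ge v with hv | hv
  · right; left
    have : v = 0 := h.Q_zero hv
    subst this
    simp [hxe, hye]
  · right; right
    omega

/-- Norm `m` congruence where the two norms are small: the two vectors are equal or opposite. -/
theorem Rootless.small_eq (h : Rootless B) {x y : Fin n → ℤ} (hxy : Q B x = Q B y)
    (hlt : Q B x = 4 ∨ Q B x = 6) (hc : ∀ i, (2 : ℤ) ∣ (x - y) i) : y = x ∨ y = -x := by
  obtain ⟨u, v, hxe, hye, h1, h2⟩ := h.congr_data hc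
  rcases h.Q_ge u with hu | hu
  · left
    have : u = 0 := h.Q_zero hu
    subst this
    simp [hxe, hye]
  rcases h.Q_ge v with hv | hv
  · right
    have : v = 0 := h.Q_zero hv
    subst this
    simp [hxe, hye]
  · omega

/-- A vector of norm `4`, `6` is not congruent to a vector of norm `6`, `8`. -/
theorem Rootless.not_congr (h : Rootless B) {x y : Fin n → ℤ}
    (hn : (Q B x = 4 ∧ Q B y = 6) ∨ (Q B x = 4 ∧ Q B y = 8) ∨ (Q B x = 6 ∧ Q B y = 8))
    (hc : ∀ i, (2 : ℤ) ∣ (x - y) i) : False := by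
  obtain ⟨u, v, hxe, hye, h1, h2⟩ := h.congr_data hc
  obtain ⟨ku, hku⟩ := h.heven u
  obtain ⟨kv, hkv⟩ := h.heven v
  have hu' : Q B u = 2 * ku := hku
  have hv' : Q B v = 2 * kv := hkv
  rcases h.Q_ge u with hu | hu
  · have : u = 0 := h.Q_zero hu
    subst this
    have : x = y := by simp [hxe, hye]
    subst this
    rcases hn with ⟨a, b⟩ | ⟨a, b⟩ | ⟨a, b⟩ <;> omega
  rcases h.Q_ge v with hv | hv
  · have : v = 0 := h.Q_zero hv
    subst this
    have : y = -x := by simp [hxe, hye]
    subst this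
    rw [Q_neg] at hn
    rcases hn with ⟨a, b⟩ | ⟨a, b⟩ | ⟨a, b⟩ <;> omega
  · rcases hn with ⟨a, b⟩ | ⟨a, b⟩ | ⟨a, b⟩ <;> omega

/-- A vector of norm `4`, `6`, `8` is not congruent to zero. -/
theorem Rootless.not_zero (h : Rootless B) {x : Fin n → ℤ}
    (hn : Q B x = 4 ∨ Q B x = 6 ∨ Q B x = 8) (hc : ∀ i, (2 : ℤ) ∣ x i) : False := by
  choose u hu using hc
  have hxe : x = u + u := by
    funext i
    simp only [Pi.add_apply]
    rw [hu i]; ring
  have h1 : Q B x = 4 * Q B u := by
    rw [hxe]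
    simp only [Q_eq_bil, bil_add_left, bil_add_right]
    ring
  obtain ⟨k, hk⟩ := h.heven u
  have hu' : Q B u = 2 * k := hk
  have h3 : Q B u ≠ 2 := h.h2 u
  rw [h1] at hn
  omega

/-- Pairwise orthogonal nonzero vectors are independent, hence there are at most `n` of them. -/
theorem card_orthogonal_le (h : Rootless B) (L : Finset (Fin n → ℤ))
    (hne : ∀ v ∈ L, Q B v ≠ 0) (hort : ∀ v ∈ L, ∀ w ∈ L, v ≠ w → bil B v w = 0) :
    L.card ≤ n := by
  classical
  have hli : LinearIndependent ℤ (fun v : L => (v : Fin n → ℤ)) := by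
    rw [Fintype.linearIndependent_iff]
    intro c hc w
    have h1 : bil B (w : Fin n → ℤ) (∑ v : L, c v • (v : Fin n → ℤ)) = 0 := by
      rw [hc]
      simp [bil]
    have h2 : bil B (w : Fin n → ℤ) (∑ v : L, c v • (v : Fin n → ℤ)) =
        ∑ v : L, c v * bil B (w : Fin n → ℤ) (v : Fin n → ℤ) := by
      rw [bil_sum_right]
      exact Finset.sum_congr rfl fun v _ => bil_smul_right _ _ _
    rw [h2] at h1
    rw [Finset.sum_eq_single w] at h1
    · have h3 : bil B (w : Fin n → ℤ) (w : Fin n → ℤ) ≠ 0 := hne w w.2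
      exact (mul_eq_zero.mp h1).resolve_right h3
    · intro v _ hv
      rw [hort w w.2 v v.2 (fun e => hv (Subtype.ext e.symm)), mul_zero]
    · intro hw
      exact absurd (Finset.mem_univ w) hw
  have := hli.fintype_card_le_finrank
  simpa using this

/-- The frame bound: a finite set of norm-`8` vectors, any two of which are equal, opposite or
orthogonal, has at most `2 n` elements. -/
theorem frame_bound (h : Rootless B) (F : Finset (Fin n → ℤ)) (hF8 : ∀ v ∈ F, Q B v = 8)
    (hF : ∀ v ∈ F, ∀ w ∈ F, w = v ∨ w = -v ∨ bil B v w = 0) : F.card ≤ 2 * n := by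
  classical
  -- take a maximal pairwise orthogonal subset
  let P : Finset (Finset (Fin n → ℤ)) := F.powerset.filter fun L =>
    ∀ v ∈ L, ∀ w ∈ L, v ≠ w → bil B v w = 0
  have hPne : P.Nonempty := ⟨∅, by simp [P]⟩
  obtain ⟨L, hLP, hLmax⟩ := Finset.exists_max_image P Finset.card hPne
  simp only [P, Finset.mem_filter, Finset.mem_powerset] at hLP
  obtain ⟨hLF, hLort⟩ := hLP
  have hcover : F ⊆ L ∪ L.image (fun v => -v) := by
    intro y hy
    by_contra hyn
    simp only [Finset.mem_union, Finset.mem_image, not_or, not_exists, not_and] at hyn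
    obtain ⟨hy1, hy2⟩ := hyn
    have hins : insert y L ∈ P := by
      simp only [P, Finset.mem_filter, Finset.mem_powerset]
      refine ⟨Finset.insert_subset hy hLF, ?_⟩
      have hyo : ∀ w ∈ L, bil B y w = 0 := by
        intro w hw
        rcases hF y hy w (hLF hw) with h1 | h1 | h1
        · exact absurd (h1 ▸ hw) hy1
        · exact absurd (by rw [h1, neg_neg]) (hy2 w hw)
        · exact h1
      intro v hv w hw hvw
      rcases Finset.mem_insert.mp hv with hv' | hv'
      · rcases Finset.mem_insert.mp hw with hw' | hw'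
        · exact absurd (hv'.trans hw'.symm) hvw
        · rw [hv']; exact hyo w hw'
      · rcases Finset.mem_insert.mp hw with hw' | hw'
        · rw [bil_symm h.hsymm, hw']
          exact hyo v hv'
        · exact hLort v hv' w hw' hvw
    have := hLmax _ hins
    rw [Finset.card_insert_of_notMem hy1] at this
    omega
  have hL : L.card ≤ n := by
    apply card_orthogonal_le h L
    · intro v hv
      rw [hF8 v (hLF hv)]
      norm_num
    · exact hLort
  have h1 := Finset.card_le_card hcover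
  have h2 := Finset.card_union_le L (L.image (fun v => -v))
  have h3 : (L.image (fun v => -v)).card ≤ L.card := Finset.card_image_le
  omega

end Cfsg.Agent.H07.EvenLattice
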