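import Mathlib

/-!
# Matrices over small fields packed into natural numbers, for kernel computation
-/

set_option autoImplicit false

namespace Cfsg.Agent.H07.MatC

noncomputable section

/-- The digit of base `2 ^ b` at a position. -/
def rd (b x pos : ℕ) : ℕ := Nat.land (Nat.shiftRight x (Nat.mul b pos)) (Nat.sub (Nat.pow 2 b) 1)

theorem rd_eq (b x pos : ℕ) : rd b x pos = (x / 2 ^ (b * pos)) % 2 ^ b := by
  show (x >>> (b * pos)) &&& (2 ^ b - 1) = _
  rw [Nat.shiftRight_eq_div_pow, Nat.and_two_pow_sub_one_eq_mod]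

theorem rd_lt (b x pos : ℕ) : rd b x pos < 2 ^ b := by
  rw [rd_eq]
  exact Nat.mod_lt _ (by positivity)

/-- Packing digits. -/
def enc (b : ℕ) (f : ℕ → ℕ) : ℕ → ℕ
  | 0 => 0
  | k + 1 => Nat.add (enc b f k) (Nat.shiftLeft (f k) (Nat.mul b k))

theorem enc_succ (b : ℕ) (f : ℕ → ℕ) (k : ℕ) : enc b f (k + 1) = enc b f k + f k * 2 ^ (b * k) := by
  show (enc b f k) + ((f k) <<< (b * k)) = _
  rw [Nat.shiftLeft_eq]

theorem enc_lt (b : ℕ) (f : ℕ → ℕ) (n : ℕ) (hf : ∀ k, k < n → f k < 2 ^ b) : enc b f n < 2 ^ (b * n) := by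
  induction n with
  | zero => simp [enc]
  | succ n ih =>
    rw [enc_succ]
    have h1 := ih (fun k hk => hf k (Nat.lt_succ_of_lt hk))
    have h2 := hf n (Nat.lt_succ_self n)
    have h3 : f n + 1 ≤ 2 ^ b := h2
    have h4 : (f n + 1) * 2 ^ (b * n) ≤ 2 ^ b * 2 ^ (b * n) := Nat.mul_le_mul_right _ h3
    have h5 : 2 ^ (b * (n + 1)) = 2 ^ b * 2 ^ (b * n) := by
      rw [← pow_add]
      congr 1
      ring
    rw [h5]
    nlinarith

theorem rd_enc (b : ℕ) (_hb : 0 < b) (f : ℕ → ℕ) (n : ℕ) (hf : ∀ k, k < n → f k < 2 ^ b) (pos : ℕ) (hpos : pos < n) :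
    rd b (enc b f n) pos = f pos := by
  rw [rd_eq]
  induction n with
  | zero => omega
  | succ n ih =>
    rw [enc_succ]
    have hP : 0 < 2 ^ (b * pos) := by positivity
    by_cases h : pos < n
    · have h1 : 2 ^ (b * n) = 2 ^ (b * pos) * 2 ^ (b * (n - pos)) := by
        rw [← pow_add]
        congr 1
        rw [← Nat.mul_add]
        congr 1
        omega
      rw [h1, show f n * (2 ^ (b * pos) * 2 ^ (b * (n - pos))) = 2 ^ (b * pos) * (f n * 2 ^ (b * (n - pos))) by ring,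
        Nat.add_mul_div_left _ _ hP]
      have h2 : 2 ^ b ∣ f n * 2 ^ (b * (n - pos)) := by
        apply Dvd.dvd.mul_left
        apply pow_dvd_pow
        have : 1 ≤ n - pos := by omega
        calc b = b * 1 := (mul_one b).symm
          _ ≤ b * (n - pos) := Nat.mul_le_mul_left _ this
      obtain ⟨c, hc⟩ := h2
      rw [hc, Nat.add_mul_mod_self_left]
      exact ih (fun k hk => hf k (Nat.lt_succ_of_lt hk)) h
    · have hn : pos = n := by omega
      subst hn
      rw [Nat.add_mul_div_right _ _ hP]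
      have h1 := enc_lt b f pos (fun k hk => hf k (Nat.lt_succ_of_lt hk))
      rw [Nat.div_eq_of_lt h1, Nat.zero_add]
      exact Nat.mod_eq_of_lt (hf pos (Nat.lt_succ_self pos))

/-- Iterated addition. -/
def sumN (addN : ℕ → ℕ → ℕ) (f : ℕ → ℕ) : ℕ → ℕ
  | 0 => 0
  | k + 1 => addN (sumN addN f k) (f k)

/-- Arithmetic of a field on the digits. -/
structure Enc (F : Type*) [Field F] (b : ℕ) where
  dec : ℕ → F
  addN : ℕ → ℕ → ℕ
  mulN : ℕ → ℕ → ℕ
  hb : 0 < b
  h0 : dec 0 = 0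
  hadd : ∀ x y, x < 2 ^ b → y < 2 ^ b → addN x y < 2 ^ b ∧ dec (addN x y) = dec x + dec y
  hmul : ∀ x y, x < 2 ^ b → y < 2 ^ b → mulN x y < 2 ^ b ∧ dec (mulN x y) = dec x * dec y

variable {F : Type*} [Field F] {b : ℕ} (E : Enc F b)

theorem sumN_spec (f : ℕ → ℕ) (n : ℕ) (hf : ∀ k, k < n → f k < 2 ^ b) :
    sumN E.addN f n < 2 ^ b ∧ E.dec (sumN E.addN f n) = ∑ k ∈ Finset.range n, E.dec (f k) := by
  induction n with
  | zero =>
    refine ⟨by simp [sumN], ?_⟩
    simp [sumN, E.h0]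
  | succ n ih =>
    obtain ⟨h1, h2⟩ := ih (fun k hk => hf k (Nat.lt_succ_of_lt hk))
    obtain ⟨h3, h4⟩ := E.hadd _ _ h1 (hf n (Nat.lt_succ_self n))
    refine ⟨h3, ?_⟩
    rw [Finset.sum_range_succ, ← h2, ← h4]
    rfl

/-- The `m × m` matrix of a packed number. -/
def matOf (m : ℕ) (A : ℕ) : Matrix (Fin m) (Fin m) F :=
  Matrix.of fun i j => E.dec (rd b A (i.1 * m + j.1))

/-- The vector of a packed number. -/
def vecOf (m : ℕ) (v : ℕ) : Fin m → F := fun i => E.dec (rd b v i.1)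

/-- An entry of the packed matrix product. -/
def mEnt (b : ℕ) (addN mulN : ℕ → ℕ → ℕ) (m A B p : ℕ) : ℕ :=
  sumN addN (fun k => mulN (rd b A (Nat.add (Nat.mul (Nat.div p m) m) k))
    (rd b B (Nat.add (Nat.mul k m) (Nat.mod p m)))) m

/-- Packed matrix product. -/
def mulC (b : ℕ) (addN mulN : ℕ → ℕ → ℕ) (m A B : ℕ) : ℕ :=
  enc b (mEnt b addN mulN m A B) (Nat.mul m m)

/-- An entry of the packed product of a matrix and a vector. -/
def vEnt (b : ℕ) (addN mulN : ℕ → ℕ → ℕ) (m A v i : ℕ) : ℕ :=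
  sumN addN (fun k => mulN (rd b A (Nat.add (Nat.mul i m) k)) (rd b v k)) m

/-- Packed product of a matrix and a vector. -/
def mvC (b : ℕ) (addN mulN : ℕ → ℕ → ℕ) (m A v : ℕ) : ℕ :=
  enc b (vEnt b addN mulN m A v) m

theorem bound_mEnt (m A B p : ℕ) : mEnt b E.addN E.mulN m A B p < 2 ^ b :=
  (sumN_spec E _ m (fun _ _ => (E.hmul _ _ (rd_lt _ _ _) (rd_lt _ _ _)).1)).1

theorem bound_vEnt (m A v i : ℕ) : vEnt b E.addN E.mulN m A v i < 2 ^ b :=
  (sumN_spec E _ m (fun _ _ => (E.hmul _ _ (rd_lt _ _ _) (rd_lt _ _ _)).1)).1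

theorem matOf_mulC (m A B : ℕ) :
    (matOf E m (mulC b E.addN E.mulN m A B) : Matrix (Fin m) (Fin m) F) = matOf E m A * matOf E m B := by
  ext i j
  rw [Matrix.mul_apply]
  show E.dec (rd b (mulC b E.addN E.mulN m A B) (i.1 * m + j.1)) = _
  have hm : 0 < m := i.pos
  have hp : i.1 * m + j.1 < m * m := by
    have := i.2
    have := j.2
    nlinarith
  have h0 : mulC b E.addN E.mulN m A B = enc b (mEnt b E.addN E.mulN m A B) (m * m) := rfl
  rw [h0, rd_enc b E.hb _ (m * m) (fun k _ => bound_mEnt E m A B k) _ hp]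
  have hdiv : (i.1 * m + j.1) / m = i.1 := by
    rw [Nat.add_comm, Nat.add_mul_div_right _ _ hm, Nat.div_eq_of_lt j.2, Nat.zero_add]
  have hmod : (i.1 * m + j.1) % m = j.1 := by
    rw [Nat.add_comm, Nat.add_mul_mod_self_right, Nat.mod_eq_of_lt j.2]
  unfold mEnt
  rw [(sumN_spec E _ m (fun _ _ => (E.hmul _ _ (rd_lt _ _ _) (rd_lt _ _ _)).1)).2]
  rw [← Fin.sum_univ_eq_sum_range (fun k => E.dec (E.mulN (rd b A (Nat.add (Nat.mul (Nat.div (i.1 * m + j.1) m) m) k))
    (rd b B (Nat.add (Nat.mul k m) (Nat.mod (i.1 * m + j.1) m))))) m]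
  apply Finset.sum_congr rfl
  intro k _
  rw [(E.hmul _ _ (rd_lt _ _ _) (rd_lt _ _ _)).2]
  show E.dec (rd b A ((i.1 * m + j.1) / m * m + k.1)) * E.dec (rd b B (k.1 * m + (i.1 * m + j.1) % m)) =
    E.dec (rd b A (i.1 * m + k.1)) * E.dec (rd b B (k.1 * m + j.1))
  rw [hdiv, hmod]

theorem vecOf_mvC (m A v : ℕ) :
    (vecOf E m (mvC b E.addN E.mulN m A v) : Fin m → F) = (matOf E m A).mulVec (vecOf E m v) := by
  ext i
  show E.dec (rd b (mvC b E.addN E.mulN m A v) i.1) = _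
  have h0 : mvC b E.addN E.mulN m A v = enc b (vEnt b E.addN E.mulN m A v) m := rfl
  rw [h0, rd_enc b E.hb _ m (fun k _ => bound_vEnt E m A v k) _ i.2]
  unfold vEnt
  rw [(sumN_spec E _ m (fun _ _ => (E.hmul _ _ (rd_lt _ _ _) (rd_lt _ _ _)).1)).2]
  rw [← Fin.sum_univ_eq_sum_range (fun k => E.dec (E.mulN (rd b A (Nat.add (Nat.mul i.1 m) k)) (rd b v k))) m]
  show _ = ∑ k : Fin m, E.dec (rd b A (i.1 * m + k.1)) * E.dec (rd b v k.1)
  apply Finset.sum_congr rfl
  intro k _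
  rw [(E.hmul _ _ (rd_lt _ _ _) (rd_lt _ _ _)).2]
  rfl

/-- Forcing a natural number in the kernel. -/
def force {α : Sort*} (x : ℕ) (k : ℕ → α) : α := Nat.rec (k 0) (fun n _ => k (Nat.succ n)) x

theorem force_eq {α : Sort*} (x : ℕ) (k : ℕ → α) : force x k = k x := by
  cases x <;> rfl

/-- The product of a list of matrices, accumulated from the left. -/
def prodFrom (b : ℕ) (addN mulN : ℕ → ℕ → ℕ) (m : ℕ) : ℕ → List ℕ → ℕ
  | acc, [] => acc
  | acc, y :: w => force (mulC b addN mulN m acc y) (fun a => prodFrom b addN mulN m a w)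

theorem matOf_prodFrom (m : ℕ) (acc : ℕ) (w : List ℕ) :
    (matOf E m (prodFrom b E.addN E.mulN m acc w) : Matrix (Fin m) (Fin m) F) =
      matOf E m acc * (w.map (matOf E m)).prod := by
  induction w generalizing acc with
  | nil => simp [prodFrom]
  | cons y w ih =>
    rw [prodFrom, force_eq, ih, matOf_mulC, List.map_cons, List.prod_cons, mul_assoc]

/-- The test of being the packed identity matrix. -/
def isIdC (b m A : ℕ) : Bool :=
  (List.range m).all fun i => (List.range m).all fun j =>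
    Nat.beq (rd b A (Nat.add (Nat.mul i m) j)) (if Nat.beq i j = true then 1 else 0)

theorem matOf_of_isId (m A : ℕ) (h : isIdC b m A = true) (hd : E.dec 1 = 1) :
    (matOf E m A : Matrix (Fin m) (Fin m) F) = 1 := by
  ext i j
  show E.dec (rd b A (i.1 * m + j.1)) = _
  unfold isIdC at h
  rw [List.all_eq_true] at h
  have h1 := h i.1 (List.mem_range.mpr i.2)
  rw [List.all_eq_true] at h1
  have h2 := h1 j.1 (List.mem_range.mpr j.2)
  have h3 : rd b A (i.1 * m + j.1) = if Nat.beq i.1 j.1 = true then 1 else 0 := Nat.eq_of_beq_eq_true h2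
  rw [h3]
  by_cases hij : i = j
  · subst hij
    simp [hd]
  · have : Nat.beq i.1 j.1 = false := by
      cases h4 : Nat.beq i.1 j.1 with
      | false => rfl
      | true => exact absurd (Fin.ext (Nat.eq_of_beq_eq_true h4)) hij
    rw [this]
    simp [hij, E.h0]

end

end Cfsg.Agent.H07.MatC
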