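import Mathlib
import Cfsg.Agent.Lib.H07.MatC

/-!
# The field with four elements, on the digits 0, 1, 2, 3 (2 = ω, 3 = ω + 1)
-/

set_option autoImplicit false

namespace Cfsg.Agent.H07.F4F

/-- The field with four elements. -/
structure F4 where
  val : Fin 4
  deriving DecidableEq

instance : Fintype F4 where
  elems := {⟨0⟩, ⟨1⟩, ⟨2⟩, ⟨3⟩}
  complete := by
    rintro ⟨x⟩
    revert x
    decide

theorem card_F4 : Fintype.card F4 = 4 := rfl

/-- The packed multiplication table. -/
def tblM : ℕ := 0b10_01_11_00_01_11_10_00_11_10_01_00_00_00_00_00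

def mulD (a b : ℕ) : ℕ := Nat.land (Nat.shiftRight tblM (Nat.mul 2 (Nat.add (Nat.mul a 4) b))) 3

def add4 (x y : F4) : F4 := ⟨⟨Nat.mod (Nat.xor x.val.1 y.val.1) 4, Nat.mod_lt _ (by decide)⟩⟩

def mul4 (x y : F4) : F4 := ⟨⟨Nat.mod (mulD x.val.1 y.val.1) 4, Nat.mod_lt _ (by decide)⟩⟩

/-- the inverse -/
def inv4 (x : F4) : F4 := ⟨⟨Nat.mod (mulD x.val.1 x.val.1) 4, Nat.mod_lt _ (by decide)⟩⟩

instance : Add F4 := ⟨add4⟩
instance : Mul F4 := ⟨mul4⟩
instance : Zero F4 := ⟨⟨0⟩⟩
instance : One F4 := ⟨⟨1⟩⟩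
instance : Neg F4 := ⟨id⟩
instance : Inv F4 := ⟨inv4⟩

instance : Field F4 where
  add_assoc := by decide
  zero_add := by decide
  add_zero := by decide
  add_comm := by decide
  nsmul := nsmulRec
  zsmul := zsmulRec
  neg_add_cancel := by decide
  mul_assoc := by decide
  one_mul := by decide
  mul_one := by decide
  mul_comm := by decide
  left_distrib := by decide
  right_distrib := by decide
  zero_mul := by decide
  mul_zero := by decide
  exists_pair_ne := ⟨0, 1, by decide⟩
  mul_inv_cancel := by decide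
  inv_zero := by decide
  nnqsmul := _
  qsmul := _

/-- Reading a digit. -/
def dec4 (n : ℕ) : F4 := ⟨⟨Nat.mod n 4, Nat.mod_lt _ (by decide)⟩⟩

theorem add_dec : ∀ x y : ℕ, x < 4 → y < 4 → Nat.xor x y < 4 ∧ dec4 (Nat.xor x y) = dec4 x + dec4 y := by
  intro x y hx hy
  interval_cases x <;> interval_cases y <;> decide

theorem mul_dec : ∀ x y : ℕ, x < 4 → y < 4 → mulD x y < 4 ∧ dec4 (mulD x y) = dec4 x * dec4 y := by
  intro x y hx hy
  interval_cases x <;> interval_cases y <;> decide

/-- The digits of the field. -/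
def enc4 : Cfsg.Agent.H07.MatC.Enc F4 2 where
  dec := dec4
  addN := Nat.xor
  mulN := mulD
  hb := by decide
  h0 := by decide
  hadd := fun x y hx hy => add_dec x y hx hy
  hmul := fun x y hx hy => mul_dec x y hx hy

end Cfsg.Agent.H07.F4F
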