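import Mathlib
import Cfsg.Agent.Lib.H07.TblS1551

/-!
# Actions of stabilisers on families of sets
-/

set_option autoImplicit false
set_option maxRecDepth 100000

namespace Cfsg.Agent.H07.Orb

open Cfsg Cfsg.Agent.H27.Golay
open scoped Pointwise

theorem stab_iff_fam {g : Equiv.Perm GolayPt} {S : Finset (Finset GolayPt)} :
    g • S = S ↔ ∀ t, g • t ∈ S ↔ t ∈ S := by
  constructor
  · intro h x
    constructor
    · intro hx
      have h1 := Finset.smul_mem_smul_finset (a := g⁻¹) hx
      have h3 : g⁻¹ • S = S := inv_smul_eq_iff.mpr h.symm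
      rw [h3] at h1
      simpa using h1
    · intro hx
      have h1 := Finset.smul_mem_smul_finset (a := g) hx
      rwa [h] at h1
  · intro h
    refine Finset.eq_of_subset_of_card_le ?_ (by rw [Finset.card_smul_finset])
    intro y hy
    obtain ⟨x, hx, rfl⟩ := Finset.mem_smul_finset.mp hy
    exact (h x).mpr hx

/-- The action on the members of a family. -/
noncomputable def phiF (S : Finset (Finset GolayPt)) : ↥(MulAction.stabilizer M24 S) →* Equiv.Perm ↥S :=
  MonoidHom.mk' (fun g => (MulAction.toPerm ((g : ↥M24) : Equiv.Perm GolayPt)).subtypePerm (stab_iff_fam.mp g.2)) (by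
    intro g₁ g₂
    apply Equiv.ext
    intro x
    apply Subtype.ext
    show ((g₁ * g₂ : ↥(MulAction.stabilizer M24 S)) : ↥M24).1 • x.1 = _
    exact mul_smul _ _ _)

theorem phiF_apply {S : Finset (Finset GolayPt)} (g : ↥(MulAction.stabilizer M24 S)) (t : ↥S) :
    ((phiF S g t : ↥S) : Finset GolayPt) = ((g : ↥M24) : Equiv.Perm GolayPt) • (t : Finset GolayPt) := rfl

theorem mem_ker_phiF {S : Finset (Finset GolayPt)} {z : ↥(MulAction.stabilizer M24 S)} :
    z ∈ (phiF S).ker ↔ ∀ t ∈ S, ((z : ↥M24) : Equiv.Perm GolayPt) • t = t := by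
  rw [MonoidHom.mem_ker]
  constructor
  · intro h x hx
    have := congrArg (fun e : Equiv.Perm ↥S => ((e ⟨x, hx⟩ : ↥S) : Finset GolayPt)) h
    exact this
  · intro h
    apply Equiv.ext
    intro x
    apply Subtype.ext
    exact h x.1 x.2

theorem rho_of_act {S : Finset (Finset GolayPt)} {n : ℕ} (e : Fin n ≃ ↥S) (g : ↥(MulAction.stabilizer M24 S))
    (σ : Equiv.Perm (Fin n))
    (h : ∀ i, ((g : ↥M24) : Equiv.Perm GolayPt) • ((e i : ↥S) : Finset GolayPt) = ((e (σ i) : ↥S) : Finset GolayPt)) :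
    e.symm.permCongrHom (phiF S g) = σ := by
  apply Equiv.ext
  intro i
  show e.symm (phiF S g (e i)) = σ i
  have h1 : phiF S g (e i) = e (σ i) := Subtype.ext (h i)
  rw [h1]
  simp

/-- A cycle and an adjacent transposition give all permutations of the family. -/
theorem phiF_surj {S : Finset (Finset GolayPt)} {n : ℕ} (e : Fin (n + 2) ≃ ↥S) (g1 g2 : ↥(MulAction.stabilizer M24 S))
    (h1 : ∀ i, ((g1 : ↥M24) : Equiv.Perm GolayPt) • ((e i : ↥S) : Finset GolayPt) = ((e (finRotate (n + 2) i) : ↥S) : Finset GolayPt))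
    (h2 : ∀ i, ((g2 : ↥M24) : Equiv.Perm GolayPt) • ((e i : ↥S) : Finset GolayPt) = ((e (Equiv.swap 0 1 i) : ↥S) : Finset GolayPt)) :
    Function.Surjective (phiF S) := by
  let ρ : ↥(MulAction.stabilizer M24 S) →* Equiv.Perm (Fin (n + 2)) :=
    (e.symm.permCongrHom).toMonoidHom.comp (phiF S)
  have hr1 : ρ g1 = finRotate (n + 2) := rho_of_act e g1 _ h1
  have hr2 : ρ g2 = Equiv.swap 0 1 := rho_of_act e g2 _ h2
  have hcl := Equiv.Perm.closure_cycle_adjacent_swap (isCycle_finRotate (n := n)) support_finRotate 0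
  have hz : finRotate (n + 2) 0 = 1 := finRotate_apply_zero
  rw [hz] at hcl
  have htop : ρ.range = ⊤ := by
    rw [eq_top_iff, ← hcl, Subgroup.closure_le]
    intro x hx
    simp only [Set.mem_insert_iff, Set.mem_singleton_iff] at hx
    rcases hx with rfl | rfl
    · exact ⟨g1, hr1⟩
    · exact ⟨g2, hr2⟩
  intro y
  obtain ⟨g, hg⟩ : e.symm.permCongrHom y ∈ ρ.range := by rw [htop]; trivial
  refine ⟨g, ?_⟩
  have h3 : e.symm.permCongrHom (phiF S g) = e.symm.permCongrHom y := hg
  exact e.symm.permCongrHom.injective h3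

/-- The kernel as a subtype. -/
theorem card_subtype_ker {S : Finset (Finset GolayPt)} :
    Nat.card {g : ↥(MulAction.stabilizer M24 S) // ∀ t ∈ S, ((g : ↥M24) : Equiv.Perm GolayPt) • t = t} =
      Nat.card ↥(phiF S).ker :=
  Nat.card_congr ⟨fun g => ⟨g.1, mem_ker_phiF.mpr g.2⟩, fun g => ⟨g.1, mem_ker_phiF.mp g.2⟩, fun _ => rfl, fun _ => rfl⟩

theorem card_ker_of_surj {S : Finset (Finset GolayPt)} (hs : Function.Surjective (phiF S)) {a b : ℕ}
    (hS : Nat.card ↥(MulAction.stabilizer M24 S) = a) (hc : Nat.card (Equiv.Perm ↥S) = b) :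
    Nat.card ↥(phiF S).ker * b = a := by
  have h1 : (phiF S).ker.index = Nat.card (phiF S).range := Subgroup.index_ker _
  have h2 := (phiF S).ker.card_mul_index
  rw [h1, MonoidHom.range_eq_top.mpr hs, Subgroup.card_top, hc, hS] at h2
  exact h2

end Cfsg.Agent.H07.Orb
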