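import Mathlib
import Cfsg.Agent.Lib.H07.TblPT

set_option autoImplicit false
set_option maxRecDepth 100000

namespace Cfsg.Agent.H07.Orb

open Cfsg Cfsg.Agent.H27.Golay
open scoped Pointwise

theorem zipP : zipOK (fun m π => isM24 π && ((fun _ => true) π && Nat.beq (am π P0) m)) (ksub 24 2) tblP = true := by
  decide +kernel

theorem exists_smul_P0 {s : Finset GolayPt} (hs : s.card = 2) : ∃ g ∈ M24, g • fs P0 = s := by
  obtain ⟨m, hm, rfl⟩ := (mem_card_iff_ksub s).mp hs
  exact exists_smul_mask (H := M24) (test := fun _ => true) (rep := fun _ => P0) (key := id)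
    (fun π h1 _ => P_mem_M24 h1) zipP hm

def keyP (m : ℕ) : ℕ := popc (Nat.land P0 m)
def testP (π : ℕ) : Bool := Nat.beq (am π P0) P0

theorem zipP0 : zipOK (fun m π => isM24 π && (testP π && Nat.beq (am π (repsP0.getD (keyP m) 0)) m)) (ksub 24 2) tblP0 = true := by
  decide +kernel

theorem exists_smul_stab_P0 {ma mb : ℕ} (hma : ma ∈ ksub 24 2) (hmb : mb ∈ ksub 24 2)
    (hk : keyP ma = keyP mb) :
    ∃ g ∈ M24 ⊓ MulAction.stabilizer (Equiv.Perm GolayPt) (fs P0), g • fs ma = fs mb :=
  exists_smul_mask₂ (H := M24 ⊓ MulAction.stabilizer (Equiv.Perm GolayPt) (fs P0)) (test := testP)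
    (rep := fun k => repsP0.getD k 0) (key := keyP)
    (fun _ h1 h2 => ⟨P_mem_M24 h1, P_smul_fs h1 h2⟩) zipP0 hma hmb hk

theorem P0_mem : P0 ∈ ksub 24 2 := by decide +kernel
theorem T0_mem : T0 ∈ ksub 24 3 := by decide +kernel

theorem ksub_smul {k : ℕ} {g : Equiv.Perm GolayPt} {c : ℕ} (hc : c ∈ ksub 24 k) : ∃ d ∈ ksub 24 k, g • fs c = fs d := by
  have h1 : (g • fs c).card = k := by
    rw [Finset.card_smul_finset]
    exact (mem_card_iff_ksub _).mpr ⟨c, hc, rfl⟩
  obtain ⟨d, hd, h2⟩ := (mem_card_iff_ksub _).mp h1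
  exact ⟨d, hd, h2.symm⟩

/-- The duad stabiliser is maximal: base case. -/
theorem coatom_P0 : IsCoatom (MulAction.stabilizer ↥M24 (fs P0)) := by
  refine coatom_table fs (ksub 24 2) (ksub_nodup 24 2) fs_inj_ksub P0_mem ?_ keyP ?_ ?_ {0, 1, 2}
    ?_ (fun k => if k = 0 then 231 else if k = 1 then 44 else 1) ?_ 276 2 ?_ ?_ ?_ (by norm_num)
  · intro g _ c hc
    exact ksub_smul hc
  · intro c hc
    exact exists_smul_P0 ((mem_card_iff_ksub _).mpr ⟨c, hc, rfl⟩)
  · intro c hc d hd hk
    obtain ⟨g, hg, h⟩ := exists_smul_stab_P0 hc hd hk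
    exact ⟨g, hg.1, hg.2, h⟩
  · have : allL (fun c => Nat.beq (keyP c) 0 || Nat.beq (keyP c) 1 || Nat.beq (keyP c) 2) (ksub 24 2) = true := by
      decide +kernel
    intro c hc
    have h := allL_spec this c hc
    simp only [Bool.or_eq_true, beq_iff] at h
    simp only [Finset.mem_insert, Finset.mem_singleton]
    tauto
  · intro k hk
    simp only [Finset.mem_insert, Finset.mem_singleton] at hk
    have h0 : countL (fun m => Nat.beq (keyP m) 0) (ksub 24 2) = 231 := by decide +kernel
    have h1 : countL (fun m => Nat.beq (keyP m) 1) (ksub 24 2) = 44 := by decide +kernel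
    have h2 : countL (fun m => Nat.beq (keyP m) 2) (ksub 24 2) = 1 := by decide +kernel
    rcases hk with rfl | rfl | rfl
    · exact h0
    · exact h1
    · exact h2
  · decide +kernel
  · decide +kernel
  · decide

/-! ### Triads -/

theorem zipT : zipOK (fun m π => isM24 π && ((fun _ => true) π && Nat.beq (am π T0) m)) (ksub 24 3) tblT = true := by
  decide +kernel

theorem exists_smul_T0 {s : Finset GolayPt} (hs : s.card = 3) : ∃ g ∈ M24, g • fs T0 = s := by
  obtain ⟨m, hm, rfl⟩ := (mem_card_iff_ksub s).mp hs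
  exact exists_smul_mask (H := M24) (test := fun _ => true) (rep := fun _ => T0) (key := id)
    (fun π h1 _ => P_mem_M24 h1) zipT hm

def key3 (m : ℕ) : ℕ :=
  Nat.add (Nat.mul 10 (popc (Nat.land T0 m)))
    (countL (fun o => Nat.beq (Nat.land o (Nat.lor T0 m)) (Nat.lor T0 m)) octT0)
def testT (π : ℕ) : Bool := Nat.beq (am π T0) T0

theorem zipT0 : zipOK (fun m π => isM24 π && (testT π && Nat.beq (am π (repsT0.getD (key3 m) 0)) m)) (ksub 24 3) tblT0 = true := by
  decide +kernel

theorem exists_smul_stab_T0 {ma mb : ℕ} (hma : ma ∈ ksub 24 3) (hmb : mb ∈ ksub 24 3)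
    (hk : key3 ma = key3 mb) :
    ∃ g ∈ M24 ⊓ MulAction.stabilizer (Equiv.Perm GolayPt) (fs T0), g • fs ma = fs mb :=
  exists_smul_mask₂ (H := M24 ⊓ MulAction.stabilizer (Equiv.Perm GolayPt) (fs T0)) (test := testT)
    (rep := fun k => repsT0.getD k 0) (key := key3)
    (fun _ h1 h2 => ⟨P_mem_M24 h1, P_smul_fs h1 h2⟩) zipT0 hma hmb hk

/-- The triad stabiliser is maximal: base case. -/
theorem coatom_T0 : IsCoatom (MulAction.stabilizer ↥M24 (fs T0)) := by
  refine coatom_table fs (ksub 24 3) (ksub_nodup 24 3) fs_inj_ksub T0_mem ?_ key3 ?_ ?_ {0, 1, 11, 25, 51}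
    ?_ (fun k => if k = 0 then 1120 else if k = 1 then 210 else if k = 11 then 630 else if k = 25 then 63 else 1) ?_ 2024 51 ?_ ?_ ?_ (by norm_num)
  · intro g _ c hc
    exact ksub_smul hc
  · intro c hc
    exact exists_smul_T0 ((mem_card_iff_ksub _).mpr ⟨c, hc, rfl⟩)
  · intro c hc d hd hk
    obtain ⟨g, hg, h⟩ := exists_smul_stab_T0 hc hd hk
    exact ⟨g, hg.1, hg.2, h⟩
  · have : allL (fun c => Nat.beq (key3 c) 0 || Nat.beq (key3 c) 1 || Nat.beq (key3 c) 11 || Nat.beq (key3 c) 25 || Nat.beq (key3 c) 51) (ksub 24 3) = true := by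
      decide +kernel
    intro c hc
    have h := allL_spec this c hc
    simp only [Bool.or_eq_true, beq_iff] at h
    simp only [Finset.mem_insert, Finset.mem_singleton]
    tauto
  · intro k hk
    simp only [Finset.mem_insert, Finset.mem_singleton] at hk
    have h0 : countL (fun m => Nat.beq (key3 m) 0) (ksub 24 3) = 1120 := by decide +kernel
    have h1 : countL (fun m => Nat.beq (key3 m) 1) (ksub 24 3) = 210 := by decide +kernel
    have h2 : countL (fun m => Nat.beq (key3 m) 11) (ksub 24 3) = 630 := by decide +kernel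
    have h3 : countL (fun m => Nat.beq (key3 m) 25) (ksub 24 3) = 63 := by decide +kernel
    have h4 : countL (fun m => Nat.beq (key3 m) 51) (ksub 24 3) = 1 := by decide +kernel
    rcases hk with rfl | rfl | rfl | rfl | rfl
    · exact h0
    · exact h1
    · exact h2
    · exact h3
    · exact h4
  · decide +kernel
  · decide +kernel
  · decide

end Cfsg.Agent.H07.Orb
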