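import Mathlib
import Cfsg.Agent.Lib.H07.TblQuart

/-!
# Quartets of a dodecad
-/

set_option autoImplicit false
set_option maxRecDepth 100000

namespace Cfsg.Agent.H07.Orb

open Cfsg Cfsg.Agent.H27.Golay
open scoped Pointwise

/-! ### Abstract facts -/

theorem smul_mem_hexadsOn {h : Equiv.Perm GolayPt} (hh : h ∈ M24) {x y : Finset GolayPt}
    (hy : y ∈ hexadsOn x) : h • y ∈ hexadsOn (h • x) := by
  obtain ⟨h1, o, ho, rfl⟩ := hy
  refine ⟨by rw [Finset.card_smul_finset]; exact h1, h • o, smul_mem_octads hh ho, ?_⟩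
  rw [Finset.smul_finset_inter]

theorem smul_mem_quartets {h : Equiv.Perm GolayPt} (hh : h ∈ M24) {x : Finset GolayPt}
    {Q : Finset (Finset GolayPt)} (hQ : Q ∈ quartets x) : h • Q ∈ quartets (h • x) := by
  obtain ⟨h1, h2, h3⟩ := hQ
  refine ⟨by rw [Finset.card_smul_finset]; exact h1, ?_, ?_⟩
  · intro t ht
    obtain ⟨t0, ht0, rfl⟩ := Finset.mem_smul_finset.mp ht
    exact ⟨by rw [Finset.card_smul_finset]; exact (h2 t0 ht0).1,
      Finset.smul_finset_subset_smul_finset (h2 t0 ht0).2⟩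
  · intro t ht u hu htu
    obtain ⟨t0, ht0, rfl⟩ := Finset.mem_smul_finset.mp ht
    obtain ⟨u0, hu0, rfl⟩ := Finset.mem_smul_finset.mp hu
    rw [← Finset.smul_finset_union]
    exact smul_mem_hexadsOn hh (h3 t0 ht0 u0 hu0 (fun e => htu (by rw [e])))

theorem mem_quartets_iff_smul {h : Equiv.Perm GolayPt} (hh : h ∈ M24) (x : Finset GolayPt)
    (Q : Finset (Finset GolayPt)) : Q ∈ quartets x ↔ h • Q ∈ quartets (h • x) := by
  refine ⟨smul_mem_quartets hh, fun hQ => ?_⟩
  have := smul_mem_quartets (M24.inv_mem hh) hQ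
  rwa [inv_smul_smul, inv_smul_smul] at this

theorem hexad_eq_of_five {d h1 h2 : Finset GolayPt} (h1m : h1 ∈ hexadsOn d) (h2m : h2 ∈ hexadsOn d)
    (h : 5 ≤ (h1 ∩ h2).card) : h1 = h2 := by
  obtain ⟨_, o1, ho1, rfl⟩ := h1m
  obtain ⟨_, o2, ho2, rfl⟩ := h2m
  have e : o1 = o2 := by
    refine octad_eq_of_five ho1 ho2 (le_trans h (Finset.card_le_card ?_))
    intro p hp
    simp only [Finset.mem_inter] at hp ⊢
    exact ⟨hp.1.1, hp.2.1⟩
  rw [e]

theorem quartet_disj {d : Finset GolayPt} {Q : Finset (Finset GolayPt)} (hQ : Q ∈ quartets d)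
    {t u : Finset GolayPt} (ht : t ∈ Q) (hu : u ∈ Q) (htu : t ≠ u) : Disjoint t u := by
  have h1 := (hQ.2.2 t ht u hu htu).1
  have h2 := (hQ.2.1 t ht).1
  have h3 := (hQ.2.1 u hu).1
  have h4 := Finset.card_union_add_card_inter t u
  rw [h1, h2, h3] at h4
  exact Finset.disjoint_iff_inter_eq_empty.mpr (Finset.card_eq_zero.mp (by omega))

theorem triple_eq_aux {d t v v' : Finset GolayPt} (h1 : t ∪ v ∈ hexadsOn d) (h2 : t ∪ v' ∈ hexadsOn d)
    (ht : t.card = 3) (hv : v.card = 3) (hv' : v'.card = 3) (d1 : Disjoint t v) (d2 : Disjoint t v')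
    (hi : 2 ≤ (v ∩ v').card) : v = v' := by
  have hsub : t ∪ (v ∩ v') ⊆ (t ∪ v) ∩ (t ∪ v') := by
    intro p hp
    simp only [Finset.mem_union, Finset.mem_inter] at hp ⊢
    tauto
  have hc : (t ∪ (v ∩ v')).card = t.card + (v ∩ v').card :=
    Finset.card_union_of_disjoint (Finset.disjoint_of_subset_right Finset.inter_subset_left d1)
  have e := hexad_eq_of_five h1 h2 (by
    have := Finset.card_le_card hsub
    omega)
  ext p
  constructor
  · intro hp
    have h3 : p ∈ t ∪ v' := e ▸ Finset.mem_union_right t hp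
    rcases Finset.mem_union.mp h3 with h4 | h4
    · exact absurd hp (Finset.disjoint_left.mp d1 h4)
    · exact h4
  · intro hp
    have h3 : p ∈ t ∪ v := e ▸ Finset.mem_union_right t hp
    rcases Finset.mem_union.mp h3 with h4 | h4
    · exact absurd hp (Finset.disjoint_left.mp d2 h4)
    · exact h4

/-- Two quartets sharing two triples agree. -/
theorem quartet_sub {d : Finset GolayPt} (hd : d.card = 12) {Q Q' : Finset (Finset GolayPt)}
    (hQ : Q ∈ quartets d) (hQ' : Q' ∈ quartets d) {t u : Finset GolayPt} (ht : t ∈ Q) (hu : u ∈ Q)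
    (ht' : t ∈ Q') (hu' : u ∈ Q') (htu : t ≠ u) : Q ⊆ Q' := by
  intro v hv
  by_cases hvt : v = t
  · rwa [hvt]
  by_cases hvu : v = u
  · rwa [hvu]
  have hc2 : ((Q'.erase t).erase u).card = 2 := by
    rw [Finset.card_erase_of_mem (Finset.mem_erase.mpr ⟨htu.symm, hu'⟩),
      Finset.card_erase_of_mem ht', hQ'.1]
  obtain ⟨v', w', hne, he⟩ := Finset.card_eq_two.mp hc2
  have hv'm : v' ∈ (Q'.erase t).erase u := by rw [he]; simp
  have hw'm : w' ∈ (Q'.erase t).erase u := by rw [he]; simp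
  simp only [Finset.mem_erase] at hv'm hw'm
  obtain ⟨hv'u, hv't, hv'Q⟩ := hv'm
  obtain ⟨hw'u, hw't, hw'Q⟩ := hw'm
  -- disjointness
  have dtu := quartet_disj hQ ht hu htu
  have dtv := quartet_disj hQ ht hv (Ne.symm hvt)
  have duv := quartet_disj hQ hu hv (Ne.symm hvu)
  have dtv' := quartet_disj hQ' ht' hv'Q (Ne.symm hv't)
  have dtw' := quartet_disj hQ' ht' hw'Q (Ne.symm hw't)
  have duv' := quartet_disj hQ' hu' hv'Q (Ne.symm hv'u)
  have duw' := quartet_disj hQ' hu' hw'Q (Ne.symm hw'u)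
  have dv'w' := quartet_disj hQ' hv'Q hw'Q hne
  have ct := (hQ.2.1 t ht).1
  have cu := (hQ.2.1 u hu).1
  have cv := (hQ.2.1 v hv).1
  have cv' := (hQ'.2.1 v' hv'Q).1
  have cw' := (hQ'.2.1 w' hw'Q).1
  -- the four triples cover `d`
  have hcover : t ∪ u ∪ v' ∪ w' = d := by
    refine Finset.eq_of_subset_of_card_le ?_ ?_
    · intro p hp
      simp only [Finset.mem_union] at hp
      rcases hp with ((hp | hp) | hp) | hp
      · exact (hQ'.2.1 t ht').2 hp
      · exact (hQ'.2.1 u hu').2 hp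
      · exact (hQ'.2.1 v' hv'Q).2 hp
      · exact (hQ'.2.1 w' hw'Q).2 hp
    · rw [hd, Finset.card_union_of_disjoint, Finset.card_union_of_disjoint,
        Finset.card_union_of_disjoint dtu, ct, cu, cv', cw']
      · exact Finset.disjoint_union_left.mpr ⟨dtv', duv'⟩
      · exact Finset.disjoint_union_left.mpr ⟨Finset.disjoint_union_left.mpr ⟨dtw', duw'⟩, dv'w'⟩
  have hsubv : v ⊆ v' ∪ w' := by
    intro p hp
    have hpd : p ∈ d := (hQ.2.1 v hv).2 hp
    rw [← hcover] at hpd
    simp only [Finset.mem_union] at hpd ⊢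
    rcases hpd with ((h1 | h1) | h1) | h1
    · exact absurd hp (Finset.disjoint_left.mp dtv h1)
    · exact absurd hp (Finset.disjoint_left.mp duv h1)
    · exact Or.inl h1
    · exact Or.inr h1
  have hsum : v.card ≤ (v ∩ v').card + (v ∩ w').card := by
    have : v = (v ∩ v') ∪ (v ∩ w') := by
      rw [← Finset.inter_union_distrib_left]
      exact (Finset.inter_eq_left.mpr hsubv).symm
    conv_lhs => rw [this]
    exact Finset.card_union_le _ _
  have htvh := hQ.2.2 t ht v hv (Ne.symm hvt)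
  by_cases h2 : 2 ≤ (v ∩ v').card
  · have e := triple_eq_aux htvh (hQ'.2.2 t ht' v' hv'Q (Ne.symm hv't)) ct cv cv' dtv dtv' h2
    rwa [e]
  · have h3 : 2 ≤ (v ∩ w').card := by omega
    have e := triple_eq_aux htvh (hQ'.2.2 t ht' w' hw'Q (Ne.symm hw't)) ct cv cw' dtv dtw' h3
    rwa [e]

theorem quartet_eq {d : Finset GolayPt} (hd : d.card = 12) {Q Q' : Finset (Finset GolayPt)}
    (hQ : Q ∈ quartets d) (hQ' : Q' ∈ quartets d) {t u : Finset GolayPt} (ht : t ∈ Q) (hu : u ∈ Q)
    (ht' : t ∈ Q') (hu' : u ∈ Q') (htu : t ≠ u) : Q = Q' :=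
  Finset.eq_of_subset_of_card_le (quartet_sub hd hQ hQ' ht hu ht' hu' htu) (by rw [hQ.1, hQ'.1])

/-! ### Codes at the base -/

/-- The fields of a quartet code. -/
def quF (c : ℕ) : List ℕ := [fld c 0, fld c 1, fld c 2, fld c 3]

/-- The quartet of a code. -/
noncomputable def qu (c : ℕ) : Finset (Finset GolayPt) := ((quF c).map fs).toFinset

theorem mem_qu {c : ℕ} {t : Finset GolayPt} : t ∈ qu c ↔ ∃ m ∈ quF c, fs m = t := by
  simp [qu]

theorem quF_lt {c m : ℕ} (h : m ∈ quF c) : m < 2 ^ 24 := by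
  simp only [quF, List.mem_cons, List.not_mem_nil, or_false] at h
  rcases h with rfl | rfl | rfl | rfl <;> exact fld_lt _ _

/-- The triples of the base dodecad. -/
def TL : List ℕ := (ksub 24 3).filter (fun a => Nat.beq (Nat.land a D0) a)

theorem mem_TL {a : ℕ} : a ∈ TL ↔ a ∈ ksub 24 3 ∧ Nat.land a D0 = a := by
  simp [TL, List.mem_filter]

theorem exists_TL {t : Finset GolayPt} (h3 : t.card = 3) (hs : t ⊆ fs D0) : ∃ a ∈ TL, fs a = t := by
  obtain ⟨a, ha, rfl⟩ := (mem_card_iff_ksub t).mp h3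
  refine ⟨a, mem_TL.mpr ⟨ha, ?_⟩, rfl⟩
  have ha' := (mem_ksub24.mp ha).1
  refine fs_injOn (lt_of_le_of_lt Nat.and_le_left ha') ha' ?_
  show fs (a &&& D0) = fs a
  rw [fs_and]
  exact Finset.inter_eq_left.mpr hs

theorem fs_TL {a : ℕ} (h : a ∈ TL) : (fs a).card = 3 ∧ fs a ⊆ fs D0 := by
  obtain ⟨h1, h2⟩ := mem_TL.mp h
  obtain ⟨h3, h4⟩ := mem_ksub24.mp h1
  refine ⟨by rw [card_fs h3, h4], ?_⟩
  have : fs a ∩ fs D0 = fs a := by
    rw [← fs_and]
    exact congrArg fs h2
  exact Finset.inter_eq_left.mp this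

theorem hexL_chk1 : allL (fun n => (!Nat.beq (popc (Nat.land n D0)) 6) || memL (Nat.land n D0) hexL) octadL = true := by
  decide +kernel

theorem hexL_chk2 : allL (fun m => Nat.beq (popc m) 6 && octadL.any (fun n => Nat.beq (Nat.land n D0) m)) hexL = true := by
  decide +kernel

theorem mem_hexL_iff {m : ℕ} (hm : m < 2 ^ 24) : fs m ∈ hexadsOn (fs D0) ↔ m ∈ hexL := by
  constructor
  · rintro ⟨h1, o, ho, he⟩
    obtain ⟨n, hn, rfl⟩ := (mem_octads_iff_list _).mp ho
    rw [← fs_and] at he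
    have e : n &&& D0 = m := fs_injOn (lt_of_le_of_lt Nat.and_le_right D0_lt) hm he
    rw [card_fs hm] at h1
    have h2 := allL_spec hexL_chk1 n hn
    have e' : Nat.land n D0 = m := e
    rw [e', h1] at h2
    have : memL m hexL = true := by simpa using h2
    exact (memL_iff _ _).mp this
  · intro h
    have h2 := allL_spec hexL_chk2 m h
    simp only [Bool.and_eq_true, List.any_eq_true] at h2
    obtain ⟨h3, n, hn, h4⟩ := h2
    refine ⟨by rw [card_fs hm]; exact Nat.eq_of_beq_eq_true h3, fs n, fs_mem_octads hn, ?_⟩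
    rw [← fs_and]
    exact congrArg fs (Nat.eq_of_beq_eq_true h4)

theorem fs_lor (a b : ℕ) : fs (a ||| b) = fs a ∪ fs b := by
  ext p
  simp [mem_fs, Nat.testBit_or]

/-- Validity of a code. -/
def qOK (c : ℕ) : Bool :=
  allL (fun a => memL a TL) (quF c) &&
    pairsL (fun x y => (!Nat.beq x y) && memL (Nat.lor x y) hexL) (quF c)

theorem quartL_OK : allL qOK quartL = true := by decide +kernel

theorem qOK_spec {c : ℕ} (hc : c ∈ quartL) :
    (∀ a ∈ quF c, a ∈ TL) ∧ (quF c).Pairwise (fun x y => x ≠ y ∧ Nat.lor x y ∈ hexL) := by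
  have h := allL_spec quartL_OK c hc
  unfold qOK at h
  rw [Bool.and_eq_true] at h
  refine ⟨fun a ha => (memL_iff _ _).mp (allL_spec h.1 a ha), ?_⟩
  refine (pairsL_spec h.2).imp ?_
  intro x y hxy
  rw [Bool.and_eq_true] at hxy
  refine ⟨fun e => ?_, (memL_iff _ _).mp hxy.2⟩
  have h1 := hxy.1
  rw [e] at h1
  simp at h1

theorem quF_map_nodup {c : ℕ} (hc : c ∈ quartL) : ((quF c).map fs).Nodup := by
  refine List.Nodup.map_on ?_ (((qOK_spec hc).2).imp (fun h => h.1))
  intro a ha b hb h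
  exact fs_injOn (quF_lt ha) (quF_lt hb) h

theorem card_qu {c : ℕ} (hc : c ∈ quartL) : (qu c).card = 4 := by
  rw [qu, List.toFinset_card_of_nodup (quF_map_nodup hc)]
  rfl

theorem qu_mem_quartets {c : ℕ} (hc : c ∈ quartL) : qu c ∈ quartets (fs D0) := by
  obtain ⟨h1, h2⟩ := qOK_spec hc
  refine ⟨card_qu hc, ?_, ?_⟩
  · intro t ht
    obtain ⟨a, ha, rfl⟩ := mem_qu.mp ht
    exact fs_TL (h1 a ha)
  · intro t ht u hu htu
    obtain ⟨a, ha, rfl⟩ := mem_qu.mp ht
    obtain ⟨b, hb, rfl⟩ := mem_qu.mp hu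
    have hab : a ≠ b := fun e => htu (by rw [e])
    have h3 := pairwise_forall (R := fun x y => x ≠ y ∧ Nat.lor x y ∈ hexL)
      (by
        intro p q hpq
        refine ⟨hpq.1.symm, ?_⟩
        have : Nat.lor q p = Nat.lor p q := Nat.or_comm q p
        rw [this]
        exact hpq.2) h2 ha hb hab
    rw [← fs_lor]
    exact (mem_hexL_iff (Nat.or_lt_two_pow (quF_lt ha) (quF_lt hb))).mpr h3.2

/-- Every disjoint pair of triples with hexad union lies in a listed quartet. -/
def pairChk : Bool :=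
  allL (fun h => allL (fun a => (!Nat.beq (Nat.land a h) a) ||
    quartL.any (fun q => memL a (quF q) && memL (Nat.xor h a) (quF q))) TL) hexL

theorem pairChk_true : pairChk = true := by decide +kernel

theorem exists_qu_pair {t u : Finset GolayPt} (ht : t.card = 3) (hu : u.card = 3)
    (hts : t ⊆ fs D0) (hus : u ⊆ fs D0) (htu : Disjoint t u) (hh : t ∪ u ∈ hexadsOn (fs D0)) :
    ∃ c ∈ quartL, t ∈ qu c ∧ u ∈ qu c := by
  obtain ⟨a, ha, rfl⟩ := exists_TL ht hts
  obtain ⟨b, hb, rfl⟩ := exists_TL hu hus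
  have halt := (mem_ksub24.mp (mem_TL.mp ha).1).1
  have hblt := (mem_ksub24.mp (mem_TL.mp hb).1).1
  rw [← fs_lor] at hh
  have hh' := (mem_hexL_iff (Nat.or_lt_two_pow halt hblt)).mp hh
  have hab : a &&& b = 0 := by
    refine fs_injOn (lt_of_le_of_lt Nat.and_le_left halt) (by norm_num) ?_
    rw [fs_and, Finset.disjoint_iff_inter_eq_empty.mp htu]
    ext p
    simp [mem_fs]
  have hab' : ∀ i, a.testBit i = true → b.testBit i = false := by
    intro i hi
    have := congrArg (fun x => Nat.testBit x i) hab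
    simp only [Nat.testBit_and, Nat.zero_testBit, hi, Bool.true_and] at this
    exact this
  have h1 : Nat.land a (a ||| b) = a := by
    apply Nat.eq_of_testBit_eq
    intro i
    show (a &&& (a ||| b)).testBit i = _
    simp only [Nat.testBit_and, Nat.testBit_or]
    cases a.testBit i <;> simp
  have h2 : Nat.xor (a ||| b) a = b := by
    apply Nat.eq_of_testBit_eq
    intro i
    show ((a ||| b) ^^^ a).testBit i = _
    simp only [Nat.testBit_xor, Nat.testBit_or]
    by_cases hi : a.testBit i = true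
    · rw [hi, hab' i hi]
      rfl
    · have : a.testBit i = false := by simpa using hi
      rw [this]
      cases b.testBit i <;> rfl
  have h3 := allL_spec (allL_spec pairChk_true _ hh') a ha
  rw [h1, Nat.beq_refl] at h3
  simp only [Bool.not_true, Bool.false_or, List.any_eq_true, Bool.and_eq_true] at h3
  obtain ⟨q, hq, h4, h5⟩ := h3
  rw [h2] at h5
  exact ⟨q, hq, mem_qu.mpr ⟨a, (memL_iff _ _).mp h4, rfl⟩, mem_qu.mpr ⟨b, (memL_iff _ _).mp h5, rfl⟩⟩

theorem card_D0 : (fs D0).card = 12 := by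
  rw [card_fs D0_lt]
  decide +kernel

/-- The quartets of the base dodecad are the listed ones. -/
theorem mem_quartets_iff (Q : Finset (Finset GolayPt)) : Q ∈ quartets (fs D0) ↔ ∃ c ∈ quartL, qu c = Q := by
  constructor
  · intro hQ
    have h1 : 1 < Q.card := by rw [hQ.1]; norm_num
    obtain ⟨t, ht, u, hu, htu⟩ := Finset.one_lt_card.mp h1
    obtain ⟨c, hc, h3, h4⟩ := exists_qu_pair (hQ.2.1 t ht).1 (hQ.2.1 u hu).1 (hQ.2.1 t ht).2 (hQ.2.1 u hu).2
      (quartet_disj hQ ht hu htu) (hQ.2.2 t ht u hu htu)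
    exact ⟨c, hc, quartet_eq card_D0 (qu_mem_quartets hc) hQ h3 h4 ht hu htu⟩
  · rintro ⟨c, hc, rfl⟩
    exact qu_mem_quartets hc

theorem quartL_sep : allL (fun m => allL (fun n => Nat.beq m n ||
    !(memL (fld m 0) (quF n) && memL (fld m 1) (quF n))) quartL) quartL = true := by
  decide +kernel

theorem qu_inj : ∀ m ∈ quartL, ∀ n ∈ quartL, qu m = qu n → m = n := by
  intro m hm n hn h
  have h1 := allL_spec (allL_spec quartL_sep m hm) n hn
  have key : ∀ a ∈ quF m, memL a (quF n) = true := by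
    intro a ha
    have : fs a ∈ qu n := by rw [← h]; exact mem_qu.mpr ⟨a, ha, rfl⟩
    obtain ⟨b, hb, hab⟩ := mem_qu.mp this
    rw [← fs_injOn (quF_lt hb) (quF_lt ha) hab]
    exact (memL_iff _ _).mpr hb
  have h0 := key (fld m 0) (by simp [quF])
  have h2 := key (fld m 1) (by simp [quF])
  rw [h0, h2] at h1
  simp only [Bool.and_self, Bool.not_true, Bool.or_false] at h1
  exact Nat.eq_of_beq_eq_true h1

theorem quartL_nodup : quartL.Nodup := by decide +kernel

/-- The action on codes. -/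
def qAct (π c d : ℕ) : Bool := allL (fun a => memL (am π a) (quF d)) (quF c)

theorem qAct_spec {π c d : ℕ} (hπ : isM24 π = true) (hc : c ∈ quartL) (hd : d ∈ quartL)
    (h : qAct π c d = true) : P π • qu c = qu d := by
  refine Finset.eq_of_subset_of_card_le ?_ (by rw [Finset.card_smul_finset, card_qu hc, card_qu hd])
  intro t ht
  obtain ⟨t0, ht0, rfl⟩ := Finset.mem_smul_finset.mp ht
  obtain ⟨a, ha, rfl⟩ := mem_qu.mp ht0
  rw [← fs_am (isM24_permOK hπ)]
  exact mem_qu.mpr ⟨_, (memL_iff _ _).mp (allL_spec h a ha), rfl⟩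

/-- The base quartet. -/
def q0 : ℕ := quartL.getD 0 0

theorem q0_mem : q0 ∈ quartL := by decide +kernel

def testDQ0 (π : ℕ) : Bool := Nat.beq (am π D0) D0

theorem zipQ : zipOK (fun m π => isM24 π && (testDQ0 π && qAct π q0 m)) quartL tblQ = true := by
  decide +kernel

/-- The stabiliser of the base dodecad is transitive on its quartets. -/
theorem exists_smul_q0 {c : ℕ} (hc : c ∈ quartL) :
    ∃ g ∈ M24 ⊓ MulAction.stabilizer (Equiv.Perm GolayPt) (fs D0), g • qu q0 = qu c :=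
  exists_smul_of_zip (H := M24 ⊓ MulAction.stabilizer (Equiv.Perm GolayPt) (fs D0)) (test := testDQ0)
    (R := fun _ => qu q0) (dec := qu) (key := id) (act := fun π m => qAct π q0 m) (L := quartL) (T := tblQ)
    (fun π h1 h2 => ⟨P_mem_M24 h1, P_smul_fs h1 h2⟩)
    (fun π m h1 hm h2 => qAct_spec h1 q0_mem hm h2) zipQ hc

/-- The general statement: `quartets` from the base. -/
theorem ncard_quartets_base : (quartets (fs D0)).ncard = 220 := by
  have h := ncard_of_list (Q := fun _ => True) (test := fun _ => true) qu quartL_nodup qu_inj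
    mem_quartets_iff (by simp)
  simp only [and_true, Set.ofPred_mem_eq] at h
  rw [h]
  decide +kernel

theorem quartets_smul {h : Equiv.Perm GolayPt} (hh : h ∈ M24) (x : Finset GolayPt) :
    quartets (h • x) = (fun y => h • y) '' quartets x := by
  ext Q
  constructor
  · intro hQ
    refine ⟨h⁻¹ • Q, ?_, smul_inv_smul _ _⟩
    have := smul_mem_quartets (M24.inv_mem hh) hQ
    rwa [inv_smul_smul] at this
  · rintro ⟨y, hy, rfl⟩
    exact smul_mem_quartets hh hy

theorem ncard_quartets {d : Finset GolayPt} (hd : d ∈ dodecads) : (quartets d).ncard = 220 := by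
  obtain ⟨h, hh, rfl⟩ := exists_smul_D0 hd
  rw [quartets_smul hh, Set.ncard_image_of_injective _ (MulAction.injective h), ncard_quartets_base]

/-- Any quartet of any dodecad is a translate of the base pair. -/
theorem exists_smul_pair {d : Finset GolayPt} (hd : d ∈ dodecads) {Q : Finset (Finset GolayPt)}
    (hQ : Q ∈ quartets d) : ∃ h ∈ M24, h • fs D0 = d ∧ h • qu q0 = Q := by
  obtain ⟨h, hh, rfl⟩ := exists_smul_D0 hd
  have h1 := (mem_quartets_iff_smul hh (fs D0) (h⁻¹ • Q)).mpr (by rwa [smul_inv_smul])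
  obtain ⟨c, hc, hce⟩ := (mem_quartets_iff _).mp h1
  obtain ⟨g, hg, hg2⟩ := exists_smul_q0 hc
  refine ⟨h * g, M24.mul_mem hh hg.1, ?_, ?_⟩
  · have hg1 : g • fs D0 = fs D0 := hg.2
    rw [mul_smul, hg1]
  · rw [mul_smul, hg2, hce, smul_inv_smul]

end Cfsg.Agent.H07.Orb
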