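import Mathlib
import Cfsg.Agent.Lib.H07.TblSR

set_option autoImplicit false
set_option maxRecDepth 100000

namespace Cfsg.Agent.H07.Orb

open Cfsg Cfsg.Agent.H27.Golay
open scoped Pointwise

theorem sum_smul_finset' {α : Type*} [DecidableEq α] [MulAction (Equiv.Perm GolayPt) α] (g : Equiv.Perm GolayPt) (s : Finset α) (f : α → ℕ) :
    ∑ u ∈ g • s, f u = ∑ u ∈ s, f (g • u) := by
  rw [Finset.smul_finset_def, Finset.sum_image]
  intro a _ b _ h
  exact MulAction.injective g h

def S0repsL : List ℕ := [repsS0.getD 96 0, repsS0.getD 48 0, repsS0.getD 36 0, repsS0.getD 32 0]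
def R0repsL : List ℕ := [repsR0.getD 192 0, repsR0.getD 128 0, repsR0.getD 96 0, repsR0.getD 80 0, repsR0.getD 72 0]

/-! ### Sextets -/

theorem S0c_mem : S0c ∈ sextetL := by decide +kernel

/-- Invariant of an object relative to the base. -/
def keyS (c : ℕ) : ℕ :=
  ((sxF S0c).map fun a => ((sxF c).map fun b => popc (Nat.land a b) ^ 2).sum).sum

theorem nodupS : allL (fun c => decide (sxF c).Nodup) sextetL = true := by decide +kernel

theorem sum_S {c : ℕ} (hc : c ∈ sextetL) (f : Finset GolayPt → ℕ) :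
    ∑ u ∈ sx c, f u = ((sxF c).map fun a => f (fs a)).sum := by
  have h1 : ((sxF c).map fs).Nodup := by
    refine List.Nodup.map_on ?_ (of_decide_eq_true (allL_spec nodupS c hc))
    intro a ha b hb h
    exact fs_injOn (sxF_lt ha) (sxF_lt hb) h
  have h2 := List.sum_toFinset f h1
  rw [List.map_map] at h2
  exact h2

/-- The invariant at the level of sets. -/
noncomputable def labS (x : Finset (Finset GolayPt)) : ℕ :=
  ∑ t ∈ sx S0c, ∑ u ∈ x, (t ∩ u).card ^ 2

theorem labS_aux {c0 c : ℕ} (hc0 : c0 ∈ sextetL) (hc : c ∈ sextetL) :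
    ∑ t ∈ sx c0, ∑ u ∈ sx c, (t ∩ u).card ^ 2 =
      ((sxF c0).map fun a => ((sxF c).map fun b => popc (Nat.land a b) ^ 2).sum).sum := by
  rw [sum_S hc0]
  congr 1
  refine List.map_congr_left fun a ha => ?_
  rw [sum_S hc]
  congr 1
  refine List.map_congr_left fun b _ => ?_
  congr 1
  exact card_fs_inter (sxF_lt ha)

theorem labS_dec {c : ℕ} (hc : c ∈ sextetL) : labS (sx c) = keyS c :=
  labS_aux S0c_mem hc

theorem labS_inv {g : Equiv.Perm GolayPt} (hg : g • sx S0c = sx S0c) (x : Finset (Finset GolayPt)) :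
    labS (g • x) = labS x := by
  unfold labS
  conv_lhs => rw [← hg]
  rw [sum_smul_finset']
  refine Finset.sum_congr rfl fun t _ => ?_
  rw [sum_smul_finset']
  refine Finset.sum_congr rfl fun u _ => ?_
  rw [card_smul_inter]

theorem mem_S_iff (S : Finset (Finset GolayPt)) : S ∈ sextets ↔ ∃ c ∈ sextetL, sx c = S := mem_sextets_iff_list S

theorem smul_S {g : Equiv.Perm GolayPt} (hg : g ∈ M24) {x : Finset (Finset GolayPt)} (hx : x ∈ sextets) :
    g • x ∈ sextets := smul_mem_sextets hg hx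

theorem zipS : zipOK (fun m π => isM24 π && ((fun _ => true) π && sxAct π S0c m)) sextetL tblS = true := by
  decide +kernel

theorem exists_smul_S {S : Finset (Finset GolayPt)} (hS : S ∈ sextets) : ∃ g ∈ M24, g • sx S0c = S := by
  obtain ⟨m, hm, rfl⟩ := (mem_S_iff S).mp hS
  exact exists_smul_of_zip (H := M24) (test := fun _ => true) (R := fun _ => sx S0c) (dec := sx) (key := id)
    (act := fun π m => sxAct π S0c m) (L := sextetL) (T := tblS)
    (fun π h1 _ => P_mem_M24 h1) (fun π m h1 hm h2 => (sxAct_spec h1 S0c_mem hm).mp h2) zipS hm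

def repS (k : ℕ) : ℕ := repsS0.getD k 0

def testS (π : ℕ) : Bool := sxAct π S0c S0c

theorem zipS0 : zipOK (fun m π => isM24 π && (testS π && sxAct π (repS (keyS m)) m)) sextetL tblS0 = true := by
  decide +kernel

theorem rep_memSS : allL (fun m => memL (repS (keyS m)) S0repsL) sextetL = true := by decide +kernel

theorem rep_labelsS : allL (fun c => memL c sextetL) S0repsL = true := by decide +kernel

theorem rep_memS {m : ℕ} (hm : m ∈ sextetL) : repS (keyS m) ∈ sextetL :=
  (memL_iff _ _).mp (allL_spec rep_labelsS _ ((memL_iff _ _).mp (allL_spec rep_memSS m hm)))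

theorem exists_stab_S {ma mb : ℕ} (hma : ma ∈ sextetL) (hmb : mb ∈ sextetL) (hk : keyS ma = keyS mb) :
    ∃ g ∈ M24, g • sx S0c = sx S0c ∧ g • sx ma = sx mb := by
  have key : ∀ {m : ℕ}, m ∈ sextetL → ∃ g ∈ M24 ⊓ MulAction.stabilizer (Equiv.Perm GolayPt) (sx S0c),
      g • sx (repS (keyS m)) = sx m := by
    intro m hm
    exact exists_smul_of_zip (H := M24 ⊓ MulAction.stabilizer (Equiv.Perm GolayPt) (sx S0c)) (test := testS)
      (R := fun k => sx (repS k)) (dec := sx) (key := keyS)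
      (act := fun π m => sxAct π (repS (keyS m)) m) (L := sextetL) (T := tblS0)
      (fun π h1 h2 => ⟨P_mem_M24 h1, (sxAct_spec h1 S0c_mem S0c_mem).mp h2⟩)
      (fun π m h1 hm h2 => (sxAct_spec h1 (rep_memS hm) hm).mp h2) zipS0 hm
  obtain ⟨g1, hg1, h1⟩ := key hma
  obtain ⟨g2, hg2, h2⟩ := key hmb
  have hg := (M24 ⊓ MulAction.stabilizer (Equiv.Perm GolayPt) (sx S0c)).mul_mem hg2
    ((M24 ⊓ MulAction.stabilizer (Equiv.Perm GolayPt) (sx S0c)).inv_mem hg1)
  refine ⟨g2 * g1⁻¹, hg.1, hg.2, ?_⟩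
  rw [← h1, ← h2, hk, mul_smul, inv_smul_smul]

/-- Orbits of the stabiliser of any object. -/
theorem orbit_S {h : Equiv.Perm GolayPt} (hh : h ∈ M24) {R : Finset (Finset GolayPt)} (hR : R ∈ sextets) :
    MulAction.orbit ↥(MulAction.stabilizer M24 (h • sx S0c)) (h • R) =
      (fun y => h • y) '' {x | x ∈ sextets ∧ labS x = labS R} := by
  refine orbit_stab_eq (sx S0c) sextets labS (fun g hg x hx => smul_S hg hx)
    (fun g _ hf x => labS_inv hf x) ?_ hh hR
  intro x hx y hy hl
  obtain ⟨a, ha, rfl⟩ := (mem_S_iff x).mp hx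
  obtain ⟨b, hb, rfl⟩ := (mem_S_iff y).mp hy
  rw [labS_dec ha, labS_dec hb] at hl
  exact exists_stab_S ha hb hl

/-- Sizes of the classes. -/
theorem ncard_class_S (k : ℕ) :
    {x | x ∈ sextets ∧ labS x = k}.ncard = countL (fun m => Nat.beq (keyS m) k) sextetL := by
  refine ncard_of_list sx sextetL_nodup sx_inj mem_S_iff (fun m hm => ?_)
  rw [beq_iff, labS_dec hm]

/-! ### Trios -/

theorem R0c_mem : R0c ∈ trioL := by decide +kernel

/-- Invariant of an object relative to the base. -/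
def keyT (c : ℕ) : ℕ :=
  ((trF R0c).map fun a => ((trF c).map fun b => popc (Nat.land a b) ^ 2).sum).sum

theorem nodupT : allL (fun c => decide (trF c).Nodup) trioL = true := by decide +kernel

theorem sum_T {c : ℕ} (hc : c ∈ trioL) (f : Finset GolayPt → ℕ) :
    ∑ u ∈ tr c, f u = ((trF c).map fun a => f (fs a)).sum := by
  have h1 : ((trF c).map fs).Nodup := by
    refine List.Nodup.map_on ?_ (of_decide_eq_true (allL_spec nodupT c hc))
    intro a ha b hb h
    exact fs_injOn (trF_lt ha) (trF_lt hb) h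
  have h2 := List.sum_toFinset f h1
  rw [List.map_map] at h2
  exact h2

/-- The invariant at the level of sets. -/
noncomputable def labT (x : Finset (Finset GolayPt)) : ℕ :=
  ∑ t ∈ tr R0c, ∑ u ∈ x, (t ∩ u).card ^ 2

theorem labT_aux {c0 c : ℕ} (hc0 : c0 ∈ trioL) (hc : c ∈ trioL) :
    ∑ t ∈ tr c0, ∑ u ∈ tr c, (t ∩ u).card ^ 2 =
      ((trF c0).map fun a => ((trF c).map fun b => popc (Nat.land a b) ^ 2).sum).sum := by
  rw [sum_T hc0]
  congr 1
  refine List.map_congr_left fun a ha => ?_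
  rw [sum_T hc]
  congr 1
  refine List.map_congr_left fun b _ => ?_
  congr 1
  exact card_fs_inter (trF_lt ha)

theorem labT_dec {c : ℕ} (hc : c ∈ trioL) : labT (tr c) = keyT c :=
  labT_aux R0c_mem hc

theorem labT_inv {g : Equiv.Perm GolayPt} (hg : g • tr R0c = tr R0c) (x : Finset (Finset GolayPt)) :
    labT (g • x) = labT x := by
  unfold labT
  conv_lhs => rw [← hg]
  rw [sum_smul_finset']
  refine Finset.sum_congr rfl fun t _ => ?_
  rw [sum_smul_finset']
  refine Finset.sum_congr rfl fun u _ => ?_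
  rw [card_smul_inter]

theorem mem_T_iff (S : Finset (Finset GolayPt)) : S ∈ trios ↔ ∃ c ∈ trioL, tr c = S := mem_trios_iff_list S

theorem smul_T {g : Equiv.Perm GolayPt} (hg : g ∈ M24) {x : Finset (Finset GolayPt)} (hx : x ∈ trios) :
    g • x ∈ trios := smul_mem_trios hg hx

theorem zipT : zipOK (fun m π => isM24 π && ((fun _ => true) π && trAct π R0c m)) trioL tblR = true := by
  decide +kernel

theorem exists_smul_T {S : Finset (Finset GolayPt)} (hS : S ∈ trios) : ∃ g ∈ M24, g • tr R0c = S := by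
  obtain ⟨m, hm, rfl⟩ := (mem_T_iff S).mp hS
  exact exists_smul_of_zip (H := M24) (test := fun _ => true) (R := fun _ => tr R0c) (dec := tr) (key := id)
    (act := fun π m => trAct π R0c m) (L := trioL) (T := tblR)
    (fun π h1 _ => P_mem_M24 h1) (fun π m h1 hm h2 => (trAct_spec h1 R0c_mem hm).mp h2) zipT hm

def repT (k : ℕ) : ℕ := repsR0.getD k 0

def testT (π : ℕ) : Bool := trAct π R0c R0c

theorem zipT0 : zipOK (fun m π => isM24 π && (testT π && trAct π (repT (keyT m)) m)) trioL tblR0 = true := by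
  decide +kernel

theorem rep_memTT : allL (fun m => memL (repT (keyT m)) R0repsL) trioL = true := by decide +kernel

theorem rep_labelsT : allL (fun c => memL c trioL) R0repsL = true := by decide +kernel

theorem rep_memT {m : ℕ} (hm : m ∈ trioL) : repT (keyT m) ∈ trioL :=
  (memL_iff _ _).mp (allL_spec rep_labelsT _ ((memL_iff _ _).mp (allL_spec rep_memTT m hm)))

theorem exists_stab_T {ma mb : ℕ} (hma : ma ∈ trioL) (hmb : mb ∈ trioL) (hk : keyT ma = keyT mb) :
    ∃ g ∈ M24, g • tr R0c = tr R0c ∧ g • tr ma = tr mb := by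
  have key : ∀ {m : ℕ}, m ∈ trioL → ∃ g ∈ M24 ⊓ MulAction.stabilizer (Equiv.Perm GolayPt) (tr R0c),
      g • tr (repT (keyT m)) = tr m := by
    intro m hm
    exact exists_smul_of_zip (H := M24 ⊓ MulAction.stabilizer (Equiv.Perm GolayPt) (tr R0c)) (test := testT)
      (R := fun k => tr (repT k)) (dec := tr) (key := keyT)
      (act := fun π m => trAct π (repT (keyT m)) m) (L := trioL) (T := tblR0)
      (fun π h1 h2 => ⟨P_mem_M24 h1, (trAct_spec h1 R0c_mem R0c_mem).mp h2⟩)
      (fun π m h1 hm h2 => (trAct_spec h1 (rep_memT hm) hm).mp h2) zipT0 hm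
  obtain ⟨g1, hg1, h1⟩ := key hma
  obtain ⟨g2, hg2, h2⟩ := key hmb
  have hg := (M24 ⊓ MulAction.stabilizer (Equiv.Perm GolayPt) (tr R0c)).mul_mem hg2
    ((M24 ⊓ MulAction.stabilizer (Equiv.Perm GolayPt) (tr R0c)).inv_mem hg1)
  refine ⟨g2 * g1⁻¹, hg.1, hg.2, ?_⟩
  rw [← h1, ← h2, hk, mul_smul, inv_smul_smul]

/-- Orbits of the stabiliser of any object. -/
theorem orbit_T {h : Equiv.Perm GolayPt} (hh : h ∈ M24) {R : Finset (Finset GolayPt)} (hR : R ∈ trios) :
    MulAction.orbit ↥(MulAction.stabilizer M24 (h • tr R0c)) (h • R) =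
      (fun y => h • y) '' {x | x ∈ trios ∧ labT x = labT R} := by
  refine orbit_stab_eq (tr R0c) trios labT (fun g hg x hx => smul_T hg hx)
    (fun g _ hf x => labT_inv hf x) ?_ hh hR
  intro x hx y hy hl
  obtain ⟨a, ha, rfl⟩ := (mem_T_iff x).mp hx
  obtain ⟨b, hb, rfl⟩ := (mem_T_iff y).mp hy
  rw [labT_dec ha, labT_dec hb] at hl
  exact exists_stab_T ha hb hl

/-- Sizes of the classes. -/
theorem ncard_class_T (k : ℕ) :
    {x | x ∈ trios ∧ labT x = k}.ncard = countL (fun m => Nat.beq (keyT m) k) trioL := by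
  refine ncard_of_list tr trioL_nodup tr_inj mem_T_iff (fun m hm => ?_)
  rw [beq_iff, labT_dec hm]

end Cfsg.Agent.H07.Orb
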