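import Mathlib
import Cfsg.Agent.Lib.H07.GolayQuart
import Cfsg.Agent.Lib.H07.GolaySR

/-!
# Orbits of a quartet stabiliser on the quartets
-/

set_option autoImplicit false
set_option maxRecDepth 100000

namespace Cfsg.Agent.H07.Orb

open Cfsg Cfsg.Agent.H27.Golay
open scoped Pointwise

/-- Orbits of the joint stabiliser of two objects. -/
theorem orbit_stab2_eq {γ α β : Type*} [MulAction (Equiv.Perm GolayPt) γ]
    [MulAction (Equiv.Perm GolayPt) α] [MulAction (Equiv.Perm GolayPt) β]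
    (S0 : α) (S1 : β) (A : Set γ) (lab : γ → ℕ) (hA : ∀ g ∈ M24, g • S0 = S0 → g • S1 = S1 → ∀ x ∈ A, g • x ∈ A)
    (hinv : ∀ g ∈ M24, g • S0 = S0 → g • S1 = S1 → ∀ x, lab (g • x) = lab x)
    (hS : ∀ x ∈ A, ∀ y ∈ A, lab x = lab y → ∃ g ∈ M24, g • S0 = S0 ∧ g • S1 = S1 ∧ g • x = y)
    {h : Equiv.Perm GolayPt} (hh : h ∈ M24) {R : γ} (hR : R ∈ A) :
    MulAction.orbit ↥(MulAction.stabilizer M24 (h • S0) ⊓ MulAction.stabilizer M24 (h • S1)) (h • R) =
      (fun y => h • y) '' {x | x ∈ A ∧ lab x = lab R} := by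
  ext z
  constructor
  · rintro ⟨⟨⟨g, hgM⟩, hgS, hgS1⟩, rfl⟩
    have hgS' : g • h • S0 = h • S0 := hgS
    have hgS1' : g • h • S1 = h • S1 := hgS1
    have hg' : h⁻¹ * g * h ∈ M24 := M24.mul_mem (M24.mul_mem (M24.inv_mem hh) hgM) hh
    have hfix : (h⁻¹ * g * h) • S0 = S0 := by
      rw [mul_smul, mul_smul, hgS', inv_smul_smul]
    have hfix1 : (h⁻¹ * g * h) • S1 = S1 := by
      rw [mul_smul, mul_smul, hgS1', inv_smul_smul]
    refine ⟨(h⁻¹ * g * h) • R, ⟨hA _ hg' hfix hfix1 _ hR, hinv _ hg' hfix hfix1 R⟩, ?_⟩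
    show h • (h⁻¹ * g * h) • R = g • h • R
    rw [mul_smul, mul_smul, smul_inv_smul]
  · rintro ⟨y, ⟨hy, hl⟩, rfl⟩
    obtain ⟨g0, hg0, h1, h1', h2⟩ := hS R hR y hy hl.symm
    refine ⟨⟨⟨h * g0 * h⁻¹, M24.mul_mem (M24.mul_mem hh hg0) (M24.inv_mem hh)⟩, ?_, ?_⟩, ?_⟩
    · show (h * g0 * h⁻¹) • h • S0 = h • S0
      rw [mul_smul, mul_smul, inv_smul_smul, h1]
    · show (h * g0 * h⁻¹) • h • S1 = h • S1
      rw [mul_smul, mul_smul, inv_smul_smul, h1']
    · show (h * g0 * h⁻¹) • h • R = h • y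
      rw [mul_smul, mul_smul, inv_smul_smul, h2]

/-- The invariant of a code. -/
def keyQ (c : ℕ) : ℕ :=
  ((quF q0).map fun a => ((quF c).map fun b => popc (Nat.land a b) ^ 4).sum).sum

theorem sum_Q {c : ℕ} (hc : c ∈ quartL) (f : Finset GolayPt → ℕ) :
    ∑ u ∈ qu c, f u = ((quF c).map fun a => f (fs a)).sum := by
  have h2 := List.sum_toFinset f (quF_map_nodup hc)
  rw [List.map_map] at h2
  exact h2

noncomputable def labQ (x : Finset (Finset GolayPt)) : ℕ :=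
  ∑ t ∈ qu q0, ∑ u ∈ x, (t ∩ u).card ^ 4

theorem labQ_dec {c : ℕ} (hc : c ∈ quartL) : labQ (qu c) = keyQ c := by
  unfold labQ keyQ
  rw [sum_Q q0_mem]
  congr 1
  refine List.map_congr_left fun a ha => ?_
  rw [sum_Q hc]
  congr 1
  refine List.map_congr_left fun b _ => ?_
  congr 1
  exact card_fs_inter (quF_lt ha)

theorem labQ_inv {g : Equiv.Perm GolayPt} (hg : g • qu q0 = qu q0) (x : Finset (Finset GolayPt)) :
    labQ (g • x) = labQ x := by
  unfold labQ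
  conv_lhs => rw [← hg]
  rw [sum_smul_finset']
  refine Finset.sum_congr rfl fun t _ => ?_
  rw [sum_smul_finset']
  refine Finset.sum_congr rfl fun u _ => ?_
  rw [card_smul_inter]

def repQ (k : ℕ) : ℕ := repsQ0.getD k 0

def testQ (π : ℕ) : Bool := Nat.beq (am π D0) D0 && qAct π q0 q0

theorem zipQ0 : zipOK (fun m π => isM24 π && (testQ π && qAct π (repQ (keyQ m)) m)) quartL tblQ0 = true := by
  decide +kernel

theorem rep_memQ : allL (fun m => memL (repQ (keyQ m)) quartL) quartL = true := by decide +kernel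

theorem exists_stab_Q {ma mb : ℕ} (hma : ma ∈ quartL) (hmb : mb ∈ quartL) (hk : keyQ ma = keyQ mb) :
    ∃ g ∈ M24, g • fs D0 = fs D0 ∧ g • qu q0 = qu q0 ∧ g • qu ma = qu mb := by
  let K : Subgroup (Equiv.Perm GolayPt) := M24 ⊓ MulAction.stabilizer (Equiv.Perm GolayPt) (fs D0) ⊓
    MulAction.stabilizer (Equiv.Perm GolayPt) (qu q0)
  have key : ∀ {m : ℕ}, m ∈ quartL → ∃ g ∈ K, g • qu (repQ (keyQ m)) = qu m := by
    intro m hm
    refine exists_smul_of_zip (H := K) (test := testQ)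
      (R := fun k => qu (repQ k)) (dec := qu) (key := keyQ)
      (act := fun π m => qAct π (repQ (keyQ m)) m) (L := quartL) (T := tblQ0) ?_ ?_ zipQ0 hm
    · intro π h1 h2
      rw [testQ, Bool.and_eq_true] at h2
      exact ⟨⟨P_mem_M24 h1, P_smul_fs h1 h2.1⟩, qAct_spec h1 q0_mem q0_mem h2.2⟩
    · intro π m h1 hm h2
      exact qAct_spec h1 ((memL_iff _ _).mp (allL_spec rep_memQ m hm)) hm h2
  obtain ⟨g1, hg1, h1⟩ := key hma
  obtain ⟨g2, hg2, h2⟩ := key hmb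
  have hg := K.mul_mem hg2 (K.inv_mem hg1)
  refine ⟨g2 * g1⁻¹, hg.1.1, hg.1.2, hg.2, ?_⟩
  rw [← h1, ← h2, hk, mul_smul, inv_smul_smul]

/-- Orbits of the stabiliser of any pair. -/
theorem orbit_Q {h : Equiv.Perm GolayPt} (hh : h ∈ M24) {R : Finset (Finset GolayPt)}
    (hR : R ∈ quartets (fs D0)) :
    MulAction.orbit ↥(MulAction.stabilizer M24 (h • fs D0) ⊓ MulAction.stabilizer M24 (h • qu q0)) (h • R) =
      (fun y => h • y) '' {x | x ∈ quartets (fs D0) ∧ labQ x = labQ R} := by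
  refine orbit_stab2_eq (fs D0) (qu q0) (quartets (fs D0)) labQ ?_ (fun g _ _ hf x => labQ_inv hf x) ?_ hh hR
  · intro g hg hf _ x hx
    have := smul_mem_quartets hg hx
    rwa [hf] at this
  · intro x hx y hy hl
    obtain ⟨a, ha, rfl⟩ := (mem_quartets_iff x).mp hx
    obtain ⟨b, hb, rfl⟩ := (mem_quartets_iff y).mp hy
    rw [labQ_dec ha, labQ_dec hb] at hl
    exact exists_stab_Q ha hb hl

theorem ncard_class_Q (k : ℕ) :
    {x | x ∈ quartets (fs D0) ∧ labQ x = k}.ncard = countL (fun m => Nat.beq (keyQ m) k) quartL := by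
  refine ncard_of_list qu quartL_nodup qu_inj mem_quartets_iff (fun m hm => ?_)
  rw [beq_iff, labQ_dec hm]

end Cfsg.Agent.H07.Orb
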