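import Mathlib
import Cfsg.Agent.Lib.H07.TblS1598

/-!
# The stabiliser of a quartet in the stabiliser of a dodecad
-/

set_option autoImplicit false
set_option maxRecDepth 100000

namespace Cfsg.Agent.H07.Orb

open Cfsg Cfsg.Agent.H27.Golay
open scoped Pointwise

variable {d : Finset GolayPt} {Q : Finset (Finset GolayPt)}

theorem quartets_trans (hd : d ∈ dodecads) (hQ : Q ∈ quartets d) {Q' : Finset (Finset GolayPt)} (hQ' : Q' ∈ quartets d) :
    ∃ g ∈ M24, g • d = d ∧ g • Q = Q' := by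
  obtain ⟨h, hh, rfl, rfl⟩ := exists_smul_pair hd hQ
  have h1 := (mem_quartets_iff_smul hh (fs D0) (h⁻¹ • Q')).mpr (by rwa [smul_inv_smul])
  obtain ⟨c, hc, hce⟩ := (mem_quartets_iff _).mp h1
  obtain ⟨g, hg, hg2⟩ := exists_smul_q0 hc
  have hg1 : g • fs D0 = fs D0 := hg.2
  refine ⟨h * g * h⁻¹, M24.mul_mem (M24.mul_mem hh hg.1) (M24.inv_mem hh), ?_, ?_⟩
  · rw [mul_smul, mul_smul, inv_smul_smul, hg1]
  · rw [mul_smul, mul_smul, inv_smul_smul, hg2, hce, smul_inv_smul]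

/-- The order of the stabiliser of a quartet. -/
theorem card_SQ (hd : d ∈ dodecads) (hQ : Q ∈ quartets d) :
    Nat.card ↥(MulAction.stabilizer M24 d ⊓ MulAction.stabilizer M24 Q) = 432 := by
  refine card_inf_eq (G := ↥M24) _ Q (quartets d) (a := 432) (b := 220) (by norm_num) (ncard_quartets hd)
    (by rw [card_S0 hd]) ?_ ?_
  · intro g hg
    have h1 : (g : Equiv.Perm GolayPt) • d = d := hg
    have h2 := smul_mem_quartets g.2 hQ
    rw [h1] at h2
    exact h2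
  · intro y hy
    obtain ⟨g, hg, h1, h2⟩ := quartets_trans hd hQ hy
    exact ⟨⟨g, hg⟩, h1, h2⟩

noncomputable abbrev KQ : Subgroup (Equiv.Perm GolayPt) :=
  M24 ⊓ MulAction.stabilizer (Equiv.Perm GolayPt) (fs D0) ⊓ MulAction.stabilizer (Equiv.Perm GolayPt) (qu q0)

/-- Conjugation to the base group. -/
noncomputable def KQ_equiv {h : Equiv.Perm GolayPt} (hh : h ∈ M24) :
    ↥(MulAction.stabilizer M24 (h • fs D0) ⊓ MulAction.stabilizer M24 (h • qu q0)) ≃* ↥KQ where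
  toFun z := ⟨h⁻¹ * ((z : ↥M24) : Equiv.Perm GolayPt) * h, by
    have h1 : ((z : ↥M24) : Equiv.Perm GolayPt) • h • fs D0 = h • fs D0 := z.2.1
    have h2 : ((z : ↥M24) : Equiv.Perm GolayPt) • h • qu q0 = h • qu q0 := z.2.2
    refine ⟨⟨M24.mul_mem (M24.mul_mem (M24.inv_mem hh) (z : ↥M24).2) hh, ?_⟩, ?_⟩
    · show (h⁻¹ * ((z : ↥M24) : Equiv.Perm GolayPt) * h) • fs D0 = fs D0
      rw [mul_smul, mul_smul, h1, inv_smul_smul]
    · show (h⁻¹ * ((z : ↥M24) : Equiv.Perm GolayPt) * h) • qu q0 = qu q0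
      rw [mul_smul, mul_smul, h2, inv_smul_smul]⟩
  invFun y := ⟨⟨h * (y : Equiv.Perm GolayPt) * h⁻¹, M24.mul_mem (M24.mul_mem hh y.2.1.1) (M24.inv_mem hh)⟩, by
    have h1 : (y : Equiv.Perm GolayPt) • fs D0 = fs D0 := y.2.1.2
    have h2 : (y : Equiv.Perm GolayPt) • qu q0 = qu q0 := y.2.2
    refine ⟨?_, ?_⟩
    · show (h * (y : Equiv.Perm GolayPt) * h⁻¹) • h • fs D0 = h • fs D0
      rw [mul_smul, mul_smul, inv_smul_smul, h1]
    · show (h * (y : Equiv.Perm GolayPt) * h⁻¹) • h • qu q0 = h • qu q0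
      rw [mul_smul, mul_smul, inv_smul_smul, h2]⟩
  left_inv z := by
    apply Subtype.ext
    apply Subtype.ext
    show h * (h⁻¹ * ((z : ↥M24) : Equiv.Perm GolayPt) * h) * h⁻¹ = _
    group
  right_inv y := by
    apply Subtype.ext
    show h⁻¹ * (h * (y : Equiv.Perm GolayPt) * h⁻¹) * h = _
    group
  map_mul' a b := by
    apply Subtype.ext
    show h⁻¹ * (((a : ↥M24) : Equiv.Perm GolayPt) * ((b : ↥M24) : Equiv.Perm GolayPt)) * h =
      (h⁻¹ * ((a : ↥M24) : Equiv.Perm GolayPt) * h) * (h⁻¹ * ((b : ↥M24) : Equiv.Perm GolayPt) * h)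
    group

theorem KQ_card : Nat.card ↥KQ = 432 := by
  have h1 : (1 : Equiv.Perm GolayPt) ∈ M24 := M24.one_mem
  have hd : (1 : Equiv.Perm GolayPt) • fs D0 ∈ dodecads := by
    rw [one_smul]
    exact fs_mem_dodecads D0_mem
  have hQ : (1 : Equiv.Perm GolayPt) • qu q0 ∈ quartets ((1 : Equiv.Perm GolayPt) • fs D0) := by
    rw [one_smul, one_smul]
    exact qu_mem_quartets q0_mem
  rw [← Nat.card_congr (KQ_equiv h1).toEquiv]
  exact card_SQ hd hQ

/-- Membership modulo equality of permutations. -/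
def memP (x : ℕ) (L : List ℕ) : Bool := L.any (fun y => pEq x y)

theorem KQL_ok : allL (fun π => isM24 π && testQ π) KQL = true := by decide +kernel
theorem KQL_sep : allL (fun u => allL (fun v => Nat.beq u v || !pEq u v) KQL) KQL = true := by decide +kernel
theorem KQL_nodup : KQL.Nodup := by decide +kernel
theorem KQL_len : KQL.length = 432 := by decide +kernel
theorem NQL_sub : allL (fun π => memL π KQL) NQL = true := by decide +kernel
theorem NQL_nodup : NQL.Nodup := by decide +kernel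
theorem NQL_len : NQL.length = 9 := by decide +kernel
theorem NQL_mul : allL (fun u => allL (fun v => memP (pcomp u v) NQL) NQL) NQL = true := by decide +kernel
theorem NQL_inv : allL (fun u => memP (pinv u) NQL) NQL = true := by decide +kernel
theorem NQL_one : memP idCode NQL = true := by decide +kernel
theorem NQL_normal : allL (fun c => allL (fun n => memP (pcomp (pcomp c n) (pinv c)) NQL) NQL) KQL = true := by
  decide +kernel

theorem KQL_good {π : ℕ} (h : π ∈ KQL) : isM24 π = true ∧ testQ π = true := by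
  have := allL_spec KQL_ok π h
  rwa [Bool.and_eq_true] at this

theorem KQL_perm {π : ℕ} (h : π ∈ KQL) : permOK π = true := isM24_permOK (KQL_good h).1

theorem KQL_mem {π : ℕ} (h : π ∈ KQL) : P π ∈ KQ := by
  obtain ⟨h1, h2⟩ := KQL_good h
  rw [testQ, Bool.and_eq_true] at h2
  exact ⟨⟨P_mem_M24 h1, P_smul_fs h1 h2.1⟩, qAct_spec h1 q0_mem q0_mem h2.2⟩

theorem P_inj_KQL {u v : ℕ} (hu : u ∈ KQL) (hv : v ∈ KQL) (h : P u = P v) : u = v := by
  have h1 := allL_spec (allL_spec KQL_sep u hu) v hv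
  rw [(pEq_iff (KQL_perm hu) (KQL_perm hv)).mpr h] at h1
  simp only [Bool.not_true, Bool.or_false] at h1
  exact Nat.eq_of_beq_eq_true h1

theorem NQL_KQL {π : ℕ} (h : π ∈ NQL) : π ∈ KQL := (memL_iff _ _).mp (allL_spec NQL_sub π h)

theorem memP_spec {x : ℕ} {L : List ℕ} (hx : permOK x = true) (hL : ∀ y ∈ L, permOK y = true)
    (h : memP x L = true) : ∃ y ∈ L, P y = P x := by
  simp only [memP, List.any_eq_true] at h
  obtain ⟨y, hy, e⟩ := h
  exact ⟨y, hy, ((pEq_iff hx (hL y hy)).mp e).symm⟩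

theorem KQ_elts {g : Equiv.Perm GolayPt} (hg : g ∈ KQ) : ∃ π ∈ KQL, P π = g := by
  classical
  have hsub : ((KQL.toFinset.image P : Finset (Equiv.Perm GolayPt)) : Set (Equiv.Perm GolayPt)) ⊆ (KQ : Set (Equiv.Perm GolayPt)) := by
    intro x hx
    obtain ⟨π, hπ, rfl⟩ := Finset.mem_image.mp (Finset.mem_coe.mp hx)
    exact KQL_mem (List.mem_toFinset.mp hπ)
  have hcard : (KQL.toFinset.image P).card = 432 := by
    rw [Finset.card_image_of_injOn, List.toFinset_card_of_nodup KQL_nodup, KQL_len]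
    intro a ha b hb h
    exact P_inj_KQL (List.mem_toFinset.mp ha) (List.mem_toFinset.mp hb) h
  have hK : (KQ : Set (Equiv.Perm GolayPt)).ncard = 432 := by
    rw [← KQ_card]
    rfl
  have e := Set.eq_of_subset_of_ncard_le hsub (by rw [Set.ncard_coe_finset, hcard, hK]) (Set.toFinite _)
  have hg' : g ∈ ((KQL.toFinset.image P : Finset (Equiv.Perm GolayPt)) : Set (Equiv.Perm GolayPt)) := by
    rw [e]
    exact hg
  obtain ⟨π, hπ, rfl⟩ := Finset.mem_image.mp (Finset.mem_coe.mp hg')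
  exact ⟨π, List.mem_toFinset.mp hπ, rfl⟩

/-- The normal subgroup of order 9. -/
noncomputable def NQ : Subgroup (Equiv.Perm GolayPt) where
  carrier := P '' {π | π ∈ NQL}
  mul_mem' := by
    rintro _ _ ⟨u, hu, rfl⟩ ⟨v, hv, rfl⟩
    have okU := KQL_perm (NQL_KQL hu)
    have okV := KQL_perm (NQL_KQL hv)
    obtain ⟨y, hy, e⟩ := memP_spec (permOK_pcomp okU okV) (fun y hy => KQL_perm (NQL_KQL hy))
      (allL_spec (allL_spec NQL_mul u hu) v hv)
    exact ⟨y, hy, by rw [e, P_pcomp okU okV]⟩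
  one_mem' := by
    obtain ⟨y, hy, e⟩ := memP_spec (isM24_permOK idCode_spec) (fun y hy => KQL_perm (NQL_KQL hy)) NQL_one
    exact ⟨y, hy, by rw [e, P_idCode]⟩
  inv_mem' := by
    rintro _ ⟨u, hu, rfl⟩
    have okU := KQL_perm (NQL_KQL hu)
    obtain ⟨y, hy, e⟩ := memP_spec (permOK_pinv okU) (fun y hy => KQL_perm (NQL_KQL hy)) (allL_spec NQL_inv u hu)
    exact ⟨y, hy, by rw [e, P_pinv okU]⟩

theorem mem_NQ {g : Equiv.Perm GolayPt} : g ∈ NQ ↔ ∃ π ∈ NQL, P π = g := Iff.rfl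

theorem NQ_le : NQ ≤ KQ := by
  rintro _ ⟨u, hu, rfl⟩
  exact KQL_mem (NQL_KQL hu)

theorem NQ_card : Nat.card ↥NQ = 9 := by
  classical
  have h1 : (NQ : Set (Equiv.Perm GolayPt)) = ((NQL.toFinset.image P : Finset (Equiv.Perm GolayPt)) : Set (Equiv.Perm GolayPt)) := by
    ext x
    simp only [Finset.coe_image, List.coe_toFinset]
    rfl
  have h2 : Nat.card ↥NQ = (NQ : Set (Equiv.Perm GolayPt)).ncard := rfl
  rw [h2, h1, Set.ncard_coe_finset, Finset.card_image_of_injOn, List.toFinset_card_of_nodup NQL_nodup, NQL_len]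
  intro a ha b hb h
  exact P_inj_KQL (NQL_KQL (List.mem_toFinset.mp ha)) (NQL_KQL (List.mem_toFinset.mp hb)) h

/-- The normal subgroup inside the group. -/
noncomputable def NK : Subgroup ↥KQ := NQ.subgroupOf KQ

instance NK_normal : NK.Normal := by
  constructor
  rintro ⟨n, hnK⟩ hn ⟨g, hg⟩
  have hn' : n ∈ NQ := hn
  show g * n * g⁻¹ ∈ NQ
  obtain ⟨u, hu, rfl⟩ := mem_NQ.mp hn'
  obtain ⟨c, hc, rfl⟩ := KQ_elts hg
  have okC := KQL_perm hc
  have okU := KQL_perm (NQL_KQL hu)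
  have okI := permOK_pinv okC
  obtain ⟨y, hy, e⟩ := memP_spec (permOK_pcomp (permOK_pcomp okC okU) okI) (fun y hy => KQL_perm (NQL_KQL hy))
    (allL_spec (allL_spec NQL_normal c hc) u hu)
  refine ⟨y, hy, ?_⟩
  rw [e, P_pcomp (permOK_pcomp okC okU) okI, P_pcomp okC okU, P_pinv okC]

theorem NK_card : Nat.card ↥NK = 9 := by
  rw [← NQ_card]
  exact Nat.card_congr (Subgroup.subgroupOfEquivOfLe NQ_le).toEquiv

/-! ### The complement -/

def TQ (u : ℕ) : ℕ := tblGLQ.getD u 0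

theorem tblQ_ok : allL (fun u => isM24 (TQ u) && testQ (TQ u)) GLc = true := by decide +kernel
theorem tblQ_mul : allL (fun u => allL (fun v => pEq (pcomp (TQ u) (TQ v)) (TQ (mc3 u v))) GLc) GLc = true := by decide +kernel
theorem tblQ_ker : allL (fun u => !memP (TQ u) NQL || Nat.beq u 28) GLc = true := by decide +kernel

theorem TQ_ok {u : ℕ} (hu : u ∈ GLc) : isM24 (TQ u) = true ∧ testQ (TQ u) = true := by
  have := allL_spec tblQ_ok u hu
  rwa [Bool.and_eq_true] at this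

theorem TQ_ok' {u : ℕ} (hu : u ∈ GLc) : permOK (TQ u) = true := isM24_permOK (TQ_ok hu).1

theorem TQ_mem {u : ℕ} (hu : u ∈ GLc) : P (TQ u) ∈ KQ := by
  obtain ⟨h1, h2⟩ := TQ_ok hu
  rw [testQ, Bool.and_eq_true] at h2
  exact ⟨⟨P_mem_M24 h1, P_smul_fs h1 h2.1⟩, qAct_spec h1 q0_mem q0_mem h2.2⟩

/-- The table as a homomorphism. -/
noncomputable def FQ : GL (Fin 2) (ZMod 3) →* ↥KQ :=
  MonoidHom.mk' (fun m => ⟨P (TQ (enc3 m)), TQ_mem (enc3_mem m)⟩) (by
    intro m n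
    have hm := enc3_mem m
    have hn := enc3_mem n
    have hmn := enc3_mem (m * n)
    have h := allL_spec (allL_spec tblQ_mul _ hm) _ hn
    rw [← enc3_mul] at h
    have h2 := (pEq_iff (permOK_pcomp (TQ_ok' hm) (TQ_ok' hn)) (TQ_ok' hmn)).mp h
    rw [P_pcomp (TQ_ok' hm) (TQ_ok' hn)] at h2
    exact Subtype.ext h2.symm)

theorem card_GL23 : Nat.card (GL (Fin 2) (ZMod 3)) = 48 := by
  have := Matrix.card_GL_field (𝔽 := ZMod 3) 2
  rw [this, ZMod.card]
  decide

theorem KQ_quot : Nonempty (↥KQ ⧸ NK ≃* GL (Fin 2) (ZMod 3)) := by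
  let ρ : GL (Fin 2) (ZMod 3) →* ↥KQ ⧸ NK := (QuotientGroup.mk' NK).comp FQ
  have hinj : Function.Injective ρ := by
    rw [injective_iff_map_eq_one]
    intro m hm
    have h1 : FQ m ∈ NK := (QuotientGroup.eq_one_iff _).mp hm
    have h2 : P (TQ (enc3 m)) ∈ NQ := h1
    obtain ⟨u, hu, e⟩ := mem_NQ.mp h2
    have hu2 := enc3_mem m
    have h3 := allL_spec tblQ_ker _ hu2
    have h4 : memP (TQ (enc3 m)) NQL = true := by
      simp only [memP, List.any_eq_true]
      exact ⟨u, hu, (pEq_iff (TQ_ok' hu2) (KQL_perm (NQL_KQL hu))).mpr e.symm⟩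
    rw [h4] at h3
    simp only [Bool.not_true, Bool.false_or] at h3
    have h5 : enc3 m = enc3 1 := (Nat.eq_of_beq_eq_true h3).trans (by decide +kernel)
    exact enc3_inj h5
  have hcard : Nat.card (↥KQ ⧸ NK) = 48 := by
    have h1 := Subgroup.card_eq_card_quotient_mul_card_subgroup NK
    rw [KQ_card, NK_card] at h1
    omega
  have hsurj : Function.Surjective ρ :=
    ((Nat.bijective_iff_injective_and_card ρ).mpr ⟨hinj, by rw [card_GL23, hcard]⟩).2
  exact ⟨(MulEquiv.ofBijective ρ ⟨hinj, hsurj⟩).symm⟩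

/-- Transport of a normal subgroup with given quotient. -/
theorem transport_quot {A B Γ : Type*} [Group A] [Group B] [Group Γ] (e : A ≃* B) (N : Subgroup B) [hN : N.Normal]
    {n : ℕ} (hc : Nat.card N = n) (hq : Nonempty (B ⧸ N ≃* Γ)) :
    ∃ (N' : Subgroup A) (_ : N'.Normal), Nat.card N' = n ∧ Nonempty (A ⧸ N' ≃* Γ) := by
  let N' : Subgroup A := N.comap e.toMonoidHom
  have hN' : N'.Normal := hN.comap _
  refine ⟨N', hN', ?_, ?_⟩
  · rw [← hc]
    refine Nat.card_congr ⟨fun x => ⟨e x.1, x.2⟩, fun y => ⟨e.symm y.1, by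
      show e (e.symm y.1) ∈ N
      rw [e.apply_symm_apply]
      exact y.2⟩, ?_, ?_⟩
    · intro x
      apply Subtype.ext
      exact e.symm_apply_apply _
    · intro y
      apply Subtype.ext
      exact e.apply_symm_apply _
  · obtain ⟨q⟩ := hq
    have hmap : N'.map e.toMonoidHom = N := by
      ext y
      constructor
      · rintro ⟨x, hx, rfl⟩
        exact hx
      · intro hy
        refine ⟨e.symm y, ?_, e.apply_symm_apply _⟩
        show e (e.symm y) ∈ N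
        rw [e.apply_symm_apply]
        exact hy
    exact ⟨(QuotientGroup.congr N' N e hmap).trans q⟩

/-! ### Transitivity on the dodecad -/

theorem zipTPQ : zipOK (fun i π => isM24 π && (testQ π && Nat.beq (pa π 1) i)) (ptsDx []) TPQ = true := by
  decide +kernel

theorem hKQ_test : ∀ π, isM24 π = true → testQ π = true → P π ∈ KQ := by
  intro π h1 h2
  rw [testQ, Bool.and_eq_true] at h2
  exact ⟨⟨P_mem_M24 h1, P_smul_fs h1 h2.1⟩, qAct_spec h1 q0_mem q0_mem h2.2⟩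

theorem exists_trans_d {h : Equiv.Perm GolayPt} {y : GolayPt} (hy : y ∈ h • fs D0) :
    ∃ g ∈ KQ, (h * g) (pt 1) = y :=
  flag_step hKQ_test (by norm_num) zipTPQ (mem_ptsDx (l := []) hy (by simp))

theorem trans_on_d {h : Equiv.Perm GolayPt} (hh : h ∈ M24) {p q : GolayPt} (hp : p ∈ h • fs D0) (hq : q ∈ h • fs D0) :
    ∃ g ∈ (MulAction.stabilizer M24 (h • fs D0) ⊓ MulAction.stabilizer M24 (h • qu q0)),
      ((g : ↥M24) : Equiv.Perm GolayPt) p = q := by
  obtain ⟨g1, hg1, e1⟩ := exists_trans_d hp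
  obtain ⟨g2, hg2, e2⟩ := exists_trans_d hq
  have hy : g2 * g1⁻¹ ∈ KQ := KQ.mul_mem hg2 (KQ.inv_mem hg1)
  have hM : h * (g2 * g1⁻¹) * h⁻¹ ∈ M24 := M24.mul_mem (M24.mul_mem hh hy.1.1) (M24.inv_mem hh)
  have h1 : (g2 * g1⁻¹) • fs D0 = fs D0 := hy.1.2
  have h2 : (g2 * g1⁻¹) • qu q0 = qu q0 := hy.2
  refine ⟨⟨_, hM⟩, ⟨?_, ?_⟩, ?_⟩
  · show (h * (g2 * g1⁻¹) * h⁻¹) • h • fs D0 = h • fs D0
    rw [mul_smul, mul_smul, inv_smul_smul, h1]
  · show (h * (g2 * g1⁻¹) * h⁻¹) • h • qu q0 = h • qu q0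
    rw [mul_smul, mul_smul, inv_smul_smul, h2]
  · show (h * (g2 * g1⁻¹) * h⁻¹) p = q
    rw [← e1, ← e2]
    simp

end Cfsg.Agent.H07.Orb
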