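import Mathlib
import Cfsg.Agent.Lib.H07.GolayFam

/-!
# The structure of a sextet stabiliser
-/

set_option autoImplicit false
set_option maxRecDepth 100000

namespace Cfsg.Agent.H07.Orb

open Cfsg Cfsg.Agent.H27.Golay
open scoped Pointwise

noncomputable def tet (i : Fin 6) : Finset GolayPt := fs (fld S0c i)

theorem tet_mem (i : Fin 6) : tet i ∈ sx S0c := by
  refine mem_sx.mpr ⟨fld S0c i, ?_, rfl⟩
  fin_cases i <;> simp [sxF]

theorem tet_inj : Function.Injective tet := by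
  intro i j h
  have h1 : fld S0c i = fld S0c j := fs_injOn (fld_lt _ _) (fld_lt _ _) h
  have key : ∀ i j : Fin 6, fld S0c i = fld S0c j → i = j := by decide +kernel
  exact key i j h1

theorem tet_surj {t : Finset GolayPt} (ht : t ∈ sx S0c) : ∃ i, tet i = t := by
  obtain ⟨m, hm, rfl⟩ := mem_sx.mp ht
  simp only [sxF, List.mem_cons, List.not_mem_nil, or_false] at hm
  rcases hm with rfl | rfl | rfl | rfl | rfl | rfl
  · exact ⟨0, rfl⟩
  · exact ⟨1, rfl⟩
  · exact ⟨2, rfl⟩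
  · exact ⟨3, rfl⟩
  · exact ⟨4, rfl⟩
  · exact ⟨5, rfl⟩

/-- The bijection from six indices at a translate. -/
noncomputable def eS (h : Equiv.Perm GolayPt) : Fin 6 ≃ ↥(h • sx S0c) :=
  Equiv.ofBijective (fun i => ⟨h • tet i, Finset.smul_mem_smul_finset (tet_mem i)⟩) (by
    constructor
    · intro i j e
      have h1 : h • tet i = h • tet j := congrArg Subtype.val e
      exact tet_inj (MulAction.injective h h1)
    · rintro ⟨t, ht⟩
      obtain ⟨t0, ht0, rfl⟩ := Finset.mem_smul_finset.mp ht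
      obtain ⟨i, rfl⟩ := tet_surj ht0
      exact ⟨i, rfl⟩)

theorem eS_val (h : Equiv.Perm GolayPt) (i : Fin 6) : ((eS h i : ↥(h • sx S0c)) : Finset GolayPt) = h • tet i := rfl

theorem aS_ok : isM24 aS = true := by decide +kernel
theorem bS_ok : isM24 bS = true := by decide +kernel
theorem aS_S : sxAct aS S0c S0c = true := by decide +kernel
theorem bS_S : sxAct bS S0c S0c = true := by decide +kernel
theorem aS_t : ∀ i : Fin 6, am aS (fld S0c i) = fld S0c (finRotate 6 i) := by decide +kernel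
theorem bS_t : ∀ i : Fin 6, am bS (fld S0c i) = fld S0c (Equiv.swap (0 : Fin 6) 1 i) := by decide +kernel

theorem aS_act (i : Fin 6) : P aS • tet i = tet (finRotate 6 i) := by
  rw [tet, ← fs_am (isM24_permOK aS_ok), aS_t]
  rfl

theorem bS_act (i : Fin 6) : P bS • tet i = tet (Equiv.swap (0 : Fin 6) 1 i) := by
  rw [tet, ← fs_am (isM24_permOK bS_ok), bS_t]
  rfl

/-- Translating an element of the base stabiliser. -/
noncomputable def conjS {h : Equiv.Perm GolayPt} (hh : h ∈ M24) {g : Equiv.Perm GolayPt} (hg : g ∈ M24)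
    (hgS : g • sx S0c = sx S0c) : ↥(MulAction.stabilizer M24 (h • sx S0c)) :=
  ⟨⟨h * g * h⁻¹, M24.mul_mem (M24.mul_mem hh hg) (M24.inv_mem hh)⟩, by
    show (h * g * h⁻¹) • h • sx S0c = h • sx S0c
    rw [mul_smul, mul_smul, inv_smul_smul, hgS]⟩

theorem phiS_surj {h : Equiv.Perm GolayPt} (hh : h ∈ M24) : Function.Surjective (phiF (h • sx S0c)) := by
  refine phiF_surj (n := 4) (eS h)
    (conjS hh (P_mem_M24 aS_ok) ((sxAct_spec aS_ok S0c_mem S0c_mem).mp aS_S))
    (conjS hh (P_mem_M24 bS_ok) ((sxAct_spec bS_ok S0c_mem S0c_mem).mp bS_S)) ?_ ?_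
  · intro i
    show (h * P aS * h⁻¹) • (h • tet i) = h • tet (finRotate 6 i)
    rw [mul_smul, mul_smul, inv_smul_smul, aS_act]
  · intro i
    show (h * P bS * h⁻¹) • (h • tet i) = h • tet (Equiv.swap (0 : Fin 6) 1 i)
    rw [mul_smul, mul_smul, inv_smul_smul, bS_act]

theorem card_perm_S (S : Finset (Finset GolayPt)) {n : ℕ} (hS : S.card = n) : Nat.card (Equiv.Perm ↥S) = n.factorial := by
  rw [Nat.card_perm, Nat.card_eq_fintype_card, Fintype.card_coe, hS]

theorem card_ker_S {h : Equiv.Perm GolayPt} (hh : h ∈ M24) : Nat.card ↥(phiF (h • sx S0c)).ker = 192 := by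
  have hS : h • sx S0c ∈ sextets := smul_mem_sextets hh ((mem_S_iff _).mpr ⟨S0c, S0c_mem, rfl⟩)
  have h1 := card_ker_of_surj (phiS_surj hh) (card_stab_sextet hS) (card_perm_S _ hS.1)
  have h2 : Nat.factorial 6 = 720 := rfl
  rw [h2] at h1
  omega

/-! ### Lists at the base -/

theorem KSL_ok : allL (fun π => isM24 π && allBelow (fun i => Nat.beq (am π (fld S0c i)) (fld S0c i)) 6) KSL = true := by
  decide +kernel
theorem KSL_sep : allL (fun u => allL (fun v => Nat.beq u v || !pEq u v) KSL) KSL = true := by decide +kernel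
theorem KSL_nodup : KSL.Nodup := by decide +kernel
theorem KSL_len : KSL.length = 192 := by decide +kernel
theorem NSL_sub : allL (fun π => memL π KSL) NSL = true := by decide +kernel
theorem NSL_nodup : NSL.Nodup := by decide +kernel
theorem NSL_len : NSL.length = 64 := by decide +kernel
theorem NSL_sq : allL (fun π => !pEq (pcomp π π) idCode || memL π NSL) KSL = true := by decide +kernel
theorem NSL_sq' : allL (fun π => pEq (pcomp π π) idCode) NSL = true := by decide +kernel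
theorem NSL_mul : allL (fun u => allL (fun v => memP (pcomp u v) NSL) NSL) NSL = true := by decide +kernel
theorem NSL_inv : allL (fun u => memP (pinv u) NSL) NSL = true := by decide +kernel
theorem NSL_one : memP idCode NSL = true := by decide +kernel

theorem KSL_good {π : ℕ} (h : π ∈ KSL) : isM24 π = true ∧ ∀ i : Fin 6, P π • tet i = tet i := by
  have := allL_spec KSL_ok π h
  rw [Bool.and_eq_true] at this
  refine ⟨this.1, fun i => P_smul_fs this.1 (allBelow_spec this.2 i i.2)⟩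

theorem KSL_perm {π : ℕ} (h : π ∈ KSL) : permOK π = true := isM24_permOK (KSL_good h).1

theorem NSL_KSL {π : ℕ} (h : π ∈ NSL) : π ∈ KSL := (memL_iff _ _).mp (allL_spec NSL_sub π h)

theorem P_inj_KSL {u v : ℕ} (hu : u ∈ KSL) (hv : v ∈ KSL) (h : P u = P v) : u = v := by
  have h1 := allL_spec (allL_spec KSL_sep u hu) v hv
  rw [(pEq_iff (KSL_perm hu) (KSL_perm hv)).mpr h] at h1
  simp only [Bool.not_true, Bool.or_false] at h1
  exact Nat.eq_of_beq_eq_true h1

/-- The kernel at the base, in the group of permutations. -/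
def KS : Set (Equiv.Perm GolayPt) := {g | g ∈ M24 ∧ ∀ i : Fin 6, g • tet i = tet i}

theorem fam_S_stab {g : Equiv.Perm GolayPt} (hg : ∀ i : Fin 6, g • tet i = tet i) : g • sx S0c = sx S0c := by
  refine stab_iff_fam.mpr ?_
  intro t
  constructor
  · intro h1
    have hc : g⁻¹ • (g • t) ∈ sx S0c := by
      obtain ⟨i, hi⟩ := tet_surj h1
      rw [← hi]
      have : g⁻¹ • tet i = tet i := inv_smul_eq_iff.mpr (hg i).symm
      rw [this]
      exact tet_mem i
    simpa using hc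
  · intro h1
    obtain ⟨i, rfl⟩ := tet_surj h1
    rw [hg i]
    exact tet_mem i

theorem KS_card : KS.ncard = 192 := by
  have h1 : (1 : Equiv.Perm GolayPt) ∈ M24 := M24.one_mem
  have h2 := card_ker_S h1
  rw [← h2]
  rw [← Nat.card_coe_set_eq]
  refine Nat.card_congr ⟨fun g => ⟨⟨⟨g.1, g.2.1⟩, ?_⟩, ?_⟩, fun z => ⟨((z.1 : ↥(MulAction.stabilizer M24 _)) : ↥M24).1, ?_⟩, ?_, ?_⟩
  · show g.1 • (1 : Equiv.Perm GolayPt) • sx S0c = (1 : Equiv.Perm GolayPt) • sx S0c
    rw [one_smul]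
    exact fam_S_stab g.2.2
  · refine mem_ker_phiF.mpr ?_
    intro t ht
    rw [one_smul] at ht
    obtain ⟨i, rfl⟩ := tet_surj ht
    exact g.2.2 i
  · refine ⟨(z.1 : ↥(MulAction.stabilizer M24 _)).1.2, ?_⟩
    intro i
    refine mem_ker_phiF.mp z.2 (tet i) ?_
    rw [one_smul]
    exact tet_mem i
  · intro g
    rfl
  · intro z
    rfl

theorem KS_elts {g : Equiv.Perm GolayPt} (hg : g ∈ KS) : ∃ π ∈ KSL, P π = g := by
  classical
  have hsub : ((KSL.toFinset.image P : Finset (Equiv.Perm GolayPt)) : Set (Equiv.Perm GolayPt)) ⊆ KS := by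
    intro x hx
    obtain ⟨π, hπ, rfl⟩ := Finset.mem_image.mp (Finset.mem_coe.mp hx)
    have h1 := KSL_good (List.mem_toFinset.mp hπ)
    exact ⟨P_mem_M24 h1.1, h1.2⟩
  have hcard : (KSL.toFinset.image P).card = 192 := by
    rw [Finset.card_image_of_injOn, List.toFinset_card_of_nodup KSL_nodup, KSL_len]
    intro a ha b hb h
    exact P_inj_KSL (List.mem_toFinset.mp ha) (List.mem_toFinset.mp hb) h
  have e := Set.eq_of_subset_of_ncard_le hsub (by rw [Set.ncard_coe_finset, hcard, KS_card]) (Set.toFinite _)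
  have hg' : g ∈ ((KSL.toFinset.image P : Finset (Equiv.Perm GolayPt)) : Set (Equiv.Perm GolayPt)) := by
    rw [e]
    exact hg
  obtain ⟨π, hπ, rfl⟩ := Finset.mem_image.mp (Finset.mem_coe.mp hg')
  exact ⟨π, List.mem_toFinset.mp hπ, rfl⟩

/-- The elementary abelian subgroup. -/
noncomputable def NS : Subgroup (Equiv.Perm GolayPt) where
  carrier := P '' {π | π ∈ NSL}
  mul_mem' := by
    rintro _ _ ⟨u, hu, rfl⟩ ⟨v, hv, rfl⟩
    have okU := KSL_perm (NSL_KSL hu)
    have okV := KSL_perm (NSL_KSL hv)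
    obtain ⟨y, hy, e⟩ := memP_spec (permOK_pcomp okU okV) (fun y hy => KSL_perm (NSL_KSL hy))
      (allL_spec (allL_spec NSL_mul u hu) v hv)
    exact ⟨y, hy, by rw [e, P_pcomp okU okV]⟩
  one_mem' := by
    obtain ⟨y, hy, e⟩ := memP_spec (isM24_permOK idCode_spec) (fun y hy => KSL_perm (NSL_KSL hy)) NSL_one
    exact ⟨y, hy, by rw [e, P_idCode]⟩
  inv_mem' := by
    rintro _ ⟨u, hu, rfl⟩
    have okU := KSL_perm (NSL_KSL hu)
    obtain ⟨y, hy, e⟩ := memP_spec (permOK_pinv okU) (fun y hy => KSL_perm (NSL_KSL hy)) (allL_spec NSL_inv u hu)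
    exact ⟨y, hy, by rw [e, P_pinv okU]⟩

theorem mem_NS {g : Equiv.Perm GolayPt} : g ∈ NS ↔ ∃ π ∈ NSL, P π = g := Iff.rfl

theorem NS_sq {g : Equiv.Perm GolayPt} (hg : g ∈ NS) : g * g = 1 := by
  obtain ⟨π, hπ, rfl⟩ := mem_NS.mp hg
  have ok := KSL_perm (NSL_KSL hπ)
  have h1 := (pEq_iff (permOK_pcomp ok ok) (isM24_permOK idCode_spec)).mp (allL_spec NSL_sq' π hπ)
  rw [P_pcomp ok ok, P_idCode] at h1
  exact h1

theorem NS_mem_KS {g : Equiv.Perm GolayPt} (hg : g ∈ NS) : g ∈ KS := by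
  obtain ⟨π, hπ, rfl⟩ := mem_NS.mp hg
  have h1 := KSL_good (NSL_KSL hπ)
  exact ⟨P_mem_M24 h1.1, h1.2⟩

theorem mem_NS_of {g : Equiv.Perm GolayPt} (hg : g ∈ KS) (h2 : g * g = 1) : g ∈ NS := by
  obtain ⟨π, hπ, rfl⟩ := KS_elts hg
  have ok := KSL_perm hπ
  have h1 := allL_spec NSL_sq π hπ
  have h3 : pEq (pcomp π π) idCode = true :=
    (pEq_iff (permOK_pcomp ok ok) (isM24_permOK idCode_spec)).mpr (by rw [P_pcomp ok ok, P_idCode]; exact h2)
  rw [h3] at h1
  simp only [Bool.not_true, Bool.false_or] at h1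
  exact ⟨π, (memL_iff _ _).mp h1, rfl⟩

theorem NS_card : Nat.card ↥NS = 64 := by
  classical
  have h1 : (NS : Set (Equiv.Perm GolayPt)) = ((NSL.toFinset.image P : Finset (Equiv.Perm GolayPt)) : Set (Equiv.Perm GolayPt)) := by
    ext x
    simp only [Finset.coe_image, List.coe_toFinset]
    rfl
  have h2 : Nat.card ↥NS = (NS : Set (Equiv.Perm GolayPt)).ncard := rfl
  rw [h2, h1, Set.ncard_coe_finset, Finset.card_image_of_injOn, List.toFinset_card_of_nodup NSL_nodup, NSL_len]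
  intro a ha b hb h
  exact P_inj_KSL (NSL_KSL (List.mem_toFinset.mp ha)) (NSL_KSL (List.mem_toFinset.mp hb)) h

/-- The normal subgroup at a translate. -/
theorem main_N {h : Equiv.Perm GolayPt} (hh : h ∈ M24) :
    ∃ N : Subgroup ↥(MulAction.stabilizer M24 (h • sx S0c)), N.Normal ∧ Nat.card N = 64 ∧ ∀ x ∈ N, x * x = 1 := by
  let c : ↥(MulAction.stabilizer M24 (h • sx S0c)) →* Equiv.Perm GolayPt :=
    MonoidHom.mk' (fun z => h⁻¹ * ((z : ↥M24) : Equiv.Perm GolayPt) * h) (by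
      intro a b
      show h⁻¹ * (((a : ↥M24) : Equiv.Perm GolayPt) * ((b : ↥M24) : Equiv.Perm GolayPt)) * h =
        (h⁻¹ * ((a : ↥M24) : Equiv.Perm GolayPt) * h) * (h⁻¹ * ((b : ↥M24) : Equiv.Perm GolayPt) * h)
      group)
  refine ⟨NS.comap c, ?_, ?_, ?_⟩
  · constructor
    intro n hn g
    have hn' : c n ∈ NS := hn
    show c (g * n * g⁻¹) ∈ NS
    rw [map_mul, map_mul, map_inv]
    have hkn := NS_mem_KS hn'
    have hgS : c g • sx S0c = sx S0c := by
      have hg2 : ((g : ↥M24) : Equiv.Perm GolayPt) • h • sx S0c = h • sx S0c := g.2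
      show (h⁻¹ * ((g : ↥M24) : Equiv.Perm GolayPt) * h) • sx S0c = sx S0c
      rw [mul_smul, mul_smul, hg2, inv_smul_smul]
    have hgM : c g ∈ M24 := M24.mul_mem (M24.mul_mem (M24.inv_mem hh) (g : ↥M24).2) hh
    refine mem_NS_of ⟨M24.mul_mem (M24.mul_mem hgM hkn.1) (M24.inv_mem hgM), ?_⟩ ?_
    · intro i
      have hm : (c g)⁻¹ • tet i ∈ sx S0c := by
        have := Finset.smul_mem_smul_finset (a := (c g)⁻¹) (tet_mem i)
        rwa [inv_smul_eq_iff.mpr hgS.symm] at this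
      obtain ⟨j, hj⟩ := tet_surj hm
      rw [mul_smul, mul_smul, ← hj, hkn.2 j, hj, smul_inv_smul]
    · calc c g * c n * (c g)⁻¹ * (c g * c n * (c g)⁻¹) = c g * (c n * c n) * (c g)⁻¹ := by group
        _ = 1 := by rw [NS_sq hn']; group
  · rw [← NS_card]
    refine Nat.card_congr ⟨fun z => ⟨c z.1, z.2⟩, fun y => ⟨⟨⟨h * y.1 * h⁻¹, ?_⟩, ?_⟩, ?_⟩, ?_, ?_⟩
    · exact M24.mul_mem (M24.mul_mem hh (NS_mem_KS y.2).1) (M24.inv_mem hh)
    · show (h * y.1 * h⁻¹) • h • sx S0c = h • sx S0c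
      rw [mul_smul, mul_smul, inv_smul_smul, fam_S_stab (NS_mem_KS y.2).2]
    · show c _ ∈ NS
      show h⁻¹ * (h * y.1 * h⁻¹) * h ∈ NS
      have : h⁻¹ * (h * y.1 * h⁻¹) * h = y.1 := by group
      rw [this]
      exact y.2
    · intro z
      apply Subtype.ext
      apply Subtype.ext
      apply Subtype.ext
      show h * (h⁻¹ * _ * h) * h⁻¹ = _
      group
    · intro y
      apply Subtype.ext
      show h⁻¹ * (h * _ * h⁻¹) * h = _
      group
  · intro x hx
    have hx' : c x ∈ NS := hx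
    have h1 := NS_sq hx'
    apply Subtype.ext
    apply Subtype.ext
    show ((x : ↥M24) : Equiv.Perm GolayPt) * ((x : ↥M24) : Equiv.Perm GolayPt) = 1
    have h2 : h⁻¹ * ((x : ↥M24) : Equiv.Perm GolayPt) * h * (h⁻¹ * ((x : ↥M24) : Equiv.Perm GolayPt) * h) = 1 := h1
    calc ((x : ↥M24) : Equiv.Perm GolayPt) * ((x : ↥M24) : Equiv.Perm GolayPt)
        = h * (h⁻¹ * ((x : ↥M24) : Equiv.Perm GolayPt) * h * (h⁻¹ * ((x : ↥M24) : Equiv.Perm GolayPt) * h)) * h⁻¹ := by group
      _ = 1 := by rw [h2]; group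

end Cfsg.Agent.H07.Orb
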