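import Mathlib
import Cfsg.Agent.Lib.H07.TblS1558

/-!
# The structure of a trio stabiliser
-/

set_option autoImplicit false
set_option maxRecDepth 100000

namespace Cfsg.Agent.H07.Orb

open Cfsg Cfsg.Agent.H27.Golay
open scoped Pointwise

/-- Normal subgroups with a complement. -/
theorem normal_of_compl {G Γ : Type*} [Group G] [Finite G] [Group Γ] [Finite Γ] (N : Subgroup G) (F : Γ →* G)
    (hinj : ∀ x, F x ∈ N → x = 1) (hnorm : ∀ x, ∀ n ∈ N, F x * n * (F x)⁻¹ ∈ N)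
    (hcard : Nat.card N * Nat.card Γ = Nat.card G) : ∃ _ : N.Normal, Nonempty (G ⧸ N ≃* Γ) := by
  have hFinj : Function.Injective F := by
    rw [injective_iff_map_eq_one]
    intro x hx
    exact hinj x (by rw [hx]; exact N.one_mem)
  have hC : Nat.card F.range = Nat.card Γ := (Nat.card_congr (MonoidHom.ofInjective hFinj).toEquiv).symm
  have hdisj : Disjoint N F.range := by
    rw [Subgroup.disjoint_def]
    rintro g hg ⟨y, rfl⟩
    rw [hinj y hg, map_one]
  have hcompl : Subgroup.IsComplement' N F.range :=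
    Subgroup.isComplement'_of_card_mul_and_disjoint (by rw [hC, hcard]) hdisj
  have hsup : N ⊔ F.range = ⊤ := hcompl.sup_eq_top
  have hnormal : Subgroup.normalizer (N : Set G) = ⊤ := by
    rw [eq_top_iff, ← hsup, sup_le_iff]
    refine ⟨Subgroup.le_normalizer, ?_⟩
    rintro _ ⟨y, rfl⟩
    rw [Subgroup.mem_normalizer_iff]
    intro n
    constructor
    · exact hnorm y n
    · intro h
      have h1 := hnorm y⁻¹ _ h
      rw [map_inv] at h1
      have h2 : (F y)⁻¹ * (F y * n * (F y)⁻¹) * ((F y)⁻¹)⁻¹ = n := by group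
      rwa [h2] at h1
  have hN : N.Normal := Subgroup.normalizer_eq_top_iff.mp hnormal
  refine ⟨hN, ?_⟩
  let ρ : Γ →* G ⧸ N := (QuotientGroup.mk' N).comp F
  have hρ : Function.Injective ρ := by
    rw [injective_iff_map_eq_one]
    intro x hx
    exact hinj x ((QuotientGroup.eq_one_iff _).mp hx)
  have hcq : Nat.card (G ⧸ N) = Nat.card Γ := by
    have h1 := Subgroup.card_eq_card_quotient_mul_card_subgroup N
    rw [← hcard, mul_comm] at h1
    exact Nat.eq_of_mul_eq_mul_right Nat.card_pos h1.symm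
  have hsurj : Function.Surjective ρ :=
    ((Nat.bijective_iff_injective_and_card ρ).mpr ⟨hρ, hcq.symm⟩).2
  exact ⟨(MulEquiv.ofBijective ρ ⟨hρ, hsurj⟩).symm⟩

/-- Transport of a normal subgroup with given quotient, keeping the elements' property. -/
theorem transport_quot₂ {A B Γ : Type*} [Group A] [Group B] [Group Γ] (e : A ≃* B) (N : Subgroup B) [hN : N.Normal]
    {n : ℕ} (hc : Nat.card N = n) (hx : ∀ x ∈ N, x * x = 1) (hq : Nonempty (B ⧸ N ≃* Γ)) :
    ∃ (N' : Subgroup A) (_ : N'.Normal), Nat.card N' = n ∧ (∀ x ∈ N', x * x = 1) ∧ Nonempty (A ⧸ N' ≃* Γ) := by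
  let N' : Subgroup A := N.comap e.toMonoidHom
  have hN' : N'.Normal := hN.comap _
  refine ⟨N', hN', ?_, ?_, ?_⟩
  · rw [← hc]
    refine Nat.card_congr ⟨fun x => ⟨e x.1, x.2⟩, fun y => ⟨e.symm y.1, by
      show e (e.symm y.1) ∈ N
      rw [e.apply_symm_apply]
      exact y.2⟩, ?_, ?_⟩
    · intro x
      apply Subtype.ext
      exact e.symm_apply_apply _
    · intro y
      apply Subtype.ext
      exact e.apply_symm_apply _
  · intro x hx'
    have h1 := hx (e x) hx'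
    rw [← map_mul] at h1
    exact e.injective (by rw [h1, map_one])
  · obtain ⟨q⟩ := hq
    have hmap : N'.map e.toMonoidHom = N := by
      ext y
      constructor
      · rintro ⟨x, hx, rfl⟩
        exact hx
      · intro hy
        refine ⟨e.symm y, ?_, e.apply_symm_apply _⟩
        show e (e.symm y) ∈ N
        rw [e.apply_symm_apply]
        exact hy
    exact ⟨(QuotientGroup.congr N' N e hmap).trans q⟩

/-! ### Encoding of `GL(3, 2)` -/

abbrev GL32 := GL (Fin 3) (ZMod 2)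

def c9 (a b c d e f g h i : ZMod 2) : ℕ :=
  a.val + 2 * b.val + 4 * c.val + 8 * d.val + 16 * e.val + 32 * f.val + 64 * g.val + 128 * h.val + 256 * i.val

def bt (u k : ℕ) : ℕ := (u / 2 ^ k) % 2

def mc2 (u v : ℕ) : ℕ :=
  (bt u 0 * bt v 0 + bt u 1 * bt v 3 + bt u 2 * bt v 6) % 2 +
  2 * ((bt u 0 * bt v 1 + bt u 1 * bt v 4 + bt u 2 * bt v 7) % 2) +
  4 * ((bt u 0 * bt v 2 + bt u 1 * bt v 5 + bt u 2 * bt v 8) % 2) +
  8 * ((bt u 3 * bt v 0 + bt u 4 * bt v 3 + bt u 5 * bt v 6) % 2) +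
  16 * ((bt u 3 * bt v 1 + bt u 4 * bt v 4 + bt u 5 * bt v 7) % 2) +
  32 * ((bt u 3 * bt v 2 + bt u 4 * bt v 5 + bt u 5 * bt v 8) % 2) +
  64 * ((bt u 6 * bt v 0 + bt u 7 * bt v 3 + bt u 8 * bt v 6) % 2) +
  128 * ((bt u 6 * bt v 1 + bt u 7 * bt v 4 + bt u 8 * bt v 7) % 2) +
  256 * ((bt u 6 * bt v 2 + bt u 7 * bt v 5 + bt u 8 * bt v 8) % 2)

theorem bt_c9 (a b c d e f g h i : ZMod 2) :
    bt (c9 a b c d e f g h i) 0 = a.val ∧ bt (c9 a b c d e f g h i) 1 = b.val ∧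
    bt (c9 a b c d e f g h i) 2 = c.val ∧ bt (c9 a b c d e f g h i) 3 = d.val ∧
    bt (c9 a b c d e f g h i) 4 = e.val ∧ bt (c9 a b c d e f g h i) 5 = f.val ∧
    bt (c9 a b c d e f g h i) 6 = g.val ∧ bt (c9 a b c d e f g h i) 7 = h.val ∧
    bt (c9 a b c d e f g h i) 8 = i.val := by
  have ha := ZMod.val_lt a
  have hb := ZMod.val_lt b
  have hc := ZMod.val_lt c
  have hd := ZMod.val_lt d
  have he := ZMod.val_lt e
  have hf := ZMod.val_lt f
  have hg := ZMod.val_lt g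
  have hh := ZMod.val_lt h
  have hi := ZMod.val_lt i
  unfold bt c9
  norm_num only
  refine ⟨?_, ?_, ?_, ?_, ?_, ?_, ?_, ?_, ?_⟩ <;> omega

theorem val_tri (a b c d e f : ZMod 2) :
    (a * b + c * d + e * f).val = (a.val * b.val + c.val * d.val + e.val * f.val) % 2 := by
  rw [ZMod.val_add, ZMod.val_add, ZMod.val_mul, ZMod.val_mul, ZMod.val_mul]
  generalize a.val * b.val = A
  generalize c.val * d.val = C
  generalize e.val * f.val = E
  omega

theorem c9_mul (a b c d e f g h i a' b' c' d' e' f' g' h' i' : ZMod 2) :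
    c9 (a * a' + b * d' + c * g') (a * b' + b * e' + c * h') (a * c' + b * f' + c * i')
       (d * a' + e * d' + f * g') (d * b' + e * e' + f * h') (d * c' + e * f' + f * i')
       (g * a' + h * d' + i * g') (g * b' + h * e' + i * h') (g * c' + h * f' + i * i') =
      mc2 (c9 a b c d e f g h i) (c9 a' b' c' d' e' f' g' h' i') := by
  obtain ⟨h1, h2, h3, h4, h5, h6, h7, h8, h9⟩ := bt_c9 a b c d e f g h i
  obtain ⟨k1, k2, k3, k4, k5, k6, k7, k8, k9⟩ := bt_c9 a' b' c' d' e' f' g' h' i'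
  unfold mc2
  rw [h1, h2, h3, h4, h5, h6, h7, h8, h9, k1, k2, k3, k4, k5, k6, k7, k8, k9]
  unfold c9
  simp only [val_tri]

def enc32 (m : GL32) : ℕ :=
  c9 (m.1 0 0) (m.1 0 1) (m.1 0 2) (m.1 1 0) (m.1 1 1) (m.1 1 2) (m.1 2 0) (m.1 2 1) (m.1 2 2)

def detc9 (u : ℕ) : ℕ :=
  (bt u 0 * (bt u 4 * bt u 8 + bt u 5 * bt u 7) + bt u 1 * (bt u 3 * bt u 8 + bt u 5 * bt u 6) +
    bt u 2 * (bt u 3 * bt u 7 + bt u 4 * bt u 6)) % 2

def GL32c : List ℕ := (List.range 512).filter (fun u => !Nat.beq (detc9 u) 0)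

theorem c9_mem : ∀ a b c d e f g h i : ZMod 2,
    a * e * i - a * f * h - b * d * i + b * f * g + c * d * h - c * e * g ≠ 0 → c9 a b c d e f g h i ∈ GL32c := by
  decide +kernel


theorem c9_inj : ∀ a b c d e f g h i a' b' c' d' e' f' g' h' i' : ZMod 2,
    c9 a b c d e f g h i = c9 a' b' c' d' e' f' g' h' i' →
    a = a' ∧ b = b' ∧ c = c' ∧ d = d' ∧ e = e' ∧ f = f' ∧ g = g' ∧ h = h' ∧ i = i' := by
  intro a b c d e f g h i a' b' c' d' e' f' g' h' i' hh
  obtain ⟨h1, h2, h3, h4, h5, h6, h7, h8, h9⟩ := bt_c9 a b c d e f g h i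
  obtain ⟨k1, k2, k3, k4, k5, k6, k7, k8, k9⟩ := bt_c9 a' b' c' d' e' f' g' h' i'
  rw [hh] at h1 h2 h3 h4 h5 h6 h7 h8 h9
  exact ⟨ZMod.val_injective 2 (h1.symm.trans k1), ZMod.val_injective 2 (h2.symm.trans k2),
    ZMod.val_injective 2 (h3.symm.trans k3), ZMod.val_injective 2 (h4.symm.trans k4),
    ZMod.val_injective 2 (h5.symm.trans k5), ZMod.val_injective 2 (h6.symm.trans k6),
    ZMod.val_injective 2 (h7.symm.trans k7), ZMod.val_injective 2 (h8.symm.trans k8),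
    ZMod.val_injective 2 (h9.symm.trans k9)⟩

theorem enc32_mem (m : GL32) : enc32 m ∈ GL32c := by
  refine c9_mem _ _ _ _ _ _ _ _ _ ?_
  have h := Matrix.isUnits_det_units m
  rw [Matrix.det_fin_three] at h
  exact h.ne_zero

theorem enc32_mul (m n : GL32) : enc32 (m * n) = mc2 (enc32 m) (enc32 n) := by
  unfold enc32
  rw [← c9_mul]
  simp only [Units.val_mul, Matrix.mul_apply, Fin.sum_univ_three]

theorem enc32_inj {m n : GL32} (h : enc32 m = enc32 n) : m = n := by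
  obtain ⟨h1, h2, h3, h4, h5, h6, h7, h8, h9⟩ := c9_inj _ _ _ _ _ _ _ _ _ _ _ _ _ _ _ _ _ _ h
  apply Units.ext
  ext i j
  fin_cases i <;> fin_cases j
  · exact h1
  · exact h2
  · exact h3
  · exact h4
  · exact h5
  · exact h6
  · exact h7
  · exact h8
  · exact h9

def T1 (u : ℕ) : ℕ := Nat.land (Nat.shiftRight T1A (Nat.mul 120 u)) 1329227995784915872903807060280344575

theorem T1_ok : allL (fun u => isM24 (T1 u) && trAct (T1 u) R0c R0c) GL32c = true := by decide +kernel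
theorem T1_mul : allL (fun u => allL (fun v => Nat.beq (pcomp (T1 u) (T1 v)) (T1 (mc2 u v))) GL32c) GL32c = true := by
  decide +kernel

theorem T1_good {u : ℕ} (hu : u ∈ GL32c) : isM24 (T1 u) = true ∧ trAct (T1 u) R0c R0c = true := by
  have := allL_spec T1_ok u hu
  rwa [Bool.and_eq_true] at this

theorem T1_perm {u : ℕ} (hu : u ∈ GL32c) : permOK (T1 u) = true := isM24_permOK (T1_good hu).1

noncomputable def F1 : GL32 →* Equiv.Perm GolayPt :=
  MonoidHom.mk' (fun m => P (T1 (enc32 m))) (by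
    intro m n
    have hm := enc32_mem m
    have hn := enc32_mem n
    have hmn := enc32_mem (m * n)
    have h := allL_spec (allL_spec T1_mul _ hm) _ hn
    rw [← enc32_mul] at h
    have h2 := Nat.eq_of_beq_eq_true h
    rw [← h2, P_pcomp (T1_perm hm) (T1_perm hn)])

theorem F1_apply (m : GL32) : F1 m = P (T1 (enc32 m)) := rfl

/-! ### The symmetric group -/

def ap3 (u k : ℕ) : ℕ := (u / 3 ^ k) % 3

def mc3p (u v : ℕ) : ℕ :=
  ap3 u (ap3 v 0) + 3 * ap3 u (ap3 v 1) + 9 * ap3 u (ap3 v 2)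

def enc3p (σ : Equiv.Perm (Fin 3)) : ℕ := (σ 0).val + 3 * (σ 1).val + 9 * (σ 2).val

theorem enc3p_mul : ∀ σ τ : Equiv.Perm (Fin 3), enc3p (σ * τ) = mc3p (enc3p σ) (enc3p τ) := by decide

def S3c : List ℕ := [21, 15, 11, 19, 7, 5]

theorem enc3p_mem : ∀ σ : Equiv.Perm (Fin 3), enc3p σ ∈ S3c := by decide

theorem enc3p_inj : ∀ σ τ : Equiv.Perm (Fin 3), enc3p σ = enc3p τ → σ = τ := by decide

theorem ap3_enc : ∀ (σ : Equiv.Perm (Fin 3)) (i : Fin 3), ap3 (enc3p σ) i = (σ i).val := by decide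

def T2 (u : ℕ) : ℕ := Nat.land (Nat.shiftRight T2A (Nat.mul 120 u)) 1329227995784915872903807060280344575

theorem T2_ok : allL (fun u => isM24 (T2 u) && trAct (T2 u) R0c R0c &&
    allBelow (fun i => Nat.beq (am (T2 u) (fld R0c i)) (fld R0c (ap3 u i))) 3) S3c = true := by decide +kernel
theorem T2_mul : allL (fun u => allL (fun v => Nat.beq (pcomp (T2 u) (T2 v)) (T2 (mc3p u v))) S3c) S3c = true := by
  decide +kernel
theorem T12_comm : allL (fun u => allL (fun v => Nat.beq (pcomp (T1 u) (T2 v)) (pcomp (T2 v) (T1 u))) S3c) GL32c = true := by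
  decide +kernel

theorem T2_good {u : ℕ} (hu : u ∈ S3c) : isM24 (T2 u) = true ∧ trAct (T2 u) R0c R0c = true ∧
    ∀ i < 3, am (T2 u) (fld R0c i) = fld R0c (ap3 u i) := by
  have := allL_spec T2_ok u hu
  simp only [Bool.and_eq_true] at this
  exact ⟨this.1.1, this.1.2, fun i hi => Nat.eq_of_beq_eq_true (allBelow_spec this.2 i hi)⟩

theorem T2_perm {u : ℕ} (hu : u ∈ S3c) : permOK (T2 u) = true := isM24_permOK (T2_good hu).1

noncomputable def F2 : Equiv.Perm (Fin 3) →* Equiv.Perm GolayPt :=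
  MonoidHom.mk' (fun m => P (T2 (enc3p m))) (by
    intro m n
    have hm := enc3p_mem m
    have hn := enc3p_mem n
    have hmn := enc3p_mem (m * n)
    have h := allL_spec (allL_spec T2_mul _ hm) _ hn
    rw [← enc3p_mul] at h
    have h2 := Nat.eq_of_beq_eq_true h
    rw [← h2, P_pcomp (T2_perm hm) (T2_perm hn)])

theorem F2_apply (m : Equiv.Perm (Fin 3)) : F2 m = P (T2 (enc3p m)) := rfl

theorem F12_comm (m : GL32) (σ : Equiv.Perm (Fin 3)) : F1 m * F2 σ = F2 σ * F1 m := by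
  have hm := enc32_mem m
  have hn := enc3p_mem σ
  have h := congrArg P (Nat.eq_of_beq_eq_true (allL_spec (allL_spec T12_comm _ hm) _ hn))
  rwa [P_pcomp (T1_perm hm) (T2_perm hn), P_pcomp (T2_perm hn) (T1_perm hm)] at h

/-! ### The group at the base -/

noncomputable abbrev TT : Subgroup (Equiv.Perm GolayPt) := M24 ⊓ MulAction.stabilizer (Equiv.Perm GolayPt) (tr R0c)

theorem T1_mem {u : ℕ} (hu : u ∈ GL32c) : P (T1 u) ∈ TT :=
  ⟨P_mem_M24 (T1_good hu).1, (trAct_spec (T1_good hu).1 R0c_mem R0c_mem).mp (T1_good hu).2⟩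

theorem T2_mem {u : ℕ} (hu : u ∈ S3c) : P (T2 u) ∈ TT :=
  ⟨P_mem_M24 (T2_good hu).1, (trAct_spec (T2_good hu).1 R0c_mem R0c_mem).mp (T2_good hu).2.1⟩

/-- The complement. -/
noncomputable def FT : GL32 × Equiv.Perm (Fin 3) →* ↥TT :=
  MonoidHom.mk' (fun x => ⟨F1 x.1 * F2 x.2, TT.mul_mem (T1_mem (enc32_mem x.1)) (T2_mem (enc3p_mem x.2))⟩) (by
    intro x y
    apply Subtype.ext
    show F1 (x.1 * y.1) * F2 (x.2 * y.2) = F1 x.1 * F2 x.2 * (F1 y.1 * F2 y.2)
    rw [map_mul, map_mul]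
    have := F12_comm y.1 x.2
    calc F1 x.1 * F1 y.1 * (F2 x.2 * F2 y.2) = F1 x.1 * (F1 y.1 * F2 x.2) * F2 y.2 := by group
      _ = F1 x.1 * (F2 x.2 * F1 y.1) * F2 y.2 := by rw [this]
      _ = F1 x.1 * F2 x.2 * (F1 y.1 * F2 y.2) := by group)

/-- Conjugation to the base group. -/
noncomputable def TT_equiv {h : Equiv.Perm GolayPt} (hh : h ∈ M24) :
    ↥(MulAction.stabilizer M24 (h • tr R0c)) ≃* ↥TT where
  toFun z := ⟨h⁻¹ * ((z : ↥M24) : Equiv.Perm GolayPt) * h, by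
    have h1 : ((z : ↥M24) : Equiv.Perm GolayPt) • h • tr R0c = h • tr R0c := z.2
    refine ⟨M24.mul_mem (M24.mul_mem (M24.inv_mem hh) (z : ↥M24).2) hh, ?_⟩
    show (h⁻¹ * ((z : ↥M24) : Equiv.Perm GolayPt) * h) • tr R0c = tr R0c
    rw [mul_smul, mul_smul, h1, inv_smul_smul]⟩
  invFun y := ⟨⟨h * (y : Equiv.Perm GolayPt) * h⁻¹, M24.mul_mem (M24.mul_mem hh y.2.1) (M24.inv_mem hh)⟩, by
    have h1 : (y : Equiv.Perm GolayPt) • tr R0c = tr R0c := y.2.2
    show (h * (y : Equiv.Perm GolayPt) * h⁻¹) • h • tr R0c = h • tr R0c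
    rw [mul_smul, mul_smul, inv_smul_smul, h1]⟩
  left_inv z := by
    apply Subtype.ext
    apply Subtype.ext
    show h * (h⁻¹ * ((z : ↥M24) : Equiv.Perm GolayPt) * h) * h⁻¹ = _
    group
  right_inv y := by
    apply Subtype.ext
    show h⁻¹ * (h * (y : Equiv.Perm GolayPt) * h⁻¹) * h = _
    group
  map_mul' a b := by
    apply Subtype.ext
    show h⁻¹ * (((a : ↥M24) : Equiv.Perm GolayPt) * ((b : ↥M24) : Equiv.Perm GolayPt)) * h =
      (h⁻¹ * ((a : ↥M24) : Equiv.Perm GolayPt) * h) * (h⁻¹ * ((b : ↥M24) : Equiv.Perm GolayPt) * h)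
    group

theorem TT_card : Nat.card ↥TT = 64512 := by
  have h1 : (1 : Equiv.Perm GolayPt) ∈ M24 := M24.one_mem
  have hd : (1 : Equiv.Perm GolayPt) • tr R0c ∈ trios :=
    smul_mem_trios h1 ((mem_trios_iff_list _).mpr ⟨R0c, R0c_mem, rfl⟩)
  rw [← Nat.card_congr (TT_equiv h1).toEquiv]
  exact card_stab_trio hd

/-! ### The normal subgroup -/

theorem NTL_ok : allL (fun π => isM24 π && trAct π R0c R0c && pEq (pcomp π π) idCode) NTL = true := by decide +kernel
theorem NTL_sep : allL (fun u => allL (fun v => Nat.beq u v || !pEq u v) NTL) NTL = true := by decide +kernel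
theorem NTL_nodup : NTL.Nodup := by decide +kernel
theorem NTL_len : NTL.length = 64 := by decide +kernel
theorem NTL_mul : allL (fun u => allL (fun v => memL (pcomp u v) NTL) NTL) NTL = true := by decide +kernel
theorem NTL_one : memP idCode NTL = true := by decide +kernel
theorem NTL_c1 : allL (fun u => allL (fun n => memL (pcomp (pcomp (T1 u) n) (pinv (T1 u))) NTL) NTL) GL32c = true := by
  decide +kernel
theorem NTL_c2 : allL (fun u => allL (fun n => memL (pcomp (pcomp (T2 u) n) (pinv (T2 u))) NTL) NTL) S3c = true := by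
  decide +kernel
theorem NTL_disj : allL (fun u => allL (fun v => !memP (pcomp (T1 u) (T2 v)) NTL || (Nat.beq u 273 && Nat.beq v 21)) S3c) GL32c = true := by
  decide +kernel

theorem NTL_good {π : ℕ} (h : π ∈ NTL) : isM24 π = true ∧ trAct π R0c R0c = true ∧ pEq (pcomp π π) idCode = true := by
  have := allL_spec NTL_ok π h
  simp only [Bool.and_eq_true] at this
  exact ⟨this.1.1, this.1.2, this.2⟩

theorem NTL_perm {π : ℕ} (h : π ∈ NTL) : permOK π = true := isM24_permOK (NTL_good h).1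

theorem P_inj_NTL {u v : ℕ} (hu : u ∈ NTL) (hv : v ∈ NTL) (h : P u = P v) : u = v := by
  have h1 := allL_spec (allL_spec NTL_sep u hu) v hv
  rw [(pEq_iff (NTL_perm hu) (NTL_perm hv)).mpr h] at h1
  simp only [Bool.not_true, Bool.or_false] at h1
  exact Nat.eq_of_beq_eq_true h1

noncomputable def NT : Subgroup (Equiv.Perm GolayPt) where
  carrier := P '' {π | π ∈ NTL}
  mul_mem' := by
    rintro _ _ ⟨u, hu, rfl⟩ ⟨v, hv, rfl⟩
    have okU := NTL_perm hu
    have okV := NTL_perm hv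
    exact ⟨_, (memL_iff _ _).mp (allL_spec (allL_spec NTL_mul u hu) v hv), P_pcomp okU okV⟩
  one_mem' := by
    obtain ⟨y, hy, e⟩ := memP_spec (isM24_permOK idCode_spec) (fun y hy => NTL_perm hy) NTL_one
    exact ⟨y, hy, by rw [e, P_idCode]⟩
  inv_mem' := by
    rintro _ ⟨u, hu, rfl⟩
    have ok := NTL_perm hu
    have h1 := (pEq_iff (permOK_pcomp ok ok) (isM24_permOK idCode_spec)).mp (NTL_good hu).2.2
    rw [P_pcomp ok ok, P_idCode] at h1
    refine ⟨u, hu, ?_⟩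
    exact eq_inv_of_mul_eq_one_left h1

theorem mem_NT {g : Equiv.Perm GolayPt} : g ∈ NT ↔ ∃ π ∈ NTL, P π = g := Iff.rfl

theorem NT_le : NT ≤ TT := by
  rintro _ ⟨u, hu, rfl⟩
  exact ⟨P_mem_M24 (NTL_good hu).1, (trAct_spec (NTL_good hu).1 R0c_mem R0c_mem).mp (NTL_good hu).2.1⟩

theorem NT_sq {g : Equiv.Perm GolayPt} (hg : g ∈ NT) : g * g = 1 := by
  obtain ⟨π, hπ, rfl⟩ := mem_NT.mp hg
  have ok := NTL_perm hπ
  have h1 := (pEq_iff (permOK_pcomp ok ok) (isM24_permOK idCode_spec)).mp (NTL_good hπ).2.2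
  rwa [P_pcomp ok ok, P_idCode] at h1

theorem NT_card : Nat.card ↥NT = 64 := by
  classical
  have h1 : (NT : Set (Equiv.Perm GolayPt)) = ((NTL.toFinset.image P : Finset (Equiv.Perm GolayPt)) : Set (Equiv.Perm GolayPt)) := by
    ext x
    simp only [Finset.coe_image, List.coe_toFinset]
    rfl
  have h2 : Nat.card ↥NT = (NT : Set (Equiv.Perm GolayPt)).ncard := rfl
  rw [h2, h1, Set.ncard_coe_finset, Finset.card_image_of_injOn, List.toFinset_card_of_nodup NTL_nodup, NTL_len]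
  intro a ha b hb h
  exact P_inj_NTL (List.mem_toFinset.mp ha) (List.mem_toFinset.mp hb) h

noncomputable def NTK : Subgroup ↥TT := NT.subgroupOf TT

theorem NTK_card : Nat.card ↥NTK = 64 := by
  rw [← NT_card]
  exact Nat.card_congr (Subgroup.subgroupOfEquivOfLe NT_le).toEquiv

theorem card_GL32 : Nat.card GL32 = 168 := by
  have := Matrix.card_GL_field (𝔽 := ZMod 2) 3
  rw [this, ZMod.card]
  decide

theorem enc32_one : enc32 1 = 273 := by decide +kernel
theorem enc3p_one : enc3p 1 = 21 := by decide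

theorem TT_main : ∃ _ : NTK.Normal, Nonempty (↥TT ⧸ NTK ≃* GL32 × Equiv.Perm (Fin 3)) := by
  refine normal_of_compl NTK FT ?_ ?_ ?_
  · rintro ⟨m, σ⟩ hx
    have h1 : F1 m * F2 σ ∈ NT := hx
    obtain ⟨y, hy, e⟩ := mem_NT.mp h1
    have hm := enc32_mem m
    have hn := enc3p_mem σ
    have h2 := allL_spec (allL_spec NTL_disj _ hm) _ hn
    have h3 : memP (pcomp (T1 (enc32 m)) (T2 (enc3p σ))) NTL = true := by
      simp only [memP, List.any_eq_true]
      refine ⟨y, hy, (pEq_iff (permOK_pcomp (T1_perm hm) (T2_perm hn)) (NTL_perm hy)).mpr ?_⟩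
      rw [P_pcomp (T1_perm hm) (T2_perm hn), e]
      rfl
    rw [h3] at h2
    simp only [Bool.not_true, Bool.false_or, Bool.and_eq_true] at h2
    have h4 : m = 1 := enc32_inj ((Nat.eq_of_beq_eq_true h2.1).trans enc32_one.symm)
    have h5 : σ = 1 := enc3p_inj _ _ ((Nat.eq_of_beq_eq_true h2.2).trans enc3p_one.symm)
    rw [h4, h5]
    rfl
  · rintro ⟨m, σ⟩ ⟨n, hnT⟩ hn
    have hn' : n ∈ NT := hn
    show F1 m * F2 σ * n * (F1 m * F2 σ)⁻¹ ∈ NT
    have hm := enc32_mem m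
    have hs := enc3p_mem σ
    have key2 : ∀ n' ∈ NT, F2 σ * n' * (F2 σ)⁻¹ ∈ NT := by
      intro n' hn'
      obtain ⟨u, hu, rfl⟩ := mem_NT.mp hn'
      refine ⟨_, (memL_iff _ _).mp (allL_spec (allL_spec NTL_c2 _ hs) u hu), ?_⟩
      rw [P_pcomp (permOK_pcomp (T2_perm hs) (NTL_perm hu)) (permOK_pinv (T2_perm hs)),
        P_pcomp (T2_perm hs) (NTL_perm hu), P_pinv (T2_perm hs)]
      rfl
    have key1 : ∀ n' ∈ NT, F1 m * n' * (F1 m)⁻¹ ∈ NT := by
      intro n' hn'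
      obtain ⟨u, hu, rfl⟩ := mem_NT.mp hn'
      refine ⟨_, (memL_iff _ _).mp (allL_spec (allL_spec NTL_c1 _ hm) u hu), ?_⟩
      rw [P_pcomp (permOK_pcomp (T1_perm hm) (NTL_perm hu)) (permOK_pinv (T1_perm hm)),
        P_pcomp (T1_perm hm) (NTL_perm hu), P_pinv (T1_perm hm)]
      rfl
    have h3 := key1 _ (key2 n hn')
    have e : F1 m * F2 σ * n * (F1 m * F2 σ)⁻¹ = F1 m * (F2 σ * n * (F2 σ)⁻¹) * (F1 m)⁻¹ := by group
    rw [e]
    exact h3
  · rw [NTK_card, Nat.card_prod, card_GL32, TT_card]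
    rw [Nat.card_perm, Nat.card_eq_fintype_card, Fintype.card_fin]
    rfl

/-! ### Permutations of the octads -/

noncomputable def oct (i : Fin 3) : Finset GolayPt := fs (fld R0c i)

theorem oct_mem (i : Fin 3) : oct i ∈ tr R0c := by
  refine mem_tr.mpr ⟨fld R0c i, ?_, rfl⟩
  fin_cases i <;> simp [trF]

theorem oct_inj : Function.Injective oct := by
  intro i j h
  have h1 : fld R0c i = fld R0c j := fs_injOn (fld_lt _ _) (fld_lt _ _) h
  have key : ∀ i j : Fin 3, fld R0c i = fld R0c j → i = j := by decide +kernel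
  exact key i j h1

theorem oct_surj {t : Finset GolayPt} (ht : t ∈ tr R0c) : ∃ i, oct i = t := by
  obtain ⟨m, hm, rfl⟩ := mem_tr.mp ht
  simp only [trF, List.mem_cons, List.not_mem_nil, or_false] at hm
  rcases hm with rfl | rfl | rfl
  · exact ⟨0, rfl⟩
  · exact ⟨1, rfl⟩
  · exact ⟨2, rfl⟩

noncomputable def eT (h : Equiv.Perm GolayPt) : Fin 3 ≃ ↥(h • tr R0c) :=
  Equiv.ofBijective (fun i => ⟨h • oct i, Finset.smul_mem_smul_finset (oct_mem i)⟩) (by
    constructor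
    · intro i j e
      have h1 : h • oct i = h • oct j := congrArg Subtype.val e
      exact oct_inj (MulAction.injective h h1)
    · rintro ⟨t, ht⟩
      obtain ⟨t0, ht0, rfl⟩ := Finset.mem_smul_finset.mp ht
      obtain ⟨i, rfl⟩ := oct_surj ht0
      exact ⟨i, rfl⟩)

theorem F2_oct (σ : Equiv.Perm (Fin 3)) (i : Fin 3) : F2 σ • oct i = oct (σ i) := by
  have hs := enc3p_mem σ
  rw [F2_apply, oct, ← fs_am (T2_perm hs), (T2_good hs).2.2 i i.2, ap3_enc]
  rfl

noncomputable def conjT {h : Equiv.Perm GolayPt} (hh : h ∈ M24) (σ : Equiv.Perm (Fin 3)) :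
    ↥(MulAction.stabilizer M24 (h • tr R0c)) :=
  (TT_equiv hh).symm ⟨F2 σ, T2_mem (enc3p_mem σ)⟩

theorem phiT_surj {h : Equiv.Perm GolayPt} (hh : h ∈ M24) : Function.Surjective (phiF (h • tr R0c)) := by
  refine phiF_surj (n := 1) (eT h) (conjT hh (finRotate 3)) (conjT hh (Equiv.swap 0 1)) ?_ ?_
  · intro i
    show (h * F2 (finRotate 3) * h⁻¹) • (h • oct i) = h • oct (finRotate 3 i)
    rw [mul_smul, mul_smul, inv_smul_smul, F2_oct]
  · intro i
    show (h * F2 (Equiv.swap 0 1) * h⁻¹) • (h • oct i) = h • oct (Equiv.swap 0 1 i)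
    rw [mul_smul, mul_smul, inv_smul_smul, F2_oct]

theorem main_trio {h : Equiv.Perm GolayPt} (hh : h ∈ M24) :
    ∃ (N : Subgroup ↥(MulAction.stabilizer M24 (h • tr R0c))) (_ : N.Normal), Nat.card N = 64 ∧ (∀ x ∈ N, x * x = 1) ∧
      Nonempty (↥(MulAction.stabilizer M24 (h • tr R0c)) ⧸ N ≃* GL (Fin 3) (ZMod 2) × Equiv.Perm (Fin 3)) := by
  obtain ⟨h1, h2⟩ := TT_main
  refine transport_quot₂ (TT_equiv hh) NTK NTK_card ?_ h2
  rintro ⟨x, hxT⟩ hx
  apply Subtype.ext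
  exact NT_sq hx

end Cfsg.Agent.H07.Orb
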