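import Mathlib
import Cfsg.Prelude.Def_SporadicCombinatorics

set_option autoImplicit false

namespace Cfsg.Agent.H07.Hexa

open Cfsg Finset

/-- Model of the field of order 4: `0, 1, 2 = ω, 3 = ω²`. -/
abbrev K := Fin 4

def kmul (a b : K) : K :=
  (![![0,0,0,0],![0,1,2,3],![0,2,3,1],![0,3,1,2]] : Fin 4 → Fin 4 → Fin 4) a b

def kadd (a b : K) : K :=
  (![![0,1,2,3],![1,0,3,2],![2,3,0,1],![3,2,1,0]] : Fin 4 → Fin 4 → Fin 4) a b

/-- Generators of the code in the model. -/
def v1 : Fin 6 → K := ![2,3,3,2,3,2]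
def v2 : Fin 6 → K := ![3,2,2,3,3,2]
def v3 : Fin 6 → K := ![3,2,3,2,2,3]

abbrev P3 := K × K × K

def enc (t : P3) (i : Fin 6) : K :=
  kadd (kadd (kmul t.1 (v1 i)) (kmul t.2.1 (v2 i))) (kmul t.2.2 (v3 i))

def wt (t : P3) : ℕ := (univ.filter fun i => enc t i ≠ 0).card

theorem wt4_card : (univ.filter fun t : P3 => wt t = 4).card = 45 := by decide +kernel
theorem wt6_card : (univ.filter fun t : P3 => wt t = 6).card = 18 := by decide +kernel
theorem wt_cases : ∀ t : P3, t ≠ (0, 0, 0) → wt t = 4 ∨ wt t = 6 := by decide +kernel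
theorem enc_zero : ∀ i, enc ((0, 0, 0) : P3) i = 0 := by decide +kernel

/-- Information set: recover the parameters from the word. -/
theorem enc_inj : ∀ t t' : P3, (enc t 0 = enc t' 0 ∧ enc t 1 = enc t' 1 ∧ enc t 2 = enc t' 2) → t = t' := by
  decide +kernel

section field

variable {F : Type*} [Field F] [Fintype F] (hF : Fintype.card F = 4) (ω : F) (hω : ω ^ 2 + ω + 1 = 0)

include hF in
theorem two_eq_zero : (2 : F) = 0 := by
  obtain ⟨p, hp⟩ := CharP.exists F
  obtain ⟨n, hprime, hcard⟩ := FiniteField.card F p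
  have hp2 : p = 2 := by
    rw [hF] at hcard
    have h1 : p ∣ 2 ^ 2 := by
      rw [show (2:ℕ) ^ 2 = 4 by norm_num, hcard]
      exact dvd_pow_self p n.ne_zero
    exact (Nat.prime_dvd_prime_iff_eq hprime Nat.prime_two).mp (hprime.dvd_of_dvd_pow h1)
  subst hp2
  exact_mod_cast CharP.cast_eq_zero F 2

/-- The identification with `F`. -/
def phi (ω : F) (a : K) : F := ![0, 1, ω, ω + 1] a

include hF hω in
theorem omega_sq : ω ^ 2 = ω + 1 := by
  have h2 := two_eq_zero hF
  linear_combination hω - (ω + 1) * h2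

include hF in
theorem phi_add (a b : K) : phi ω (kadd a b) = phi ω a + phi ω b := by
  have h2 := two_eq_zero hF
  fin_cases a <;> fin_cases b <;> simp [phi, kadd] <;> grind

include hF hω in
theorem phi_mul (a b : K) : phi ω (kmul a b) = phi ω a * phi ω b := by
  have h2 := two_eq_zero hF
  fin_cases a <;> fin_cases b <;> simp [phi, kmul] <;> grind

include hF hω in
theorem phi_injective : Function.Injective (phi ω) := by
  have h2 := two_eq_zero hF
  have h1 : (1 : F) ≠ 0 := one_ne_zero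
  have hw0 : ω ≠ 0 := by
    rintro rfl
    simp at hω
  have hw1 : ω ≠ 1 := by
    rintro rfl
    apply h1
    linear_combination hω - h2
  have hw2 : ω + 1 ≠ 0 := by
    intro h
    apply h1
    have : ω = 1 := by linear_combination h - h2
    exact absurd this hw1
  intro a b hab
  fin_cases a <;> fin_cases b <;> simp [phi] at hab ⊢ <;> grind

include hF hω in
theorem phi_surjective : Function.Surjective (phi ω) := by
  have := phi_injective hF ω hω
  exact (Fintype.bijective_iff_injective_and_card _).mpr ⟨this, by simp [hF]⟩ |>.2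

theorem phi_zero : phi ω 0 = 0 := rfl
theorem phi_one : phi ω 1 = 1 := rfl

include hF hω in
theorem phi_ne_zero {a : K} : phi ω a ≠ 0 ↔ a ≠ 0 := by
  rw [not_iff_not]
  constructor
  · intro h
    apply phi_injective hF ω hω
    rw [h, phi_zero]
  · rintro rfl
    exact phi_zero ω

/-- The word in `F`. -/
def encF (ω : F) (t : P3) (i : Fin 6) : F := phi ω (enc t i)

include hF hω in
theorem v1_eq : (![ω, ω ^ 2, ω ^ 2, ω, ω ^ 2, ω] : Fin 6 → F) = fun i => phi ω (v1 i) := by
  have h := omega_sq hF ω hω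
  funext i
  fin_cases i <;> simp [phi, v1, h]

include hF hω in
theorem v2_eq : (![ω ^ 2, ω, ω, ω ^ 2, ω ^ 2, ω] : Fin 6 → F) = fun i => phi ω (v2 i) := by
  have h := omega_sq hF ω hω
  funext i
  fin_cases i <;> simp [phi, v2, h]

include hF hω in
theorem v3_eq : (![ω ^ 2, ω, ω ^ 2, ω, ω, ω ^ 2] : Fin 6 → F) = fun i => phi ω (v3 i) := by
  have h := omega_sq hF ω hω
  funext i
  fin_cases i <;> simp [phi, v3, h]

include hF hω in
/-- Hexacode words are the words `encF t`. -/
theorem mem_hexacode_iff (x : Fin 6 → F) : x ∈ hexacode F ω ↔ ∃ t : P3, x = encF ω t := by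
  have hsurj := phi_surjective hF ω hω
  unfold hexacode
  rw [show ({![ω, ω ^ 2, ω ^ 2, ω, ω ^ 2, ω], ![ω ^ 2, ω, ω, ω ^ 2, ω ^ 2, ω],
    ![ω ^ 2, ω, ω ^ 2, ω, ω, ω ^ 2]} : Set (Fin 6 → F)) = {![ω, ω ^ 2, ω ^ 2, ω, ω ^ 2, ω]} ∪ {![ω ^ 2, ω, ω, ω ^ 2, ω ^ 2, ω],
    ![ω ^ 2, ω, ω ^ 2, ω, ω, ω ^ 2]} from rfl, Submodule.span_union, Submodule.mem_sup]
  rw [v1_eq hF ω hω, v2_eq hF ω hω, v3_eq hF ω hω]
  constructor
  · rintro ⟨y, hy, z, hz, rfl⟩
    obtain ⟨a, rfl⟩ := Submodule.mem_span_singleton.mp hy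
    obtain ⟨b, c, rfl⟩ := Submodule.mem_span_pair.mp hz
    obtain ⟨a', rfl⟩ := hsurj a
    obtain ⟨b', rfl⟩ := hsurj b
    obtain ⟨c', rfl⟩ := hsurj c
    refine ⟨(a', b', c'), ?_⟩
    funext i
    simp only [Pi.add_apply, Pi.smul_apply, smul_eq_mul, encF, enc, phi_add hF, phi_mul hF ω hω]
    ring
  · rintro ⟨⟨a, b, c⟩, rfl⟩
    refine ⟨phi ω a • (fun i => phi ω (v1 i)), Submodule.smul_mem _ _ (Submodule.mem_span_singleton_self _),
      phi ω b • (fun i => phi ω (v2 i)) + phi ω c • (fun i => phi ω (v3 i)), ?_, ?_⟩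
    · exact Submodule.mem_span_pair.mpr ⟨_, _, rfl⟩
    · funext i
      simp only [Pi.add_apply, Pi.smul_apply, smul_eq_mul, encF, enc, phi_add hF, phi_mul hF ω hω]
      ring

include hF hω in
theorem encF_injective : Function.Injective (encF ω) := by
  intro t t' h
  have hi := phi_injective hF ω hω
  exact enc_inj t t' ⟨hi (congrFun h 0), hi (congrFun h 1), hi (congrFun h 2)⟩

include hF hω in
theorem support_encF (t : P3) [DecidableEq F] :
    (univ.filter fun i => encF ω t i ≠ 0).card = wt t := by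
  unfold wt encF
  congr 1
  ext i
  simp [phi_ne_zero hF ω hω]

end field

end Cfsg.Agent.H07.Hexa
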