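import Mathlib
import Cfsg.Prelude.Def_SporadicCombinatorics
import Cfsg.Agent.Lib.H07.Hexa

set_option autoImplicit false
set_option maxRecDepth 100000

set_option linter.unusedSectionVars false

namespace Cfsg.Agent.H07.Hexa

open Cfsg Finset

/-- Solve for the parameters from the first three coordinates. -/
def solve (y0 y1 y2 : K) : P3 :=
  (kadd (kadd (kmul 2 y0) (kmul 3 y1)) (kmul 0 y2),
   kadd (kadd (kmul 3 y0) (kmul 3 y1)) (kmul 1 y2),
   kadd (kadd (kmul 0 y0) (kmul 1 y1)) (kmul 1 y2))

theorem solve_enc : ∀ t : P3, solve (enc t 0) (enc t 1) (enc t 2) = t := by decide +kernel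

def inC (y : Fin 6 → K) : Prop := ∀ i, y i = enc (solve (y 0) (y 1) (y 2)) i

instance (y : Fin 6 → K) : Decidable (inC y) := by unfold inC; infer_instance

theorem inC_iff (y : Fin 6 → K) : inC y ↔ ∃ t, y = enc t := by
  constructor
  · intro h
    exact ⟨_, funext h⟩
  · rintro ⟨t, rfl⟩ i
    rw [solve_enc]

/-- Table of lifts of even permutations. -/
def liftTbl : List (ℕ × ℕ) := [(1870,1365),(1895,4089),(1935,2733),(2045,1365),(2120,2733),(2140,4089),(2265,4089),(2285,2733),(2360,1365),(2470,2733),(2510,4089),(2535,1365),(2945,3669),(2985,1977),(3010,2541),(3310,3669),(3395,2541),(3445,1977),(3515,1977),(3595,2541),(3645,3669),(3735,2541),(3790,1977),(3835,3669),(4210,2901),(4265,1725),(4310,3561),(4385,2901),(4495,3561),(4510,1725),(4820,1725),(4835,3561),(4945,2901),(5020,3561),(5065,1725),(5120,2901),(5495,2937),(5540,3741),(5595,1509),(5685,2937),(5735,1509),(5815,3741),(5885,3741),(5935,1509),(6020,2937),(6320,1509),(6345,3741),(6385,2937),(6795,2925),(6820,3801),(6860,1461),(6970,2925),(7045,1461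),(7065,3801),(7190,3801),(7210,1461),(7285,2925),(7395,1461),(7435,3801),(7460,2925),(8345,1365),(8385,4089),(8410,2733),(8530,1365),(8585,2733),(8630,4089),(8735,4089),(8780,2733),(8835,1365),(8955,2733),(8980,4089),(9020,1365),(10510,2901),(10535,2937),(10575,2925),(11045,2901),(11190,2925),(11200,2937),(11265,2937),(11345,2925),(11430,2901),(11470,2925),(11580,2937),(11595,2901),(11765,3669),(11840,3741),(11860,3801),(12130,3669),(12245,3801),(12300,3741),(12545,3741),(12630,3801),(12710,3669),(12770,3801),(12820,3741),(12900,3669),(13065,1977),(13085,1725),(13160,1461),(13415,1977),(13530,1461),(13575,1725),(13640,1725),(13685,1461),(13800,1977),(14055,1461),(14130,1725),(14150,1977),(14350,2541),(14390,3561),(14415,1509),(14715,2541),(14800,1509),(14850,3561),(14920,3561),(15000,1509),(15050,2541),(15140,1509),(15195,3561),(15240,2541),(15910,3669),(15935,1977),(15975,2541),(16265,3669),(16375,2541),(16390,1977),(16485,1977),(16535,2541),(16615,3669),(16690,2541),(16765,1977),(16785,3669),(16985,2901),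(17025,2937),(17050,2925),(17530,2901),(17645,2925),(17700,2937),(17735,2937),(17850,2925),(17895,2901),(17955,2925),(18040,2937),(18090,2901),(19510,1365),(19595,1509),(19645,1461),(19685,1365),(19830,1461),(19840,1509),(20335,1509),(20345,1461),(20490,1365),(20530,1461),(20580,1509),(20665,1365),(20795,4089),(20875,3561),(20925,3801),(20985,4089),(21065,3801),(21150,3561),(21395,3561),(21450,3801),(21565,4089),(21835,3801),(21855,3561),(21930,4089),(22095,2733),(22150,1725),(22195,3741),(22270,2733),(22380,3741),(22395,1725),(22705,1725),(22720,3741),(22830,2733),(22905,3741),(22950,1725),(23005,2733),(23645,2901),(23720,1725),(23740,3561),(23830,2901),(23915,3561),(23965,1725),(24245,1725),(24295,3561),(24380,2901),(24470,3561),(24490,1725),(24565,2901),(24730,3669),(24785,3741),(24830,3801),(25085,3669),(25230,3801),(25240,3741),(25520,3741),(25565,3801),(25680,3669),(25720,3801),(25800,3741),(25850,3669),(25985,1365),(26095,1509),(26110,1461),(26170,1365),(26285,1461),(26340,1509),(26795,1509),(26850,14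61),(26965,1365),(27025,1461),(27040,1509),(27150,1365),(28580,2733),(28595,2541),(28705,2925),(28745,2733),(28830,2925),(28910,2541),(28975,2541),(28985,2925),(29130,2733),(29600,2925),(29640,2541),(29665,2733),(29860,4089),(29905,1977),(29960,2937),(30050,4089),(30100,2937),(30180,1977),(30250,1977),(30300,2937),(30385,4089),(30685,2937),(30710,1977),(30750,4089),(31425,2937),(31445,3741),(31520,1509),(31595,2937),(31675,1509),(31725,3741),(31820,3741),(31835,1509),(31945,2937),(32235,1509),(32275,3741),(32300,2937),(32495,1977),(32540,1725),(32595,1461),(32865,1977),(32945,1461),(33030,1725),(33065,1725),(33150,1461),(33230,1977),(33500,1461),(33555,1725),(33600,1977),(33765,4089),(33815,3561),(33895,3801),(33935,4089),(34050,3801),(34095,3561),(34375,3561),(34385,3801),(34530,4089),(34785,3801),(34830,3561),(34885,4089),(35045,2733),(35095,2541),(35180,2925),(35240,2733),(35285,2925),(35400,2541),(35435,2541),(35490,2925),(35605,2733),(36085,2925),(36110,2541),(36150,2733),(37640,1365),(37665,3669),(3770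5,2901),(37815,1365),(37890,2901),(37910,3669),(38035,3669),(38055,2901),(38130,1365),(38240,2901),(38280,3669),(38305,1365),(39190,2925),(39230,3801),(39255,1461),(39375,2925),(39430,1461),(39475,3801),(39580,3801),(39625,1461),(39680,2925),(39800,1461),(39825,3801),(39865,2925),(40275,2541),(40300,3561),(40340,1509),(40630,2541),(40740,1509),(40755,3561),(40850,3561),(40900,1509),(40980,2541),(41055,1509),(41130,3561),(41150,2541),(41530,2733),(41605,1725),(41625,3741),(41715,2733),(41800,3741),(41850,1725),(42130,1725),(42180,3741),(42265,2733),(42355,3741),(42375,1725),(42450,2733),(42830,4089),(42850,1977),(42925,2937),(43000,4089),(43080,2937),(43130,1977),(43225,1977),(43240,2937),(43350,4089),(43640,2937),(43680,1977),(43705,4089),(44115,1365),(44155,3669),(44180,2901),(44300,1365),(44355,2901),(44400,3669),(44505,3669),(44550,2901),(44605,1365),(44725,2901),(44750,3669),(44790,1365)]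

def permKey (σ : Equiv.Perm (Fin 6)) : ℕ :=
  (σ 0).val + 6 * (σ 1).val + 36 * (σ 2).val + 216 * (σ 3).val + 1296 * (σ 4).val + 7776 * (σ 5).val

def liftOf (σ : Equiv.Perm (Fin 6)) (i : Fin 6) : K :=
  Fin.ofNat 4 ((((liftTbl.lookup (permKey σ)).getD 0) / 4 ^ i.val) % 4)

def chk (σ : Equiv.Perm (Fin 6)) (d : Fin 6 → K) : Prop :=
  inC (fun i => kmul (d i) (v1 (σ.symm i))) ∧ inC (fun i => kmul (d i) (v2 (σ.symm i))) ∧
    inC (fun i => kmul (d i) (v3 (σ.symm i)))

instance (σ : Equiv.Perm (Fin 6)) (d : Fin 6 → K) : Decidable (chk σ d) := by unfold chk; infer_instance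

set_option maxHeartbeats 0 in
theorem even_lifts : ∀ σ : Equiv.Perm (Fin 6), Equiv.Perm.sign σ = 1 → (∀ i, liftOf σ i ≠ 0) ∧ chk σ (liftOf σ) := by
  decide +kernel

abbrev Tup := K × K × K × K × K × K

def dOf (t : Tup) : Fin 6 → K := ![t.1, t.2.1, t.2.2.1, t.2.2.2.1, t.2.2.2.2.1, t.2.2.2.2.2]

theorem no_swap : ∀ t : Tup, (∀ i, dOf t i ≠ 0) → ¬ chk (Equiv.swap 0 1) (dOf t) := by
  decide +kernel

theorem support_pair : ∀ p q : Fin 6, ∃ t : P3, wt t = 4 ∧ enc t p ≠ 0 ∧ enc t q ≠ 0 := by
  decide +kernel

section field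

variable {F : Type*} [Field F] [Fintype F] [DecidableEq F] (hF : Fintype.card F = 4) (ω : F) (hω : ω ^ 2 + ω + 1 = 0)

/-- Monomial maps preserving the hexacode. -/
def Mon (ω : F) (σ : Equiv.Perm (Fin 6)) (c : Fin 6 → Fˣ) : Prop :=
  ∀ x ∈ hexacode F ω, monomialMap σ c x ∈ hexacode F ω

include hF hω in
theorem mem_phi (y : Fin 6 → K) : (fun i => phi ω (y i)) ∈ hexacode F ω ↔ inC y := by
  rw [mem_hexacode_iff hF ω hω, inC_iff]
  constructor
  · rintro ⟨t, ht⟩
    refine ⟨t, funext fun i => phi_injective hF ω hω ?_⟩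
    exact congrFun ht i
  · rintro ⟨t, rfl⟩
    exact ⟨t, rfl⟩

include hF hω in
theorem mon_of_gens (σ : Equiv.Perm (Fin 6)) (c : Fin 6 → Fˣ) (d : Fin 6 → K)
    (hd : ∀ i, (c i : F) = phi ω (d i)) : Mon ω σ c ↔ chk σ d := by
  have key : ∀ v : Fin 6 → K, monomialMap σ c (fun i => phi ω (v i)) =
      fun i => phi ω (kmul (d i) (v (σ.symm i))) := by
    intro v
    funext i
    simp only [monomialMap, hd, phi_mul hF ω hω]
  have hv1 : (fun i => phi ω (v1 i)) ∈ hexacode F ω := by
    rw [← v1_eq hF ω hω]
    exact Submodule.subset_span (by simp)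
  have hv2 : (fun i => phi ω (v2 i)) ∈ hexacode F ω := by
    rw [← v2_eq hF ω hω]
    exact Submodule.subset_span (by simp)
  have hv3 : (fun i => phi ω (v3 i)) ∈ hexacode F ω := by
    rw [← v3_eq hF ω hω]
    exact Submodule.subset_span (by simp)
  constructor
  · intro h
    refine ⟨?_, ?_, ?_⟩
    · rw [← mem_phi hF ω hω, ← key]; exact h _ hv1
    · rw [← mem_phi hF ω hω, ← key]; exact h _ hv2
    · rw [← mem_phi hF ω hω, ← key]; exact h _ hv3
  · rintro ⟨h1, h2, h3⟩ x hx
    rw [← mem_phi hF ω hω, ← key] at h1 h2 h3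
    unfold hexacode at hx h1 h2 h3 ⊢
    induction hx using Submodule.span_induction with
    | mem x hx =>
      simp only [Set.mem_insert_iff, Set.mem_singleton_iff] at hx
      rcases hx with rfl | rfl | rfl
      · rw [congrArg (monomialMap σ c) (v1_eq hF ω hω)]; exact h1
      · rw [congrArg (monomialMap σ c) (v2_eq hF ω hω)]; exact h2
      · rw [congrArg (monomialMap σ c) (v3_eq hF ω hω)]; exact h3
    | zero =>
      have : monomialMap σ c (0 : Fin 6 → F) = 0 := by
        funext i; simp [monomialMap]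
      rw [this]; exact Submodule.zero_mem _
    | add x y _ _ hx hy =>
      have : monomialMap σ c (x + y) = monomialMap σ c x + monomialMap σ c y := by
        funext i; simp [monomialMap, mul_add]
      rw [this]; exact Submodule.add_mem _ hx hy
    | smul a x _ hx =>
      have : monomialMap σ c (a • x) = a • monomialMap σ c x := by
        funext i; simp [monomialMap]; ring
      rw [this]; exact Submodule.smul_mem _ _ hx

theorem mon_mul {σ τ : Equiv.Perm (Fin 6)} {c d : Fin 6 → Fˣ} (h : Mon ω σ c) (h' : Mon ω τ d) :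
    Mon ω (σ * τ) (fun i => c i * d (σ.symm i)) := by
  intro x hx
  have := h _ (h' x hx)
  have e : monomialMap (σ * τ) (fun i => c i * d (σ.symm i)) x = monomialMap σ c (monomialMap τ d x) := by
    funext i
    simp only [monomialMap, Units.val_mul, mul_assoc]
    rfl
  rw [e]
  exact this

theorem mon_smul {σ : Equiv.Perm (Fin 6)} {c : Fin 6 → Fˣ} (h : Mon ω σ c) (a : Fˣ) :
    Mon ω σ (fun i => a * c i) := by
  intro x hx
  have e : monomialMap σ (fun i => a * c i) x = (a : F) • monomialMap σ c x := by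
    funext i
    simp [monomialMap, mul_assoc]
  rw [e]
  exact Submodule.smul_mem _ _ (h x hx)

theorem mon_one : Mon ω 1 (fun _ => (1 : Fˣ)) := by
  intro x hx
  have e : monomialMap 1 (fun _ => (1 : Fˣ)) x = x := by
    funext i
    simp [monomialMap]
    rfl
  rw [e]; exact hx

include hF hω in
theorem eq_zero_of_small {z : Fin 6 → F} (hz : z ∈ hexacode F ω)
    (h : (univ.filter fun i => z i ≠ 0).card < 4) : z = 0 := by
  obtain ⟨t, rfl⟩ := (mem_hexacode_iff hF ω hω z).mp hz
  rw [support_encF hF ω hω] at h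
  by_cases ht : t = (0, 0, 0)
  · subst ht
    funext i
    simp [encF, enc_zero, phi_zero]
  · rcases wt_cases t ht with h' | h' <;> omega

include hF hω in
/-- Two lifts of the same permutation differ by a scalar. -/
theorem ratio {σ : Equiv.Perm (Fin 6)} {c c' : Fin 6 → Fˣ} (h : Mon ω σ c) (h' : Mon ω σ c')
    (p q : Fin 6) : (c' p : F) * c q = c' q * c p := by
  obtain ⟨t, ht, hp, hq⟩ := support_pair (σ.symm p) (σ.symm q)
  set x := encF ω t with hxdef
  have hx : x ∈ hexacode F ω := (mem_hexacode_iff hF ω hω x).mpr ⟨t, rfl⟩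
  have hxp : x (σ.symm p) ≠ 0 := (phi_ne_zero hF ω hω).mpr hp
  have hxq : x (σ.symm q) ≠ 0 := (phi_ne_zero hF ω hω).mpr hq
  have hcp : (c p : F) ≠ 0 := (c p).ne_zero
  have hcq : (c q : F) ≠ 0 := (c q).ne_zero
  set a : F := (c' p : F) / c p with ha
  set z : Fin 6 → F := monomialMap σ c' x - a • monomialMap σ c x with hz
  have hzmem : z ∈ hexacode F ω :=
    Submodule.sub_mem _ (h' x hx) (Submodule.smul_mem _ _ (h x hx))
  have hzr : ∀ r, z r = (c' r - a * c r) * x (σ.symm r) := by
    intro r
    simp only [hz, Pi.sub_apply, Pi.smul_apply, smul_eq_mul, monomialMap]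
    ring
  have hzp : z p = 0 := by
    rw [hzr, ha]
    field_simp
    ring
  have hsub : (univ.filter fun i => z i ≠ 0) ⊆ ((univ.filter fun i => x i ≠ 0).image σ).erase p := by
    intro r hr
    have hr' := (mem_filter.mp hr).2
    rw [mem_erase]
    refine ⟨fun hrp => hr' (hrp ▸ hzp), ?_⟩
    refine mem_image.mpr ⟨σ.symm r, mem_filter.mpr ⟨mem_univ _, fun h0 => hr' ?_⟩, by simp⟩
    rw [hzr, h0, mul_zero]
  have hcard : (univ.filter fun i => z i ≠ 0).card < 4 := by
    have h1 := card_le_card hsub
    have h2 : ((univ.filter fun i => x i ≠ 0).image σ).card = 4 := by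
      rw [card_image_of_injective _ σ.injective, hxdef, support_encF hF ω hω, ht]
    rw [card_erase_of_mem, h2] at h1
    · omega
    · exact mem_image.mpr ⟨σ.symm p, mem_filter.mpr ⟨mem_univ _, hxp⟩, by simp⟩
  have hz0 := eq_zero_of_small hF ω hω hzmem hcard
  have hzq : (c' q - a * c q) * x (σ.symm q) = 0 := by
    rw [← hzr, hz0]; rfl
  have h3 : (c' q : F) = a * c q := by
    have := (mul_eq_zero.mp hzq).resolve_right hxq
    exact sub_eq_zero.mp this
  rw [h3, ha]
  field_simp

include hF hω in
theorem diag_const (c : Fin 6 → Fˣ) (h : Mon ω 1 c) (i j : Fin 6) : c i = c j := by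
  have := ratio hF ω hω (mon_one ω) h i j
  simp only [Units.val_one, mul_one] at this
  exact Units.ext this

include hF hω in
theorem even_mon (σ : Equiv.Perm (Fin 6)) (hσ : Equiv.Perm.sign σ = 1) : ∃ c, Mon ω σ c := by
  obtain ⟨h0, hchk⟩ := even_lifts σ hσ
  refine ⟨fun i => Units.mk0 (phi ω (liftOf σ i)) ((phi_ne_zero hF ω hω).mpr (h0 i)), ?_⟩
  exact (mon_of_gens hF ω hω σ _ (liftOf σ) (fun i => rfl)).mpr hchk

include hF hω in
theorem swap_not_mon (c : Fin 6 → Fˣ) : ¬ Mon ω (Equiv.swap 0 1) c := by
  intro h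
  have hsurj := phi_surjective hF ω hω
  choose e he using fun i => hsurj (c i : F)
  have hd : ∀ i, (c i : F) = phi ω (e i) := fun i => (he i).symm
  have hchk := (mon_of_gens hF ω hω _ c e hd).mp h
  have he' : e = dOf (e 0, e 1, e 2, e 3, e 4, e 5) := by
    funext i
    fin_cases i <;> rfl
  rw [he'] at hchk
  refine no_swap _ ?_ hchk
  rw [← he']
  intro i h0
  have := hd i
  rw [h0, phi_zero] at this
  exact (c i).ne_zero this

include hF hω in
theorem mon_iff_even (σ : Equiv.Perm (Fin 6)) : (∃ c, Mon ω σ c) ↔ Equiv.Perm.sign σ = 1 := by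
  constructor
  · rintro ⟨c, hc⟩
    by_contra hodd
    have hs : Equiv.Perm.sign σ = -1 := by
      rcases Int.units_eq_one_or (Equiv.Perm.sign σ) with h | h
      · exact absurd h hodd
      · exact h
    set t : Equiv.Perm (Fin 6) := Equiv.swap 0 1 with ht
    have hts : Equiv.Perm.sign t = -1 := Equiv.Perm.sign_swap (by decide)
    have heven : Equiv.Perm.sign (σ⁻¹ * t) = 1 := by
      rw [map_mul, map_inv, hs, hts]; decide
    obtain ⟨c', hc'⟩ := even_mon hF ω hω _ heven
    have := mon_mul ω hc hc'
    rw [mul_inv_cancel_left] at this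
    exact swap_not_mon hF ω hω _ this
  · exact even_mon hF ω hω σ

end field

end Cfsg.Agent.H07.Hexa
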