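import Mathlib
import Cfsg.Agent.Lib.H07.MatC
import Cfsg.Agent.Lib.H07.SimpleT2

/-!
# Identifying a presented group with a concrete matrix group
-/

set_option autoImplicit false

namespace Cfsg.Agent.H07.Ident

open Cfsg.Agent.H07.Coset Cfsg.Agent.H07.SimpleT Cfsg.Agent.H07.MatC

noncomputable section

/-- The abstract identification. -/
theorem iso_of_data {P H G : Type*} [Group P] [Group H] [Group G] [Finite P] {n M : ℕ}
    (α : P →* H) (hα : Function.Surjective α) (β : P →* G) (hβ : Function.Surjective β)
    (ρ : P →* Equiv.Perm (Fin n)) (hfact : ∀ p, β p = 1 → ρ p = 1)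
    (hP : Nat.card P ≤ M) (hρ : M ≤ Nat.card ρ.range) (hH : M ≤ Nat.card H) : Nonempty (H ≃* G) := by
  obtain ⟨-, hinj⟩ := card_and_inj ρ hP hρ
  have hβi : Function.Injective β := by
    rw [injective_iff_map_eq_one]
    intro p hp
    apply hinj
    rw [hfact p hp, map_one]
  have hαb : Function.Bijective α := hα.bijective_of_nat_card_le (le_trans hP hH)
  exact ⟨(MulEquiv.ofBijective α hαb).symm.trans (MulEquiv.ofBijective β ⟨hβi, hβ⟩)⟩

/-- A central element of a group with trivial center modulo the center. -/
theorem rhoT_trans_rk {α : Type*} [DecidableEq α] {rels : Set (FreeGroup α)} {T : ℕ → ℕ → ℕ} {col : α → Bool → ℕ}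
    {n : ℕ} [NeZero n] (hb : ∀ x c, ∀ i, i < n → T i (col x c) < n)
    (hi : ∀ x c, ∀ i, i < n → T (T i (col x c)) (col x (!c)) = i)
    (hrel : ∀ r ∈ rels, ∀ i, i < n → walk T i (wordOf col r.toWord) = i) (rk : ℕ → ℕ)
    (hdesc : ∀ i, 0 < i → i < n → ∃ x c, rk (T i (col x c)) < rk i) (i : Fin n) :
    ∃ g, rhoT hb hi hrel g 0 = i := by
  obtain ⟨i, hin⟩ := i
  induction hk : rk i using Nat.strong_induction_on generalizing i with
  | _ k IH =>
    by_cases hi0 : i = 0
    · subst hi0
      exact ⟨1, by simp⟩
    · obtain ⟨x, c, hlt⟩ := hdesc i (by omega) hin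
      obtain ⟨g, hg⟩ := IH _ (by omega) _ (hb x c i hin) rfl
      refine ⟨(PresentedGroup.mk rels (cond c (FreeGroup.of x) (FreeGroup.of x)⁻¹)) * g, ?_⟩
      rw [map_mul, Equiv.Perm.mul_apply, hg]
      refine Fin.ext ?_
      rw [rhoT_mk]
      cases c
      · have : ((FreeGroup.of x)⁻¹ : FreeGroup α).toWord = [(x, false)] := by
          rw [FreeGroup.toWord_inv, FreeGroup.toWord_of]
          rfl
        simp only [cond_false, this, wordOf, List.reverse_cons, List.reverse_nil, List.nil_append,
          List.map_cons, List.map_nil, walk_cons, walk_nil]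
        exact hi x false i hin
      · have : (FreeGroup.of x : FreeGroup α).toWord = [(x, true)] := FreeGroup.toWord_of x
        simp only [cond_true, this, wordOf, List.reverse_cons, List.reverse_nil, List.nil_append,
          List.map_cons, List.map_nil, walk_cons, walk_nil]
        exact hi x true i hin

/-- The word of a relator of involutions. -/
theorem lift_eq_prod {α G : Type*} [DecidableEq α] [Group G] (f : α → G) (hf : ∀ x, f x * f x = 1) (r : FreeGroup α) :
    FreeGroup.lift f r = (r.toWord.map (fun p => f p.1)).prod := by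
  conv_lhs => rw [← FreeGroup.mk_toWord (x := r)]
  rw [FreeGroup.lift_mk]
  congr 1
  apply List.map_congr_left
  rintro ⟨x, b⟩ -
  cases b with
  | true => rfl
  | false =>
    show (f x)⁻¹ = f x
    exact inv_eq_of_mul_eq_one_left (hf x)

/-- The factorisation through an action on objects. -/
theorem fact_of_objects {P G X : Type*} [Group P] [Group G] {n : ℕ} (β : P →* G) (ρ : P →* Equiv.Perm (Fin n))
    (act : G →* Equiv.Perm X) (obj : Fin n → X) (hinj : Function.Injective obj) (gens : Set P)
    (hgen : Subgroup.closure gens = ⊤)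
    (hint : ∀ p ∈ gens, ∀ i, act (β p) (obj i) = obj (ρ p i)) :
    ∀ p, β p = 1 → ρ p = 1 := by
  let S : Subgroup P :=
    { carrier := {p | ∀ i, act (β p) (obj i) = obj (ρ p i)}
      mul_mem' := by
        intro a b ha hb i
        rw [map_mul, map_mul, Equiv.Perm.mul_apply, hb, ha, map_mul, Equiv.Perm.mul_apply]
      one_mem' := by
        intro i
        simp
      inv_mem' := by
        intro a ha i
        have h := ha (ρ a⁻¹ i)
        have h2 : ρ a (ρ a⁻¹ i) = i := by
          rw [← Equiv.Perm.mul_apply, ← map_mul, mul_inv_cancel, map_one]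
          rfl
        rw [h2] at h
        rw [← h, ← Equiv.Perm.mul_apply, ← map_mul, ← map_mul, inv_mul_cancel, map_one, map_one]
        rfl }
  have hS : S = ⊤ := by
    rw [eq_top_iff, ← hgen, Subgroup.closure_le]
    exact fun p hp => hint p hp
  intro p hp
  have hpS : p ∈ S := by
    rw [hS]
    exact Subgroup.mem_top p
  ext i
  have h1 := hpS i
  rw [hp, map_one, Equiv.Perm.one_apply] at h1
  have h2 := hinj h1
  rw [← h2]
  rfl

section GLsec

variable {F : Type*} [Field F] {b : ℕ} (E : Enc F b) {ι : Type*} [Fintype ι] [DecidableEq ι] {m : ℕ} (e : ι ≃ Fin m)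

/-- The matrix of a packed number, on the index type. -/
def matI (A : ℕ) : Matrix ι ι F := (matOf E m A).submatrix e e

/-- The vector of a packed number, on the index type. -/
def vecI (v : ℕ) : ι → F := vecOf E m v ∘ e

theorem matI_mulVec (A v : ℕ) :
    (matI E e A).mulVec (vecI E e v) = vecI E e (mvC b E.addN E.mulN m A v) := by
  unfold matI vecI
  rw [vecOf_mvC, Matrix.submatrix_mulVec_equiv]
  have : (vecOf E m v ∘ e) ∘ e.symm = vecOf E m v := by
    ext i
    simp
  rw [this]

/-- The action of the general linear group on vectors. -/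
def glPerm : Matrix.GeneralLinearGroup ι F →* Equiv.Perm (ι → F) where
  toFun g :=
    { toFun := fun v => g.1.mulVec v
      invFun := fun v => (g⁻¹).1.mulVec v
      left_inv := by
        intro v
        show (g⁻¹).1.mulVec (g.1.mulVec v) = v
        rw [Matrix.mulVec_mulVec]
        have : (g⁻¹).1 * g.1 = 1 := by
          rw [← Units.val_mul, inv_mul_cancel]
          rfl
        rw [this, Matrix.one_mulVec]
      right_inv := by
        intro v
        show g.1.mulVec ((g⁻¹).1.mulVec v) = v
        rw [Matrix.mulVec_mulVec]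
        have : g.1 * (g⁻¹).1 = 1 := by
          rw [← Units.val_mul, mul_inv_cancel]
          rfl
        rw [this, Matrix.one_mulVec] }
  map_one' := by
    ext v i
    show ((1 : Matrix.GeneralLinearGroup ι F).1.mulVec v) i = v i
    rw [Units.val_one, Matrix.one_mulVec]
  map_mul' g h := by
    ext v i
    show ((g * h).1.mulVec v) i = (g.1.mulVec (h.1.mulVec v)) i
    rw [Units.val_mul, Matrix.mulVec_mulVec]

theorem glPerm_apply (g : Matrix.GeneralLinearGroup ι F) (v : ι → F) : glPerm g v = g.1.mulVec v := rfl

variable {α : Type*} (code : α → ℕ) (hinv : ∀ x, matI E e (code x) * matI E e (code x) = 1)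

/-- The letter of the general linear group. -/
def letGL (x : α) : Matrix.GeneralLinearGroup ι F :=
  ⟨matI E e (code x), matI E e (code x), hinv x, hinv x⟩

theorem letGL_sq (x : α) : letGL E e code hinv x * letGL E e code hinv x = 1 := by
  apply Units.ext
  exact hinv x

theorem letGL_prod (w : List α) :
    ((w.map (letGL E e code hinv)).prod).1 = ((w.map (fun x => matOf E m (code x))).prod).submatrix e e := by
  induction w with
  | nil =>
    simp
  | cons x w ih =>
    rw [List.map_cons, List.prod_cons, Units.val_mul, ih, List.map_cons, List.prod_cons]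
    show (matOf E m (code x)).submatrix e e * _ = _
    rw [Matrix.submatrix_mul_equiv]

theorem prodFrom_val (L0 : ℕ) (hL0 : (matOf E m L0 : Matrix (Fin m) (Fin m) F) = 1) (w : List α) :
    (matOf E m (prodFrom b E.addN E.mulN m L0 (w.map code)) : Matrix (Fin m) (Fin m) F) =
      (w.map (fun x => matOf E m (code x))).prod := by
  rw [matOf_prodFrom, hL0, one_mul, List.map_map]
  rfl

theorem letGL_prod_eq (L0 : ℕ) (hL0 : (matOf E m L0 : Matrix (Fin m) (Fin m) F) = 1) (w : List α) (C : ℕ)
    (h : Nat.beq (prodFrom b E.addN E.mulN m L0 (w.map code)) C = true) :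
    ((w.map (letGL E e code hinv)).prod).1 = matI E e C := by
  rw [letGL_prod, ← prodFrom_val E code L0 hL0, Nat.eq_of_beq_eq_true h]
  rfl

theorem letGL_prod_one (L0 : ℕ) (hL0 : (matOf E m L0 : Matrix (Fin m) (Fin m) F) = 1) (w : List α)
    (h : isIdC b m (prodFrom b E.addN E.mulN m L0 (w.map code)) = true) (hd : E.dec 1 = 1) :
    (w.map (letGL E e code hinv)).prod = 1 := by
  apply Units.ext
  rw [letGL_prod, ← prodFrom_val E code L0 hL0, matOf_of_isId E m _ h hd]
  rw [Matrix.submatrix_one_equiv]
  rfl

theorem glPerm_letGL (x : α) (v : ℕ) :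
    glPerm (letGL E e code hinv x) (vecI E e v) = vecI E e (mvC b E.addN E.mulN m (code x) v) := by
  rw [glPerm_apply, ← matI_mulVec]
  rfl

/-- Uniqueness of the digits. -/
theorem enc_congr (f g : ℕ → ℕ) (n : ℕ) (h : ∀ k, k < n → f k = g k) : enc b f n = enc b g n := by
  induction n with
  | zero => rfl
  | succ n ih =>
    rw [enc_succ, enc_succ, ih (fun k hk => h k (Nat.lt_succ_of_lt hk)), h n (Nat.lt_succ_self n)]

/-- A canonical packed vector. -/
def canonV (b m q v : ℕ) : Bool :=
  Nat.beq (enc b (rd b v) m) v && (List.range m).all (fun k => Nat.blt (rd b v k) q)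

omit [Fintype ι] [DecidableEq ι] in
theorem vecI_inj (q : ℕ) (hq : ∀ x y, x < q → y < q → E.dec x = E.dec y → x = y) (v w : ℕ)
    (hv : canonV b m q v = true) (hw : canonV b m q w = true) (h : vecI E e v = vecI E e w) : v = w := by
  unfold canonV at hv hw
  rw [Bool.and_eq_true, List.all_eq_true] at hv hw
  have h1 : ∀ k, k < m → rd b v k = rd b w k := by
    intro k hk
    have h2 := congrFun h (e.symm ⟨k, hk⟩)
    simp only [vecI, Function.comp, Equiv.apply_symm_apply] at h2
    exact hq _ _ (blt_lt (hv.2 k (List.mem_range.mpr hk))) (blt_lt (hw.2 k (List.mem_range.mpr hk))) h2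
  rw [← Nat.eq_of_beq_eq_true hv.1, ← Nat.eq_of_beq_eq_true hw.1]
  exact enc_congr _ _ _ h1

end GLsec

end

end Cfsg.Agent.H07.Ident
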