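import Mathlib
import Cfsg.Agent.Lib.H07.TT3

/-!
# A faithful transitive permutation representation, seen from its image
-/

set_option autoImplicit false

namespace Cfsg.Agent.H07.TT3

variable {G : Type*} [Group G] {n : ℕ} [NeZero n]

theorem rep_pretrans (ρ : G →* Equiv.Perm (Fin n)) (htrans : ∀ i : Fin n, ∃ g, ρ g 0 = i) :
    MulAction.IsPretransitive ρ.range (Fin n) := by
  refine ⟨fun x y => ?_⟩
  obtain ⟨g, hg⟩ := htrans x
  obtain ⟨k, hk⟩ := htrans y
  refine ⟨⟨ρ (k * g⁻¹), ⟨_, rfl⟩⟩, ?_⟩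
  show ρ (k * g⁻¹) x = y
  rw [← hg, map_mul, map_inv, Equiv.Perm.mul_apply]
  show ρ k ((ρ g)⁻¹ (ρ g 0)) = y
  rw [show (ρ g)⁻¹ (ρ g 0) = 0 from Equiv.symm_apply_apply _ _, hk]

theorem rep_stab [Finite G] (ρ : G →* Equiv.Perm (Fin n)) (hinj : Function.Injective ρ)
    (htrans : ∀ i : Fin n, ∃ g, ρ g 0 = i) (S : Subgroup G) (hfix : ∀ h ∈ S, ρ h 0 = 0)
    (hindex : S.index = n) : Nonempty (S ≃* MulAction.stabilizer ρ.range (0 : Fin n)) := by
  let f : S →* MulAction.stabilizer ρ.range (0 : Fin n) :=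
    { toFun := fun s => ⟨⟨ρ s, ⟨s, rfl⟩⟩, hfix s s.2⟩
      map_one' := by
        apply Subtype.ext
        apply Subtype.ext
        show ρ ((1 : S) : G) = 1
        simp
      map_mul' := fun x y => by
        apply Subtype.ext
        apply Subtype.ext
        show ρ ((x * y : S) : G) = ρ x * ρ y
        simp }
  refine ⟨MulEquiv.ofBijective f ⟨?_, ?_⟩⟩
  · intro x y hxy
    have h1 : ρ (x : G) = ρ (y : G) := congrArg (fun z : MulAction.stabilizer ρ.range (0 : Fin n) => (z.1 : Equiv.Perm (Fin n))) hxy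
    exact Subtype.ext (hinj h1)
  · rintro ⟨⟨p, ⟨g, rfl⟩⟩, hg⟩
    have hg0 : ρ g 0 = 0 := hg
    exact ⟨⟨g, stab_eq ρ S htrans hfix hindex g hg0⟩, rfl⟩

/-- The image of a faithful representation of a simple group is simple of the same order. -/
theorem rep_simple (ρ : G →* Equiv.Perm (Fin n)) (hinj : Function.Injective ρ) (hs : IsSimpleGroup G) :
    IsSimpleGroup ρ.range ∧ Nat.card ρ.range = Nat.card G := by
  let e : G ≃* ρ.range := MonoidHom.ofInjective hinj
  exact ⟨e.symm.isSimpleGroup, (Nat.card_congr e.toEquiv).symm⟩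

end Cfsg.Agent.H07.TT3
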