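import Mathlib
import Cfsg.Prelude.Def_SporadicCombinatorics

set_option autoImplicit false

namespace Cfsg.Agent.H07.Ternary

open Cfsg

/-- Parameters of a word of the code. -/
abbrev T : Type := ZMod 3 × ZMod 3 × ZMod 3 × ZMod 3 × ZMod 3 × ZMod 3

/-- Position in the `4 × 3` array. -/
def idx (p : ArrayPt) : ℕ := 3 * p.1.val + p.2.val

/-- The basis table: the last vector corresponds to the scalar `s`. -/
def tbl : List (List (ZMod 3)) :=
  [[2,2,2,1,1,1,0,0,0,0,0,0],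
   [0,1,2,1,2,0,2,1,0,0,0,0],
   [2,1,0,2,1,0,2,0,1,0,0,0],
   [0,2,1,1,2,0,0,0,0,2,1,0],
   [2,0,1,2,1,0,0,0,0,2,0,1],
   [1,2,2,2,0,0,2,0,0,2,0,0]]

/-- The word with parameters `c`. -/
def enc (c : T) (p : ArrayPt) : ZMod 3 :=
  match tbl, c with
  | [b0, b1, b2, b3, b4, b5], (c0, c1, c2, c3, c4, c5) =>
      c0 * b0.getD (idx p) 0 + c1 * b1.getD (idx p) 0 + c2 * b2.getD (idx p) 0 +
      c3 * b3.getD (idx p) 0 + c4 * b4.getD (idx p) 0 + c5 * b5.getD (idx p) 0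
  | _, _ => 0

theorem sum_zmod3 (f : ZMod 3 → ZMod 3) : ∑ r : ZMod 3, f r = f 0 + f 1 + f 2 := by
  exact Fin.sum_univ_three f

theorem sum_fin4 (f : Fin 4 → ZMod 3) : ∑ i : Fin 4, f i = f 0 + f 1 + f 2 + f 3 :=
  Fin.sum_univ_four f

theorem mem_tetracode_iff (t : Fin 4 → ZMod 3) :
    t ∈ tetracode ↔ ∃ a b : ZMod 3, t = ![b, a, a + b, a + 2 * b] := by
  unfold tetracode
  rw [Submodule.mem_span_pair]
  constructor
  · rintro ⟨a, b, rfl⟩
    refine ⟨a, b, ?_⟩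
    ext i
    fin_cases i <;> simp <;> ring
  · rintro ⟨a, b, rfl⟩
    refine ⟨a, b, ?_⟩
    ext i
    fin_cases i <;> simp <;> ring

theorem enc_cols : ∀ (c : T) (i : Fin 4),
    enc c (i, 0) + enc c (i, 1) + enc c (i, 2) = - c.2.2.2.2.2 := by
  decide +kernel

theorem enc_tetra : ∀ (c : T) (a b : ZMod 3),
    enc c (0, b) + enc c (1, a) + enc c (2, a + b) + enc c (3, a + 2 * b) = c.2.2.2.2.2 := by
  decide +kernel

theorem enc_mem (c : T) : enc c ∈ ternaryGolayCode := by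
  refine ⟨c.2.2.2.2.2, fun i => ?_, fun t ht => ?_⟩
  · rw [sum_zmod3]
    exact enc_cols c i
  · obtain ⟨a, b, rfl⟩ := (mem_tetracode_iff t).mp ht
    rw [sum_fin4]
    exact enc_tetra c a b

theorem enc_info : ∀ c : T, enc c (1, 2) = c.1 ∧ enc c (2, 1) = c.2.1 ∧ enc c (2, 2) = c.2.2.1 ∧
    enc c (3, 1) = c.2.2.2.1 ∧ enc c (3, 2) = c.2.2.2.2.1 := by
  decide +kernel

theorem enc_col0 : ∀ c : T, - (enc c (0, 0) + enc c (0, 1) + enc c (0, 2)) = c.2.2.2.2.2 := by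
  decide +kernel

/-- A word of the code is determined by the parameters. -/
theorem exists_enc {x : ArrayPt → ZMod 3} (hx : x ∈ ternaryGolayCode) : ∃ c : T, x = enc c := by
  obtain ⟨s, hcol, htet⟩ := hx
  refine ⟨(x (1, 2), x (2, 1), x (2, 2), x (3, 1), x (3, 2), s), ?_⟩
  set c : T := (x (1, 2), x (2, 1), x (2, 2), x (3, 1), x (3, 2), s) with hc
  obtain ⟨s', hcol', htet'⟩ := enc_mem c
  have hs' : s' = s := by
    have h1 := hcol' 0
    rw [sum_zmod3] at h1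
    have h2 := enc_col0 c
    have h3 : c.2.2.2.2.2 = s := rfl
    rw [← h3, ← h2, h1]
    ring
  subst hs'
  obtain ⟨i1, i2, i3, i4, i5⟩ := enc_info c
  have hi1 : enc c (1, 2) = x (1, 2) := i1
  have hi2 : enc c (2, 1) = x (2, 1) := i2
  have hi3 : enc c (2, 2) = x (2, 2) := i3
  have hi4 : enc c (3, 1) = x (3, 1) := i4
  have hi5 : enc c (3, 2) = x (3, 2) := i5
  -- the difference vanishes
  set y : ArrayPt → ZMod 3 := fun p => x p - enc c p with hy
  have col : ∀ i : Fin 4, y (i, 0) + y (i, 1) + y (i, 2) = 0 := by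
    intro i
    have h1 := hcol i
    have h2 := hcol' i
    rw [sum_zmod3] at h1 h2
    simp only [hy]
    linear_combination h1 - h2
  have tet : ∀ a b : ZMod 3, y (0, b) + y (1, a) + y (2, a + b) + y (3, a + 2 * b) = 0 := by
    intro a b
    have ht : ![b, a, a + b, a + 2 * b] ∈ tetracode := (mem_tetracode_iff _).mpr ⟨a, b, rfl⟩
    have h1 := htet _ ht
    have h2 := htet' _ ht
    rw [sum_fin4] at h1 h2
    simp only [Matrix.cons_val_zero, Matrix.cons_val_one, Matrix.cons_val] at h1 h2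
    simp only [hy]
    linear_combination h1 - h2
  have y12 : y (1, 2) = 0 := by simp [hy, hi1]
  have y21 : y (2, 1) = 0 := by simp [hy, hi2]
  have y22 : y (2, 2) = 0 := by simp [hy, hi3]
  have y31 : y (3, 1) = 0 := by simp [hy, hi4]
  have y32 : y (3, 2) = 0 := by simp [hy, hi5]
  have key : ∀ u0 u1 u2 u3 u4 u6 u9 : ZMod 3,
      u0 + u1 + u2 = 0 → u3 + u4 + 0 = 0 → u6 + 0 + 0 = 0 → u9 + 0 + 0 = 0 →
      u0 + u4 + 0 + 0 = 0 → u0 + 0 + 0 + 0 = 0 → u1 + u3 + 0 + 0 = 0 →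
      u0 = 0 ∧ u1 = 0 ∧ u2 = 0 ∧ u3 = 0 ∧ u4 = 0 ∧ u6 = 0 ∧ u9 = 0 := by
    intro u0 u1 u2 u3 u4 u6 u9 h1 h2 h3 h4 h5 h6 h7
    simp only [add_zero] at h2 h3 h4 h5 h6 h7
    subst h3 h4 h6
    simp only [zero_add] at h5 h1
    subst h5
    simp only [add_zero] at h2
    subst h2
    simp only [add_zero] at h7
    subst h7
    simp only [zero_add] at h1
    subst h1
    simp
  have c0 := col 0
  have c1 := col 1
  have c2 := col 2
  have c3 := col 3
  rw [y12] at c1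
  rw [y21, y22] at c2
  rw [y31, y32] at c3
  -- tetracode words (0,1,1,1), (0,2,2,2), (1,0,1,2)
  have t1 := tet 1 0
  have t2 := tet 2 0
  have t3 := tet 0 1
  have e1 : (1 + 0 : ZMod 3) = 1 := by decide
  have e2 : (1 + 2 * 0 : ZMod 3) = 1 := by decide
  have e3 : (2 + 0 : ZMod 3) = 2 := by decide
  have e4 : (2 + 2 * 0 : ZMod 3) = 2 := by decide
  have e5 : (0 + 1 : ZMod 3) = 1 := by decide
  have e6 : (0 + 2 * 1 : ZMod 3) = 2 := by decide
  rw [e1, e2, y21, y31] at t1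
  rw [e3, e4, y12, y22, y32] at t2
  rw [e5, e6, y21, y32] at t3
  obtain ⟨z0, z1, z2, z3, z4, z6, z9⟩ := key _ _ _ _ _ _ _ c0 c1 c2 c3 t1 t2 t3
  funext p
  have hzero : y p = 0 := by
    obtain ⟨i, r⟩ := p
    revert i r
    have : ∀ (i : Fin 4) (r : ZMod 3), (i, r) = ((0 : Fin 4), (0 : ZMod 3)) ∨ (i, r) = ((0 : Fin 4), (1 : ZMod 3)) ∨
        (i, r) = ((0 : Fin 4), (2 : ZMod 3)) ∨ (i, r) = ((1 : Fin 4), (0 : ZMod 3)) ∨
        (i, r) = ((1 : Fin 4), (1 : ZMod 3)) ∨ (i, r) = ((1 : Fin 4), (2 : ZMod 3)) ∨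
        (i, r) = ((2 : Fin 4), (0 : ZMod 3)) ∨ (i, r) = ((2 : Fin 4), (1 : ZMod 3)) ∨
        (i, r) = ((2 : Fin 4), (2 : ZMod 3)) ∨ (i, r) = ((3 : Fin 4), (0 : ZMod 3)) ∨
        (i, r) = ((3 : Fin 4), (1 : ZMod 3)) ∨ (i, r) = ((3 : Fin 4), (2 : ZMod 3)) := by
      decide +kernel
    intro i r
    rcases this i r with h | h | h | h | h | h | h | h | h | h | h | h <;> rw [h] <;> assumption
  have := sub_eq_zero.mp hzero
  exact this

/-- The code is exactly the range of `enc`. -/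
theorem mem_code_iff (x : ArrayPt → ZMod 3) : x ∈ ternaryGolayCode ↔ ∃ c : T, x = enc c :=
  ⟨exists_enc, fun ⟨c, hc⟩ => hc ▸ enc_mem c⟩

theorem enc_injective : Function.Injective enc := by
  intro c c' h
  have h1 := enc_info c
  have h2 := enc_info c'
  have h3 := enc_col0 c
  have h4 := enc_col0 c'
  rw [h] at h1 h3
  obtain ⟨a1, a2, a3, a4, a5⟩ := h1
  obtain ⟨b1, b2, b3, b4, b5⟩ := h2
  have e1 := a1.symm.trans b1
  have e2 := a2.symm.trans b2
  have e3 := a3.symm.trans b3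
  have e4 := a4.symm.trans b4
  have e5 := a5.symm.trans b5
  have e6 := h3.symm.trans h4
  obtain ⟨c0, c1, c2, c3, c4, c5⟩ := c
  obtain ⟨d0, d1, d2, d3, d4, d5⟩ := c'
  simp only at e1 e2 e3 e4 e5 e6
  subst e1 e2 e3 e4 e5 e6
  rfl

/-- Weights as a computable function. -/
def wt (c : T) : ℕ := (ternarySupport (enc c)).card

theorem wt_table0 : (Finset.univ.filter fun c : T => wt c = 6).card = 264 := by decide +kernel
theorem wt_table1 : (Finset.univ.filter fun c : T => wt c = 9).card = 440 := by decide +kernel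
theorem wt_table2 : (Finset.univ.filter fun c : T => wt c = 12).card = 24 := by decide +kernel
theorem wt_table3 : ∀ c : T, c ≠ 0 → wt c = 6 ∨ wt c = 9 ∨ wt c = 12 := by decide +kernel

end Cfsg.Agent.H07.Ternary
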