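import Mathlib
import Cfsg.Prelude.Def_SporadicCombinatorics
import Cfsg.Agent.Lib.H07.Ternary

set_option autoImplicit false

namespace Cfsg.Agent.H07.Ternary

open Cfsg Finset

theorem min_wt {x : ArrayPt → ZMod 3} (hx : x ∈ ternaryGolayCode) (hne : x ≠ 0) :
    6 ≤ (ternarySupport x).card := by
  obtain ⟨c, rfl⟩ := exists_enc hx
  have hc : c ≠ 0 := by
    rintro rfl
    apply hne
    funext p
    have : ∀ p : ArrayPt, enc (0 : T) p = 0 := by decide +kernel
    exact this p
  rcases wt_table3 c hc with h | h | h <;> · change (ternarySupport (enc c)).card = _ at h; omega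

theorem eq_zero_of_small {x : ArrayPt → ZMod 3} (hx : x ∈ ternaryGolayCode)
    (h : (ternarySupport x).card < 6) : x = 0 := by
  by_contra hne
  have := min_wt hx hne
  omega

theorem mem_support {α : Type*} [Fintype α] [DecidableEq α] (x : α → ZMod 3) (p : α) :
    p ∈ ternarySupport x ↔ x p ≠ 0 := by
  simp [ternarySupport]

private theorem zmod3_cases : ∀ a b : ZMod 3, a ≠ 0 → b ≠ 0 → a = b ∨ a = -b := by decide

/-- Two weight-6 words whose supports share at least 5 points agree up to sign. -/
theorem pair_lemma {x y : ArrayPt → ZMod 3} (hx : x ∈ ternaryGolayCode) (hy : y ∈ ternaryGolayCode)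
    (hxw : (ternarySupport x).card = 6) (hyw : (ternarySupport y).card = 6)
    (hi : 5 ≤ (ternarySupport x ∩ ternarySupport y).card) : y = x ∨ y = -x := by
  classical
  set I := ternarySupport x ∩ ternarySupport y with hI
  set A := I.filter (fun p => x p = y p) with hA
  set B := I.filter (fun p => ¬ x p = y p) with hB
  have hAB : A.card + B.card = I.card := by
    rw [hA, hB]; exact card_filter_add_card_filter_not _
  have hU : (ternarySupport x ∪ ternarySupport y).card + I.card = 12 := by
    rw [hI, card_union_add_card_inter, hxw, hyw]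
  have hB' : ∀ p ∈ B, x p = - y p := by
    intro p hp
    obtain ⟨hpI, hne⟩ := mem_filter.mp hp
    obtain ⟨h1, h2⟩ := mem_inter.mp hpI
    rcases zmod3_cases _ _ ((mem_support _ _).mp h1) ((mem_support _ _).mp h2) with h | h
    · exact absurd h hne
    · exact h
  have hU12 : (ternarySupport x ∪ ternarySupport y).card ≤ 7 := by omega
  have hAI : A ⊆ ternarySupport x ∪ ternarySupport y := by
    intro p hp
    exact mem_union_left _ (mem_inter.mp (mem_filter.mp hp).1).1
  have hBI : B ⊆ ternarySupport x ∪ ternarySupport y := by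
    intro p hp
    exact mem_union_left _ (mem_inter.mp (mem_filter.mp hp).1).1
  by_cases h3 : 3 ≤ A.card
  · left
    have hz : x - y ∈ ternaryGolayCode := ternaryGolayCode.sub_mem hx hy
    have hsub : ternarySupport (x - y) ⊆ (ternarySupport x ∪ ternarySupport y) \ A := by
      intro p hp
      have hp' := (mem_support _ _).mp hp
      simp only [Pi.sub_apply, sub_ne_zero] at hp'
      simp only [mem_sdiff, mem_union, mem_support]
      constructor
      · by_contra hcon
        push Not at hcon
        exact hp' (by rw [hcon.1, hcon.2])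
      · intro hA'
        exact hp' (mem_filter.mp hA').2
    have hcard : (ternarySupport (x - y)).card < 6 := by
      have := card_le_card hsub
      rw [card_sdiff_of_subset hAI] at this
      omega
    have := eq_zero_of_small hz hcard
    exact (sub_eq_zero.mp this).symm
  · right
    have h3' : 3 ≤ B.card := by omega
    have hz : x + y ∈ ternaryGolayCode := ternaryGolayCode.add_mem hx hy
    have hsub : ternarySupport (x + y) ⊆ (ternarySupport x ∪ ternarySupport y) \ B := by
      intro p hp
      have hp' := (mem_support _ _).mp hp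
      simp only [Pi.add_apply] at hp'
      simp only [mem_sdiff, mem_union, mem_support]
      constructor
      · by_contra hcon
        push Not at hcon
        exact hp' (by rw [hcon.1, hcon.2]; simp)
      · intro hB''
        exact hp' (by rw [hB' p hB'']; simp)
    have hcard : (ternarySupport (x + y)).card < 6 := by
      have := card_le_card hsub
      rw [card_sdiff_of_subset hBI] at this
      omega
    have := eq_zero_of_small hz hcard
    funext p
    have hp := congrFun this p
    simp only [Pi.add_apply, Pi.zero_apply, Pi.neg_apply] at hp ⊢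
    linear_combination hp

/-- All words of weight 6. -/
def hexWords : Finset (ArrayPt → ZMod 3) := (univ.filter fun c : T => wt c = 6).image enc

theorem mem_hexWords (x : ArrayPt → ZMod 3) :
    x ∈ hexWords ↔ x ∈ ternaryGolayCode ∧ (ternarySupport x).card = 6 := by
  simp only [hexWords, mem_image, mem_filter, mem_univ, true_and]
  constructor
  · rintro ⟨c, hc, rfl⟩
    exact ⟨enc_mem c, hc⟩
  · rintro ⟨hx, h⟩
    obtain ⟨c, rfl⟩ := exists_enc hx
    exact ⟨c, h, rfl⟩

theorem hexWords_card : hexWords.card = 264 := by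
  rw [hexWords, card_image_of_injective _ enc_injective]
  exact wt_table0

/-- The hexads. -/
def hexads : Finset (Finset ArrayPt) := hexWords.image ternarySupport

theorem mem_hexads (b : Finset ArrayPt) :
    b ∈ hexads ↔ ∃ x ∈ ternaryGolayCode, ternarySupport x = b ∧ b.card = 6 := by
  simp only [hexads, mem_image, mem_hexWords]
  constructor
  · rintro ⟨x, ⟨hx, h⟩, rfl⟩
    exact ⟨x, hx, rfl, h⟩
  · rintro ⟨x, hx, rfl, h⟩
    exact ⟨x, ⟨hx, h⟩, rfl⟩

theorem hexads_set :
    {h : Finset ArrayPt | ∃ x ∈ ternaryGolayCode, ternarySupport x = h ∧ h.card = 6} = ↑hexads := by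
  ext b
  simp [mem_hexads]

theorem hexads_card6 {b : Finset ArrayPt} (hb : b ∈ hexads) : b.card = 6 := by
  obtain ⟨_, _, _, h⟩ := (mem_hexads b).mp hb
  exact h

theorem hexads_uniq {b b' : Finset ArrayPt} (hb : b ∈ hexads) (hb' : b' ∈ hexads)
    (h : 5 ≤ (b ∩ b').card) : b = b' := by
  obtain ⟨x, hx, rfl, hxc⟩ := (mem_hexads b).mp hb
  obtain ⟨y, hy, rfl, hyc⟩ := (mem_hexads b').mp hb'
  rcases pair_lemma hx hy hxc hyc h with rfl | rfl
  · rfl
  · ext p
    simp [mem_support]

/-- In characteristic 3 a nonzero word differs from its negative. -/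
private theorem neg_ne_self {x : ArrayPt → ZMod 3} (hx : x ≠ 0) : x ≠ -x := by
  intro h
  apply hx
  funext p
  have hp := congrFun h p
  simp only [Pi.neg_apply, Pi.zero_apply] at hp ⊢
  have key : ∀ a : ZMod 3, a = -a → a = 0 := by decide
  exact key _ hp

theorem card_of_two_fibers {α β : Type*} [DecidableEq β] (W : Finset α) (f : α → β) (F : Finset β)
    (hF : ∀ x ∈ W, f x ∈ F) (h2 : ∀ b ∈ F, (W.filter fun x => f x = b).card = 2) : W.card = F.card * 2 := by
  have h : W.card = ∑ b ∈ F, (W.filter fun x => f x = b).card :=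
    card_eq_sum_card_fiberwise (fun x hx => mem_coe.mpr (hF x (mem_coe.mp hx)))
  rw [sum_congr rfl h2, sum_const, smul_eq_mul] at h
  exact h

theorem hexads_card : hexads.card = 132 := by
  have h := card_of_two_fibers hexWords ternarySupport hexads
    (fun x hx => (mem_hexads _).mpr ⟨x, ((mem_hexWords x).mp hx).1, rfl, ((mem_hexWords x).mp hx).2⟩) ?_
  · rw [hexWords_card] at h
    omega
  · intro b hb
    obtain ⟨x, hx, rfl, hxc⟩ := (mem_hexads b).mp hb
    have hne : x ≠ 0 := by
      rintro rfl
      simp [ternarySupport] at hxc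
    have : (hexWords.filter fun y => ternarySupport y = ternarySupport x) = {x, -x} := by
      ext y
      simp only [mem_filter, mem_insert, mem_singleton, mem_hexWords]
      constructor
      · rintro ⟨⟨hy, hyc⟩, hsup⟩
        refine pair_lemma hx hy hxc hyc ?_
        rw [hsup, inter_self, hxc]
        omega
      · rintro (rfl | rfl)
        · exact ⟨⟨hx, hxc⟩, rfl⟩
        · have hs : ternarySupport (-x) = ternarySupport x := by
            ext p; simp [mem_support]
          exact ⟨⟨ternaryGolayCode.neg_mem hx, by rw [hs]; exact hxc⟩, hs⟩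
    rw [this, card_pair (neg_ne_self hne)]

theorem exists_block_of_count {α : Type*} [Fintype α] [DecidableEq α] (H : Finset (Finset α)) (t k : ℕ)
    (hk : ∀ b ∈ H, b.card = k) (huniq : ∀ b ∈ H, ∀ b' ∈ H, t ≤ (b ∩ b').card → b = b')
    (hcount : (Fintype.card α).choose t ≤ H.card * k.choose t) (s : Finset α) (hs : s.card = t) :
    ∃ b ∈ H, s ⊆ b := by
  set P := H.biUnion fun b => powersetCard t b with hP
  have hPcard : P.card = H.card * k.choose t := by
    rw [hP, card_biUnion]
    · rw [sum_congr rfl (fun b hb => by rw [card_powersetCard, hk b hb])]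
      rw [sum_const, smul_eq_mul]
    · intro b hb b' hb' hne
      rw [Function.onFun, disjoint_left]
      intro u hu hu'
      obtain ⟨h1, h2⟩ := mem_powersetCard.mp hu
      obtain ⟨h3, h4⟩ := mem_powersetCard.mp hu'
      apply hne
      apply huniq b hb b' hb'
      calc t = u.card := h2.symm
        _ ≤ _ := card_le_card (subset_inter h1 h3)
  have hsub : P ⊆ powersetCard t univ := by
    intro u hu
    obtain ⟨b, _, hub⟩ := mem_biUnion.mp hu
    obtain ⟨_, h2⟩ := mem_powersetCard.mp hub
    exact mem_powersetCard.mpr ⟨subset_univ _, h2⟩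
  have hcard2 : (powersetCard t (univ : Finset α)).card = (Fintype.card α).choose t := by
    rw [card_powersetCard, card_univ]
  have heq : P = powersetCard t univ := eq_of_subset_of_card_le hsub (by omega)
  have hmem : s ∈ P := by rw [heq]; exact mem_powersetCard.mpr ⟨subset_univ _, hs⟩
  obtain ⟨b, hb, hsb⟩ := mem_biUnion.mp hmem
  exact ⟨b, hb, (mem_powersetCard.mp hsb).1⟩

theorem exists_hexad (s : Finset ArrayPt) (hs : s.card = 5) : ∃ b ∈ hexads, s ⊆ b := by
  refine exists_block_of_count hexads 5 6 (fun b hb => hexads_card6 hb) (fun b hb b' hb' h => hexads_uniq hb hb' h) ?_ s hs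
  rw [hexads_card]
  simp [ZMod.card, Nat.choose]

theorem steiner : IsSteinerSystem 5 6 (↑hexads : Set (Finset ArrayPt)) := by
  refine ⟨fun b hb => hexads_card6 (mem_coe.mp hb), fun s hs => ?_⟩
  obtain ⟨b, hb, hsb⟩ := exists_hexad s hs
  refine ⟨b, ⟨mem_coe.mpr hb, hsb⟩, ?_⟩
  rintro b' ⟨hb', hsb'⟩
  apply hexads_uniq (mem_coe.mp hb') hb
  calc 5 = s.card := hs.symm
    _ ≤ _ := card_le_card (subset_inter hsb' hsb)

/-- Any two points lie in a common hexad. -/
theorem exists_hexad_pair (p q : ArrayPt) : ∃ b ∈ hexads, p ∈ b ∧ q ∈ b := by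
  classical
  have h : (({p, q} : Finset ArrayPt)).card ≤ 5 := (card_le_two).trans (by norm_num)
  obtain ⟨s, hs, hsc⟩ := exists_superset_card_eq h (by simp [ZMod.card])
  obtain ⟨b, hb, hsb⟩ := exists_hexad s hsc
  exact ⟨b, hb, hsb (hs (by simp)), hsb (hs (by simp))⟩

end Cfsg.Agent.H07.Ternary
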