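import Mathlib
import Cfsg.Prelude.Def_SporadicCombinatorics
import Cfsg.Agent.Lib.H07.Ternary2
import Cfsg.Agent.S1593

set_option autoImplicit false
set_option maxRecDepth 100000

namespace Cfsg.Agent.H07.Ternary

open Cfsg Finset
open scoped Pointwise

/-! ### Monomial maps -/

/-- `(σ, c)` preserves the code. -/
def IsMono (σ : Equiv.Perm ArrayPt) (c : ArrayPt → (ZMod 3)ˣ) : Prop :=
  ∀ x ∈ ternaryGolayCode, monomialMap σ c x ∈ ternaryGolayCode

theorem mono_inj (σ : Equiv.Perm ArrayPt) (c : ArrayPt → (ZMod 3)ˣ) {x y : ArrayPt → ZMod 3}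
    (h : monomialMap σ c x = monomialMap σ c y) : x = y := by
  funext j
  have := congrFun h (σ j)
  simp only [monomialMap, Equiv.symm_apply_apply] at this
  exact (c (σ j)).isUnit.mul_left_cancel this

theorem mono_surj {σ : Equiv.Perm ArrayPt} {c : ArrayPt → (ZMod 3)ˣ} (h : IsMono σ c)
    {y : ArrayPt → ZMod 3} (hy : y ∈ ternaryGolayCode) :
    ∃ x ∈ ternaryGolayCode, monomialMap σ c x = y := by
  let φ : ternaryGolayCode → ternaryGolayCode := fun x => ⟨monomialMap σ c x, h x x.2⟩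
  have hinj : Function.Injective φ := fun a b hab =>
    Subtype.ext (mono_inj σ c (congrArg Subtype.val hab))
  obtain ⟨a, ha⟩ := Finite.surjective_of_injective hinj ⟨y, hy⟩
  exact ⟨a, a.2, congrArg Subtype.val ha⟩

theorem mono_one : IsMono 1 (fun _ => 1) := by
  intro x hx
  have : monomialMap 1 (fun _ => (1 : (ZMod 3)ˣ)) x = x := by
    funext i; simp [monomialMap]; rfl
  rwa [this]

theorem mono_mul {σ τ : Equiv.Perm ArrayPt} {c d : ArrayPt → (ZMod 3)ˣ} (h : IsMono σ c)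
    (h' : IsMono τ d) : IsMono (σ * τ) (fun i => c i * d (σ.symm i)) := by
  intro x hx
  have : monomialMap (σ * τ) (fun i => c i * d (σ.symm i)) x = monomialMap σ c (monomialMap τ d x) := by
    funext i
    simp [monomialMap, mul_assoc]
    rfl
  rw [this]
  exact h _ (h' _ hx)

theorem mono_inv {σ : Equiv.Perm ArrayPt} {c : ArrayPt → (ZMod 3)ˣ} (h : IsMono σ c) :
    IsMono σ⁻¹ (fun i => (c (σ i))⁻¹) := by
  intro y hy
  obtain ⟨x, hx, rfl⟩ := mono_surj h hy
  have : monomialMap σ⁻¹ (fun i => (c (σ i))⁻¹) (monomialMap σ c x) = x := by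
    funext i
    show (((c (σ i))⁻¹ : (ZMod 3)ˣ) : ZMod 3) * (((c (σ i)) : ZMod 3) * x (σ.symm (σ i))) = x i
    rw [Equiv.symm_apply_apply, ← mul_assoc, Units.inv_mul, one_mul]
  rwa [this]

/-- The permutation parts of the monomial automorphisms. -/
def monoG : Subgroup (Equiv.Perm ArrayPt) where
  carrier := {σ | ∃ c, IsMono σ c}
  one_mem' := ⟨_, mono_one⟩
  mul_mem' := fun ⟨_, h⟩ ⟨_, h'⟩ => ⟨_, mono_mul h h'⟩
  inv_mem' := fun ⟨_, h⟩ => ⟨_, mono_inv h⟩

theorem support_mono (σ : Equiv.Perm ArrayPt) (c : ArrayPt → (ZMod 3)ˣ) (x : ArrayPt → ZMod 3) :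
    ternarySupport (monomialMap σ c x) = σ • ternarySupport x := by
  ext i
  rw [mem_support, Finset.mem_smul_finset]
  have hu : ((c i : (ZMod 3)ˣ) : ZMod 3) ≠ 0 := (c i).ne_zero
  simp only [monomialMap, ne_eq, mul_eq_zero, hu, false_or]
  constructor
  · intro h
    exact ⟨σ.symm i, (mem_support _ _).mpr h, by simp⟩
  · rintro ⟨q, hq, rfl⟩
    have := (mem_support _ _).mp hq
    simpa using this

theorem card_smul_fs (σ : Equiv.Perm ArrayPt) (b : Finset ArrayPt) : (σ • b).card = b.card :=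
  Finset.card_smul_finset σ b

theorem mem_aut_of_maps {σ : Equiv.Perm ArrayPt} (h : ∀ b ∈ hexads, σ • b ∈ hexads) :
    σ ∈ setSystemAut (↑hexads : Set (Finset ArrayPt)) := by
  rw [MulAction.mem_stabilizer_iff]
  have himg : hexads.image (fun b => σ • b) = hexads := by
    apply eq_of_subset_of_card_le
    · intro b hb
      obtain ⟨a, ha, rfl⟩ := mem_image.mp hb
      exact h a ha
    · rw [card_image_of_injective _ (MulAction.injective σ)]
  ext b
  rw [Set.mem_smul_set]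
  constructor
  · rintro ⟨a, ha, rfl⟩
    exact mem_coe.mpr (h a (mem_coe.mp ha))
  · intro hb
    have : b ∈ hexads.image (fun b => σ • b) := by rw [himg]; exact mem_coe.mp hb
    obtain ⟨a, ha, rfl⟩ := mem_image.mp this
    exact ⟨a, mem_coe.mpr ha, rfl⟩

theorem aut_maps {σ : Equiv.Perm ArrayPt} (h : σ ∈ setSystemAut (↑hexads : Set (Finset ArrayPt)))
    {b : Finset ArrayPt} (hb : b ∈ hexads) : σ • b ∈ hexads := by
  rw [MulAction.mem_stabilizer_iff] at h
  have : σ • b ∈ σ • (↑hexads : Set (Finset ArrayPt)) := Set.smul_mem_smul_set (mem_coe.mpr hb)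
  rw [h] at this
  exact mem_coe.mp this

theorem monoG_le : monoG ≤ setSystemAut (↑hexads : Set (Finset ArrayPt)) := by
  rintro σ ⟨c, hc⟩
  apply mem_aut_of_maps
  intro b hb
  obtain ⟨x, hx, rfl, hxc⟩ := (mem_hexads b).mp hb
  rw [mem_hexads]
  refine ⟨_, hc x hx, support_mono σ c x, ?_⟩
  rw [card_smul_fs, hxc]

/-! ### Points -/

/-- Position `n` of the array. -/
def ptL : List ArrayPt :=
  [(0,0),(0,1),(0,2),(1,0),(1,1),(1,2),(2,0),(2,1),(2,2),(3,0),(3,1),(3,2)]

def pt (n : ℕ) : ArrayPt := ptL.getD n (0, 0)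

theorem pt_idx : ∀ p : ArrayPt, pt (idx p) = p := by decide +kernel

def toF (l : List ℕ) : Finset ArrayPt := (l.map pt).toFinset

def hx (F : Finset ArrayPt) (a b : ArrayPt) : Finset ArrayPt := insert a (insert b F)

def b0 : Finset ArrayPt := toF [0,1,2,3,4,5]

def five : Finset ArrayPt := toF [0,1,2,3,4]

def OL : List ℕ := [6,7,8,9,10,11]

def Fs : List (List ℕ) := [[0,1,2,3],[0,1,2,4],[0,1,2,5],[0,1,3,4],[0,1,3,5],[0,1,4,5],[0,2,3,4],[0,2,3,5],[0,2,4,5],[0,3,4,5],[1,2,3,4],[1,2,3,5],[1,2,4,5],[1,3,4,5],[2,3,4,5]]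

def parL : List ℕ := [9,11,10,6,8,7,11,10,9,8,7,6,10,9,11,7,6,8,8,9,6,7,11,10,11,8,7,10,9,6,7,6,10,11,8,9,10,8,7,11,6,9,7,6,9,8,11,10,8,11,6,10,9,7,9,10,11,6,7,8,7,6,11,10,9,8,8,10,6,11,7,9,9,8,7,6,11,10,10,11,9,8,6,7,11,9,10,7,8,6]

def witL : List T := [(0,0,0,0,0,1),(0,1,0,0,1,2),(0,0,1,1,0,2),(0,0,0,0,0,1),(0,0,1,1,0,2),(0,1,0,0,1,2),(0,0,0,0,1,2),(0,1,0,1,0,2),(0,0,1,0,0,2),(0,0,1,0,0,2),(0,1,0,1,0,2),(0,0,0,0,1,2),(1,0,0,1,0,2),(1,1,0,0,0,2),(1,0,1,0,1,2),(1,1,0,0,0,2),(1,0,0,1,0,2),(1,0,1,0,1,2),(0,0,1,0,0,0),(0,1,0,0,0,2),(0,0,1,0,0,0),(0,1,0,0,0,2),(0,0,0,1,2,0),(0,0,0,1,2,0),(1,0,0,0,2,1),(1,2,1,0,0,0),(1,2,1,0,0,0),(1,0,0,1,0,0),(1,0,0,1,0,0),(1,0,0,0,2,1),(1,2,0,0,0,0),(1,2,0,0,0,0),(1,0,2,2,0,1),(1,0,0,0,1,0),(1,0,2,2,0,1),(1,0,0,0,1,0),(0,0,0,1,0,2),(0,1,2,0,0,0),(0,1,2,0,0,0),(0,0,0,0,1,0),(0,0,0,1,0,2),(0,0,0,0,1,0),(1,1,0,0,0,0),(1,1,0,0,0,0),(1,0,2,0,0,1),(1,0,2,0,0,1),(1,0,0,2,1,0),(1,0,0,2,1,0),(1,0,1,0,0,0),(1,2,0,0,2,1),(1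,0,1,0,0,0),(1,0,0,2,0,0),(1,0,0,2,0,0),(1,2,0,0,2,1),(1,0,0,0,0,2),(1,1,0,1,0,2),(1,0,2,0,2,1),(1,0,0,0,0,2),(1,1,0,1,0,2),(1,0,2,0,2,1),(0,1,0,0,0,0),(0,1,0,0,0,0),(0,0,1,0,1,2),(0,0,0,1,0,0),(0,0,0,1,0,0),(0,0,1,0,1,2),(1,0,2,0,0,0),(1,2,0,2,0,1),(1,0,2,0,0,0),(1,0,0,0,2,0),(1,2,0,2,0,1),(1,0,0,0,2,0),(1,0,0,0,0,1),(1,1,2,0,0,0),(1,1,2,0,0,0),(1,0,0,0,0,1),(1,0,0,1,2,0),(1,0,0,1,2,0),(1,0,0,2,0,1),(1,1,0,0,1,2),(1,0,1,0,0,2),(1,0,1,0,0,2),(1,0,0,2,0,1),(1,1,0,0,1,2),(1,0,0,0,1,2),(1,2,0,0,0,1),(1,0,1,1,0,2),(1,2,0,0,0,1),(1,0,1,1,0,2),(1,0,0,0,1,2)]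

def fI (i : ℕ) : Finset ArrayPt := toF (Fs.getD i [])

def par (i x : ℕ) : ℕ := parL.getD (6 * i + (x - 6)) 0

def wit (i x : ℕ) : T := witL.getD (6 * i + (x - 6)) (0,0,0,0,0,0)

theorem wit_ok : ∀ i ∈ List.range 15, ∀ x ∈ OL,
    ternarySupport (enc (wit i x)) = hx (fI i) (pt x) (pt (par i x)) ∧
    (hx (fI i) (pt x) (pt (par i x))).card = 6 := by
  decide +kernel

theorem hex_wit {i x : ℕ} (hi : i ∈ List.range 15) (hx' : x ∈ OL) :
    hx (fI i) (pt x) (pt (par i x)) ∈ hexads := by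
  obtain ⟨h1, h2⟩ := wit_ok i hi x hx'
  exact (mem_hexads _).mpr ⟨_, enc_mem _, h1, h2⟩

theorem b0_hex : b0 ∈ hexads := by
  refine (mem_hexads _).mpr ⟨enc (1,0,0,0,0,0), enc_mem _, ?_, ?_⟩ <;> decide +kernel

theorem fI_data : ∀ i ∈ List.range 15, fI i ⊆ b0 ∧ (fI i).card = 4 := by decide +kernel

theorem OL_data : ∀ x ∈ OL, pt x ∉ b0 ∧ ∀ i ∈ List.range 15, par i x ∈ OL ∧ par i x ≠ x := by
  decide +kernel

theorem pt_inj_OL : ∀ x ∈ OL, ∀ y ∈ OL, pt x = pt y → x = y := by decide +kernel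

theorem cover_OL : ∀ p : ArrayPt, p ∈ b0 ∨ ∃ x ∈ OL, p = pt x := by decide +kernel

theorem sep_OL : ∀ x ∈ OL, ∀ s ∈ OL, s ≠ x → ∃ i ∈ List.range 15, ∃ j ∈ List.range 15,
    par i x = par j x ∧ par i s ≠ par j s := by
  decide +kernel

theorem five_card : five.card = 5 := by decide +kernel

theorem five_sub : five ⊆ b0 := by decide +kernel

theorem b0_eq : b0 = insert (pt 5) five := by decide +kernel

theorem five_iff : ∀ p ∈ five, ∃ k : Fin 5, p = pt k := by decide +kernel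

theorem pt5_notin : pt 5 ∉ five := by decide +kernel

/-- A hexad is determined by the 5-subset `insert a F`. -/
theorem hx_unique {F : Finset ArrayPt} {a z w : ArrayPt} (hF : F.card = 4) (ha : a ∉ F)
    (h1 : hx F a z ∈ hexads) (h2 : hx F a w ∈ hexads) (hz : z ∉ F) (hza : z ≠ a) : z = w := by
  have hcard : (insert a F).card = 5 := by rw [card_insert_of_notMem ha, hF]
  have hsub : insert a F ⊆ hx F a z ∩ hx F a w := by
    intro p hp
    rcases mem_insert.mp hp with rfl | hp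
    · simp [hx]
    · simp [hx, hp]
  have heq := hexads_uniq h1 h2 (by rw [← hcard]; exact card_le_card hsub)
  have hzm : z ∈ hx F a w := by rw [← heq]; simp [hx]
  simp only [hx, mem_insert] at hzm
  rcases hzm with h | h | h
  · exact absurd h hza
  · exact h
  · exact absurd h hz

theorem smul_hx {g : Equiv.Perm ArrayPt} {F : Finset ArrayPt} (hF : ∀ p ∈ F, g p = p) (a b : ArrayPt) :
    g • hx F a b = hx F (g a) (g b) := by
  ext p
  rw [Finset.mem_smul_finset]
  simp only [hx, mem_insert, Equiv.Perm.smul_def]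
  constructor
  · rintro ⟨q, hq | hq | hq, rfl⟩
    · left; rw [hq]
    · right; left; rw [hq]
    · right; right; rw [hF q hq]; exact hq
  · rintro (rfl | rfl | hp)
    · exact ⟨a, Or.inl rfl, rfl⟩
    · exact ⟨b, Or.inr (Or.inl rfl), rfl⟩
    · exact ⟨p, Or.inr (Or.inr hp), hF p hp⟩

/-- An automorphism of the hexad system fixing five points is trivial. -/
theorem aut_fix_five {g : Equiv.Perm ArrayPt} (hg : g ∈ setSystemAut (↑hexads : Set (Finset ArrayPt)))
    (hfix : ∀ k : Fin 5, g (pt k) = pt k) : g = 1 := by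
  have hfive : ∀ p ∈ five, g p = p := by
    intro p hp
    obtain ⟨k, rfl⟩ := five_iff p hp
    exact hfix k
  -- `b0` is stabilised
  have hb0 : g • b0 = b0 := by
    apply hexads_uniq (aut_maps hg b0_hex) b0_hex
    have hsub : five ⊆ g • b0 ∩ b0 := by
      intro p hp
      refine mem_inter.mpr ⟨?_, five_sub hp⟩
      rw [Finset.mem_smul_finset]
      exact ⟨p, five_sub hp, hfive p hp⟩
    rw [← five_card]
    exact card_le_card hsub
  have hp5 : g (pt 5) = pt 5 := by
    have h1 : g (pt 5) ∈ g • b0 := by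
      rw [Finset.mem_smul_finset]
      exact ⟨pt 5, by rw [b0_eq]; simp, rfl⟩
    rw [hb0, b0_eq] at h1
    rcases mem_insert.mp h1 with h | h
    · exact h
    · exfalso
      have := hfive _ h
      have h2 := g.injective this
      rw [h2] at h
      exact pt5_notin h
  have hb0fix : ∀ p ∈ b0, g p = p := by
    intro p hp
    rw [b0_eq] at hp
    rcases mem_insert.mp hp with rfl | hp
    · exact hp5
    · exact hfive p hp
  -- outside points
  have hout : ∀ x ∈ OL, g (pt x) ∉ b0 := by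
    intro x hx' h
    have := hb0fix _ h
    have h2 := g.injective this
    rw [h2] at h
    exact (OL_data x hx').1 h
  have hOL : ∀ x ∈ OL, g (pt x) = pt x := by
    intro x hx'
    rcases cover_OL (g (pt x)) with h | ⟨s, hs, hgs⟩
    · exact absurd h (hout x hx')
    · by_cases hsx : s = x
      · rw [hgs, hsx]
      · exfalso
        obtain ⟨i, hi, j, hj, hpar, hne⟩ := sep_OL x hx' s hs hsx
        set y := par i x with hy
        have hyO : y ∈ OL := ((OL_data x hx').2 i hi).1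
        have hyx : y ≠ x := ((OL_data x hx').2 i hi).2
        have hsO := OL_data s hs
        have key : ∀ k ∈ List.range 15, par k x = y → g (pt y) = pt (par k s) := by
          intro k hk hky
          obtain ⟨hsub, hcard⟩ := fI_data k hk
          have hfixk : ∀ p ∈ fI k, g p = p := fun p hp => hb0fix p (hsub hp)
          have h1 := aut_maps hg (hex_wit hk hx')
          rw [smul_hx hfixk, hgs, hky] at h1
          have h2 := hex_wit hk hs
          refine hx_unique hcard (fun h => hsO.1 (hsub h)) h1 h2 (fun h => hout y hyO (hsub h)) ?_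
          intro h
          rw [← hgs] at h
          have := g.injective h
          exact hyx (pt_inj_OL y hyO x hx' this)
        have e1 := key i hi rfl
        have e2 := key j hj hpar.symm
        rw [e1] at e2
        exact hne (pt_inj_OL _ (hsO.2 i hi).1 _ (hsO.2 j hj).1 e2)
  refine Equiv.ext fun p => ?_
  rcases cover_OL p with h | ⟨x, hx', rfl⟩
  · exact hb0fix p h
  · exact hOL x hx'

/-! ### Chain of monomial elements -/

def wL : List ℕ := [407901468851537952,225437588310296577,337003827368657922,407301157531239939,297072982246901252,373491139509044741,406246617565955590,222516168416117767,191055942034457608,264317291791451657,151755964711765002,329508611841147915,407901468851537952,296335229793174592,385894800530409056,246351481659786880,352084782508213920,206770131566675648,947169488753214688,833563616936527104,175282244455319328,978660770834351424,871803501674055008,407901468851537952,910688878674398240,841899172779610144,981584356532900896,876906415182141984,202901995520597536,349230331891621920,946570510818436640,244490884227344416,168102351435542048,407901468851537952,295244480971409440,370816008911489056,402238882096302624,822668646445451808,783405183894571040,257066002388666912,751777595489339424,928469218192362016,407901468851537952,261431267496658976,368322382208813600,749592802638793248,816125484932384800,300799241672051232,925195840046876704,782317530579044896]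

def fw (w : ℕ) (p : ArrayPt) : ArrayPt := pt ((w >>> (5 * idx p)) % 16)

def sw (w : ℕ) (p : ArrayPt) : (ZMod 3)ˣ := if (w >>> (5 * idx p + 4)) % 2 = 1 then -1 else 1

def decW (x : ArrayPt → ZMod 3) : T :=
  (x (1, 2), x (2, 1), x (2, 2), x (3, 1), x (3, 2), -(x (0, 0) + x (0, 1) + x (0, 2)))

def basisT : List T :=
  [(1,0,0,0,0,0),(0,1,0,0,0,0),(0,0,1,0,0,0),(0,0,0,1,0,0),(0,0,0,0,1,0),(0,0,0,0,0,1)]

theorem enc_lin : ∀ (d : T) (p : ArrayPt), enc d p =
    d.1 * enc (1,0,0,0,0,0) p + d.2.1 * enc (0,1,0,0,0,0) p + d.2.2.1 * enc (0,0,1,0,0,0) p +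
    d.2.2.2.1 * enc (0,0,0,1,0,0) p + d.2.2.2.2.1 * enc (0,0,0,0,1,0) p + d.2.2.2.2.2 * enc (0,0,0,0,0,1) p := by
  decide +kernel

theorem wL_ok : ∀ w ∈ wL, (∀ p q, fw w p = fw w q → p = q) ∧ ∀ e ∈ basisT, ∀ p,
    ((sw w p : (ZMod 3)ˣ) : ZMod 3) * enc e (fw w p) =
      enc (decW fun r => ((sw w r : (ZMod 3)ˣ) : ZMod 3) * enc e (fw w r)) p := by
  decide +kernel

theorem level_ok : ∀ k : Fin 5, ∀ q : ArrayPt, (∀ j : Fin 5, j < k → q ≠ pt j) →
    ∃ w ∈ wL, (∀ j : Fin 5, j < k → fw w (pt j) = pt j) ∧ fw w (pt k) = q := by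
  decide +kernel

/-- The permutation attached to a word. -/
noncomputable def permW (w : ℕ) (hw : w ∈ wL) : Equiv.Perm ArrayPt :=
  Equiv.ofBijective (fw w) (Finite.injective_iff_bijective.mp fun p q h => (wL_ok w hw).1 p q h)

theorem permW_apply (w : ℕ) (hw : w ∈ wL) (p : ArrayPt) : permW w hw p = fw w p := rfl

theorem permW_mono (w : ℕ) (hw : w ∈ wL) : IsMono (permW w hw).symm (sw w) := by
  intro x hx
  obtain ⟨d, rfl⟩ := exists_enc hx
  have hok := (wL_ok w hw).2
  have hmem : ∀ e ∈ basisT, (fun p => ((sw w p : (ZMod 3)ˣ) : ZMod 3) * enc e (fw w p)) ∈ ternaryGolayCode := by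
    intro e he
    have : (fun p => ((sw w p : (ZMod 3)ˣ) : ZMod 3) * enc e (fw w p)) = enc (decW fun r => ((sw w r : (ZMod 3)ˣ) : ZMod 3) * enc e (fw w r)) :=
      funext (hok e he)
    rw [this]
    exact enc_mem _
  have h0 := hmem (1,0,0,0,0,0) (by decide)
  have h1 := hmem (0,1,0,0,0,0) (by decide)
  have h2 := hmem (0,0,1,0,0,0) (by decide)
  have h3 := hmem (0,0,0,1,0,0) (by decide)
  have h4 := hmem (0,0,0,0,1,0) (by decide)
  have h5 := hmem (0,0,0,0,0,1) (by decide)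
  have hsum := ternaryGolayCode.add_mem (ternaryGolayCode.add_mem (ternaryGolayCode.add_mem (ternaryGolayCode.add_mem (ternaryGolayCode.add_mem
    (ternaryGolayCode.smul_mem d.1 h0) (ternaryGolayCode.smul_mem d.2.1 h1)) (ternaryGolayCode.smul_mem d.2.2.1 h2))
    (ternaryGolayCode.smul_mem d.2.2.2.1 h3)) (ternaryGolayCode.smul_mem d.2.2.2.2.1 h4)) (ternaryGolayCode.smul_mem d.2.2.2.2.2 h5)
  convert hsum using 1
  funext p
  simp only [monomialMap, Equiv.symm_symm, permW_apply, Pi.add_apply, Pi.smul_apply, smul_eq_mul]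
  rw [enc_lin d (fw w p)]
  ring

theorem permW_mem (w : ℕ) (hw : w ∈ wL) : permW w hw ∈ monoG := by
  have h : (permW w hw).symm ∈ monoG := ⟨_, permW_mono w hw⟩
  exact (monoG.inv_mem h : (permW w hw).symm⁻¹ ∈ monoG)

theorem exists_M (e : Fin 5 ↪ ArrayPt) :
    ∃ t ∈ monoG, ∀ j : Fin 5, t (pt j) = e j := by
  have key : ∀ k : ℕ, k ≤ 5 → ∃ t ∈ monoG, ∀ j : Fin 5, j.val < k → t (pt j) = e j := by
    intro k
    induction k with
    | zero => intro _; exact ⟨1, monoG.one_mem, fun j hj => absurd hj (Nat.not_lt_zero _)⟩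
    | succ k ih =>
      intro hk
      obtain ⟨t, ht, hte⟩ := ih (by omega)
      set K : Fin 5 := ⟨k, by omega⟩ with hK
      have hq : ∀ j : Fin 5, j < K → t⁻¹ (e K) ≠ pt j := by
        intro j hj h
        have hjk : j.val < k := hj
        have h2 : e K = t (pt j) := by rw [← h]; simp
        rw [hte j hjk] at h2
        have := e.injective h2
        rw [this] at hj
        exact lt_irrefl _ hj
      obtain ⟨w, hw, hfix, hmap⟩ := level_ok K _ hq
      refine ⟨t * permW w hw, monoG.mul_mem ht (permW_mem w hw), fun j hj => ?_⟩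
      rw [Equiv.Perm.mul_apply, permW_apply]
      by_cases hjk : j.val < k
      · rw [hfix j hjk, hte j hjk]
      · have hjK : j = K := Fin.ext (by simp [hK]; omega)
        rw [hjK, hmap]
        simp
  obtain ⟨t, ht, h⟩ := key 5 le_rfl
  exact ⟨t, ht, fun j => h j j.isLt⟩

theorem monoG_eq : monoG = setSystemAut (↑hexads : Set (Finset ArrayPt)) := by
  apply le_antisymm monoG_le
  intro g hg
  have hinj : Function.Injective (fun k : Fin 5 => g (pt k)) := by
    have h : Function.Injective (fun k : Fin 5 => pt k) := by decide +kernel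
    exact fun a b hab => h (g.injective hab)
  obtain ⟨t, ht, hte⟩ := exists_M ⟨_, hinj⟩
  have h1 : t⁻¹ * g ∈ setSystemAut (↑hexads : Set (Finset ArrayPt)) :=
    Subgroup.mul_mem _ (Subgroup.inv_mem _ (monoG_le ht)) hg
  have h2 := aut_fix_five h1 (fun k => by
    rw [Equiv.Perm.mul_apply, Equiv.Perm.inv_eq_iff_eq]
    exact (hte k).symm)
  have h3 : t = g := inv_mul_eq_one.mp h2
  rw [← h3]
  exact ht

theorem card_aut : Nat.card (setSystemAut (↑hexads : Set (Finset ArrayPt))) = 95040 := by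
  classical
  have hinj0 : Function.Injective (fun k : Fin 5 => pt k) := by decide +kernel
  let φ : setSystemAut (↑hexads : Set (Finset ArrayPt)) → (Fin 5 ↪ ArrayPt) := fun g =>
    ⟨fun k => (g : Equiv.Perm ArrayPt) (pt k), fun a b hab => hinj0 ((g : Equiv.Perm ArrayPt).injective hab)⟩
  have hφ : Function.Bijective φ := by
    constructor
    · intro g g' h
      have h1 : ((g : Equiv.Perm ArrayPt))⁻¹ * g' ∈ setSystemAut (↑hexads : Set (Finset ArrayPt)) :=
        Subgroup.mul_mem _ (Subgroup.inv_mem _ g.2) g'.2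
      have h2 := aut_fix_five h1 (fun k => by
        rw [Equiv.Perm.mul_apply, Equiv.Perm.inv_eq_iff_eq]
        have := DFunLike.congr_fun h k
        exact this.symm)
      exact Subtype.ext (inv_mul_eq_one.mp h2)
    · intro e
      obtain ⟨t, ht, hte⟩ := exists_M e
      refine ⟨⟨t, monoG_le ht⟩, ?_⟩
      exact Function.Embedding.ext fun k => hte k
  rw [Nat.card_congr (Equiv.ofBijective φ hφ), Nat.card_eq_fintype_card, Fintype.card_embedding_eq]
  rfl

end Cfsg.Agent.H07.Ternary
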