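import Mathlib
import Cfsg.Agent.Lib.H07.MatC

/-!
# Matrices of degree 78 modulo 13, with rows packed into natural numbers

A product is computed row by row as a linear combination of packed rows, so that the big-number
arithmetic of the kernel does most of the work.
-/

set_option autoImplicit false

namespace Cfsg.Agent.H07.Z13

open Cfsg.Agent.H07.MatC

noncomputable section

/-- A digit of a packed row. -/
def dg (x j : ℕ) : ℕ := rd 16 x j

/-- A packed row of a packed matrix. -/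
def rowOf (A i : ℕ) : ℕ := rd 1248 A i

theorem enc_zero' (b : ℕ) (f : ℕ → ℕ) : enc b f 0 = 0 := rfl

theorem enc_add' (b : ℕ) (f g : ℕ → ℕ) (n : ℕ) :
    enc b (fun k => f k + g k) n = enc b f n + enc b g n := by
  induction n with
  | zero => rfl
  | succ n ih =>
    rw [enc_succ, enc_succ, enc_succ, ih]
    ring

theorem enc_smul' (b a : ℕ) (f : ℕ → ℕ) (n : ℕ) :
    enc b (fun k => a * f k) n = a * enc b f n := by
  induction n with
  | zero =>
    rw [enc_zero', enc_zero', Nat.mul_zero]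
  | succ n ih =>
    rw [enc_succ, enc_succ, ih]
    ring

theorem enc_const_zero (b n : ℕ) : enc b (fun _ => 0) n = 0 := by
  induction n with
  | zero => rfl
  | succ n ih =>
    rw [enc_succ, ih]
    simp

theorem enc_rd_mod (b x n : ℕ) : enc b (rd b x) n = x % 2 ^ (b * n) := by
  induction n with
  | zero =>
    rw [enc_zero', Nat.mul_zero, pow_zero, Nat.mod_one]
  | succ n ih =>
    rw [enc_succ, ih, rd_eq, Nat.mul_succ, pow_add, Nat.mod_mul]
    ring

theorem enc_dg_row (A k : ℕ) : enc 16 (rd 16 (rowOf A k)) 78 = rowOf A k := by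
  rw [enc_rd_mod]
  exact Nat.mod_eq_of_lt (rd_lt 1248 A k)

/-- The linear combination of packed rows. -/
def lc (a R : ℕ → ℕ) : ℕ → ℕ
  | 0 => 0
  | n + 1 => Nat.add (lc a R n) (Nat.mul (a n) (R n))

theorem lc_enc (a R : ℕ → ℕ) (b m : ℕ) (hR : ∀ k, enc b (rd b (R k)) m = R k) (n : ℕ) :
    lc a R n = enc b (fun j => ∑ k ∈ Finset.range n, a k * rd b (R k) j) m := by
  induction n with
  | zero =>
    simp only [Finset.range_zero, Finset.sum_empty]
    rw [enc_const_zero]
    rfl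
  | succ n ih =>
    show lc a R n + a n * R n = _
    simp only [Finset.sum_range_succ]
    rw [enc_add', enc_smul', hR, ih]

/-- Reducing the digits modulo 13. -/
def red13 (s : ℕ) : ℕ := enc 16 (fun j => Nat.mod (dg s j) 13) 78

/-- A row of the product. -/
def rowProd (A B i : ℕ) : ℕ := red13 (lc (dg (rowOf A i)) (rowOf B) 78)

/-- The packed product. -/
def mulP (A B : ℕ) : ℕ := enc 1248 (rowProd A B) 78

/-- All digits are reduced. -/
def WF (A : ℕ) : Prop := ∀ i, i < 78 → ∀ j, j < 78 → dg (rowOf A i) j < 13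

/-- The test of `WF`. -/
def wfC (A : ℕ) : Bool :=
  (List.range 78).all fun i => (List.range 78).all fun j => Nat.ble (Nat.succ (dg (rowOf A i) j)) 13

theorem wf_of_wfC (A : ℕ) (h : wfC A = true) : WF A := by
  intro i hi j hj
  unfold wfC at h
  rw [List.all_eq_true] at h
  have h1 := h i (List.mem_range.mpr hi)
  rw [List.all_eq_true] at h1
  exact Nat.le_of_ble_eq_true (h1 j (List.mem_range.mpr hj))

/-- The matrix of a packed number. -/
def mF (A : ℕ) : Matrix (Fin 78) (Fin 78) (ZMod 13) :=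
  Matrix.of fun i j => ((dg (rowOf A i.1) j.1 : ℕ) : ZMod 13)

theorem red13_lt (s : ℕ) : red13 s < 2 ^ 1248 := by
  have h := enc_lt 16 (fun j => Nat.mod (dg s j) 13) 78
    (fun k _ => lt_trans (Nat.mod_lt _ (by norm_num)) (by norm_num))
  exact h

theorem rowOf_mulP (A B i : ℕ) (hi : i < 78) : rowOf (mulP A B) i = rowProd A B i :=
  rd_enc 1248 (by norm_num) _ 78 (fun k _ => red13_lt _) i hi

theorem dg_red13 (s j : ℕ) (hj : j < 78) : dg (red13 s) j = dg s j % 13 :=
  rd_enc 16 (by norm_num) _ 78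
    (fun k _ => lt_trans (Nat.mod_lt _ (by norm_num)) (by norm_num)) j hj

theorem dg_lc (a R : ℕ → ℕ) (ha : ∀ k, k < 78 → a k < 13)
    (hR : ∀ k, enc 16 (rd 16 (R k)) 78 = R k)
    (hd : ∀ k, k < 78 → ∀ j, j < 78 → dg (R k) j < 13) (j : ℕ) (hj : j < 78) :
    dg (lc a R 78) j = ∑ k ∈ Finset.range 78, a k * dg (R k) j := by
  rw [lc_enc a R 16 78 hR 78]
  refine rd_enc 16 (by norm_num) _ 78 (fun j' hj' => ?_) j hj
  have h1 : ∑ k ∈ Finset.range 78, a k * rd 16 (R k) j' ≤ ∑ _k ∈ Finset.range 78, 12 * 12 := by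
    apply Finset.sum_le_sum
    intro k hk
    have hk' := Finset.mem_range.mp hk
    have h2 := ha k hk'
    have h3 : rd 16 (R k) j' < 13 := hd k hk' j' hj'
    exact Nat.mul_le_mul (by omega) (by omega)
  have h2 : ∑ _k ∈ Finset.range 78, 12 * 12 = 11232 := by simp
  rw [h2] at h1
  have h3 : (2 : ℕ) ^ 16 = 65536 := by norm_num
  omega

theorem dg_mulP (A B : ℕ) (hA : WF A) (hB : WF B) (i : ℕ) (hi : i < 78) (j : ℕ) (hj : j < 78) :
    dg (rowOf (mulP A B) i) j =
      (∑ k ∈ Finset.range 78, dg (rowOf A i) k * dg (rowOf B k) j) % 13 := by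
  rw [rowOf_mulP A B i hi]
  unfold rowProd
  rw [dg_red13 _ j hj]
  rw [dg_lc _ _ (fun k hk => hA i hi k hk) (enc_dg_row B) (fun k hk j' hj' => hB k hk j' hj') j hj]

theorem wf_mulP (A B : ℕ) (hA : WF A) (hB : WF B) : WF (mulP A B) := by
  intro i hi j hj
  rw [dg_mulP A B hA hB i hi j hj]
  exact Nat.mod_lt _ (by norm_num)

theorem mF_mulP (A B : ℕ) (hA : WF A) (hB : WF B) : mF (mulP A B) = mF A * mF B := by
  ext i j
  rw [Matrix.mul_apply]
  show ((dg (rowOf (mulP A B) i.1) j.1 : ℕ) : ZMod 13) =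
    ∑ k : Fin 78, ((dg (rowOf A i.1) k.1 : ℕ) : ZMod 13) * ((dg (rowOf B k.1) j.1 : ℕ) : ZMod 13)
  rw [dg_mulP A B hA hB i.1 i.2 j.1 j.2, ZMod.natCast_mod, Nat.cast_sum]
  rw [← Fin.sum_univ_eq_sum_range (fun k => ((dg (rowOf A i.1) k * dg (rowOf B k) j.1 : ℕ) : ZMod 13)) 78]
  apply Finset.sum_congr rfl
  intro k _
  rw [Nat.cast_mul]

/-- The product of a list of packed matrices, from the left. -/
def foldP : ℕ → List ℕ → ℕ
  | acc, [] => acc
  | acc, y :: w => force (mulP acc y) (fun a => foldP a w)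

theorem foldP_spec (acc : ℕ) (w : List ℕ) (hacc : WF acc) (hw : ∀ y ∈ w, WF y) :
    WF (foldP acc w) ∧ mF (foldP acc w) = mF acc * (w.map mF).prod := by
  induction w generalizing acc with
  | nil =>
    exact ⟨hacc, by simp [foldP]⟩
  | cons y w ih =>
    have hy : WF y := hw y (List.mem_cons_self ..)
    have hw' : ∀ z ∈ w, WF z := fun z hz => hw z (List.mem_cons_of_mem _ hz)
    obtain ⟨h1, h2⟩ := ih (mulP acc y) (wf_mulP acc y hacc hy) hw'
    rw [foldP, force_eq]
    refine ⟨h1, ?_⟩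
    rw [h2, mF_mulP acc y hacc hy, List.map_cons, List.prod_cons, mul_assoc]

/-- The test of being the packed identity. -/
def isIdP (A : ℕ) : Bool :=
  (List.range 78).all fun i => (List.range 78).all fun j =>
    Nat.beq (dg (rowOf A i) j) (if Nat.beq i j = true then 1 else 0)

theorem mF_of_isId (A : ℕ) (h : isIdP A = true) : mF A = 1 := by
  ext i j
  show ((dg (rowOf A i.1) j.1 : ℕ) : ZMod 13) = _
  unfold isIdP at h
  rw [List.all_eq_true] at h
  have h1 := h i.1 (List.mem_range.mpr i.2)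
  rw [List.all_eq_true] at h1
  have h2 := h1 j.1 (List.mem_range.mpr j.2)
  have h3 : dg (rowOf A i.1) j.1 = if Nat.beq i.1 j.1 = true then 1 else 0 := Nat.eq_of_beq_eq_true h2
  rw [h3]
  by_cases hij : i = j
  · subst hij
    simp
  · have : Nat.beq i.1 j.1 = false := by
      cases h4 : Nat.beq i.1 j.1 with
      | false => rfl
      | true => exact absurd (Fin.ext (Nat.eq_of_beq_eq_true h4)) hij
    rw [this]
    simp [hij]

theorem mF_ne_one (A i j : ℕ) (hi : i < 78) (hj : j < 78) (hij : i ≠ j)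
    (h1 : Nat.ble (dg (rowOf A i) j) 12 = true) (h2 : Nat.ble 1 (dg (rowOf A i) j) = true) :
    mF A ≠ 1 := by
  intro h
  have h3 := congrFun (congrFun h ⟨i, hi⟩) ⟨j, hj⟩
  have h4 : ((dg (rowOf A i) j : ℕ) : ZMod 13) = 0 := by
    have h5 : (1 : Matrix (Fin 78) (Fin 78) (ZMod 13)) ⟨i, hi⟩ ⟨j, hj⟩ = 0 :=
      Matrix.one_apply_ne (fun e => hij (Fin.mk.inj_iff.mp e))
    rw [h5] at h3
    exact h3
  have h6 := (ZMod.natCast_eq_zero_iff _ _).mp h4
  have h7 := Nat.le_of_ble_eq_true h1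
  have h8 := Nat.le_of_ble_eq_true h2
  have h9 := Nat.le_of_dvd h8 h6
  omega

end

end Cfsg.Agent.H07.Z13
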